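import Mathlib
import Cfsg.Agent.Lib.Helper97.TransvM

/-!
# S5634 (helper65): the monomial group is maximal in `SL_n(q)`, `q ≥ 5` — foundations

`IsMono A`: every column of `A` has at most one nonzero entry (for invertible `A`: monomial).
`MonIn X`: `X` contains every monomial matrix of determinant `1`.
`dg a b t`: the diagonal matrix with `t` at `a`, `t⁻¹` at `b`.
`StabJ J A`: `A` stabilises the coordinate subspace `V_J`; `blk J A`: the block on the complement.
`tinv X`: the inverse-transpose group.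
The `Prop`s at the end are the statements of the pieces (see notes 1277/1278).
-/

set_option autoImplicit false
set_option linter.unusedSectionVars false

namespace Cfsg.Agent.Lib.Helper65.Mono

open Matrix

section
variable {F : Type*} [Field F] {κ : Type} [Fintype κ] [DecidableEq κ]

/-- every column has at most one nonzero entry -/
def IsMono (A : Matrix κ κ F) : Prop := ∀ j, ∃ i, ∀ i', A i' j ≠ 0 → i' = i

theorem isMono_one : IsMono (1 : Matrix κ κ F) := by
  intro j
  refine ⟨j, fun i' h => ?_⟩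
  by_contra hne
  exact h (Matrix.one_apply_ne hne)

theorem IsMono.mul {A B : Matrix κ κ F} (hA : IsMono A) (hB : IsMono B) : IsMono (A * B) := by
  intro j
  obtain ⟨k, hk⟩ := hB j
  obtain ⟨i, hi⟩ := hA k
  refine ⟨i, fun i' h => ?_⟩
  apply hi
  intro h0
  apply h
  rw [Matrix.mul_apply]
  apply Finset.sum_eq_zero
  intro l _
  by_cases hl : l = k
  · rw [hl, h0, zero_mul]
  · have : B l j = 0 := by
      by_contra hne
      exact hl (hk l hne)
    rw [this, mul_zero]

theorem gl_mul_inv_apply (x : GL κ F) (i j : κ) :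
    ∑ k, (x : Matrix κ κ F) i k * ((x⁻¹ : GL κ F) : Matrix κ κ F) k j = if i = j then 1 else 0 := by
  have h : (x : Matrix κ κ F) * ((x⁻¹ : GL κ F) : Matrix κ κ F) = 1 := by
    rw [← Units.val_mul, mul_inv_cancel, Units.val_one]
  have h2 := congrFun (congrFun h i) j
  rw [Matrix.mul_apply, Matrix.one_apply] at h2
  exact h2

theorem gl_inv_mul_apply (x : GL κ F) (i j : κ) :
    ∑ k, ((x⁻¹ : GL κ F) : Matrix κ κ F) i k * (x : Matrix κ κ F) k j = if i = j then 1 else 0 := by
  have h : ((x⁻¹ : GL κ F) : Matrix κ κ F) * (x : Matrix κ κ F) = 1 := by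
    rw [← Units.val_mul, inv_mul_cancel, Units.val_one]
  have h2 := congrFun (congrFun h i) j
  rw [Matrix.mul_apply, Matrix.one_apply] at h2
  exact h2

/-- the inverse of an invertible monomial matrix is monomial -/
theorem isMono_inv (g : GL κ F) (h : IsMono (g : Matrix κ κ F)) :
    IsMono ((g⁻¹ : GL κ F) : Matrix κ κ F) := by
  classical
  choose σ hσ using h
  -- `(g⁻¹) k (σ j) * g (σ j) j = δ_{kj}`
  have key : ∀ k j, ((g⁻¹ : GL κ F) : Matrix κ κ F) k (σ j) * (g : Matrix κ κ F) (σ j) j =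
      if k = j then 1 else 0 := by
    intro k j
    rw [← gl_inv_mul_apply g k j]
    symm
    apply Finset.sum_eq_single (σ j)
    · intro l _ hl
      have : (g : Matrix κ κ F) l j = 0 := by
        by_contra hne
        exact hl (hσ j l hne)
      rw [this, mul_zero]
    · intro hh
      exact absurd (Finset.mem_univ _) hh
  have hinj : Function.Injective σ := by
    intro j j' hjj
    by_contra hne
    have h1 := key j j
    have h2 := key j j'
    rw [if_pos rfl] at h1
    rw [if_neg hne, ← hjj] at h2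
    rcases mul_eq_zero.mp h2 with h3 | h3
    · rw [h3, zero_mul] at h1
      exact zero_ne_one h1
    · have h4 := key j' j'
      rw [if_pos rfl, ← hjj, h3, mul_zero] at h4
      exact zero_ne_one h4
  have hsurj : Function.Surjective σ := Finite.surjective_of_injective hinj
  intro i
  obtain ⟨j, rfl⟩ := hsurj i
  refine ⟨j, fun k hk => ?_⟩
  by_contra hne
  have h1 := key k j
  rw [if_neg hne] at h1
  rcases mul_eq_zero.mp h1 with h3 | h3
  · exact hk h3
  · have h4 := key j j
    rw [if_pos rfl, h3, mul_zero] at h4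
    exact zero_ne_one h4

theorem isMono_inv_iff (g : GL κ F) :
    IsMono ((g⁻¹ : GL κ F) : Matrix κ κ F) ↔ IsMono (g : Matrix κ κ F) := by
  constructor
  · intro h
    have := isMono_inv g⁻¹ h
    rwa [inv_inv] at this
  · exact isMono_inv g

/-- `X` contains every monomial matrix of determinant `1` -/
def MonIn (X : Subgroup (GL κ F)) : Prop :=
  ∀ g : GL κ F, (g : Matrix κ κ F).det = 1 → IsMono (g : Matrix κ κ F) → g ∈ X

/-- `Y` contains every monomial matrix -/
def GMonIn (Y : Subgroup (GL κ F)) : Prop :=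
  ∀ g : GL κ F, IsMono (g : Matrix κ κ F) → g ∈ Y

/-- `X` contains a nontrivial root element `1 + a E_ij` -/
def RootIn (X : Subgroup (GL κ F)) : Prop :=
  ∃ (i j : κ) (a : F) (g : GL κ F), i ≠ j ∧ a ≠ 0 ∧ g ∈ X ∧
    (g : Matrix κ κ F) = Matrix.transvection i j a

/-! ### diagonal elements -/

/-- the diagonal matrix of a family of units -/
def diagU (d : κ → Fˣ) : GL κ F :=
  ⟨Matrix.diagonal (fun i => (d i : F)), Matrix.diagonal (fun i => (((d i)⁻¹ : Fˣ) : F)),
    by rw [Matrix.diagonal_mul_diagonal, ← Matrix.diagonal_one]; congr 1; funext i; simp,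
    by rw [Matrix.diagonal_mul_diagonal, ← Matrix.diagonal_one]; congr 1; funext i; simp⟩

theorem diagU_val (d : κ → Fˣ) :
    (diagU d : Matrix κ κ F) = Matrix.diagonal (fun i => (d i : F)) := rfl

theorem diagU_inv_val (d : κ → Fˣ) :
    (((diagU d)⁻¹ : GL κ F) : Matrix κ κ F) =
      Matrix.diagonal (fun i => (((d i)⁻¹ : Fˣ) : F)) := rfl

theorem isMono_diagonal (d : κ → F) : IsMono (Matrix.diagonal d) := by
  intro j
  refine ⟨j, fun i' h => ?_⟩
  by_contra hne
  exact h (Matrix.diagonal_apply_ne _ hne)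

theorem isMono_diagU (d : κ → Fˣ) : IsMono (diagU d : Matrix κ κ F) := isMono_diagonal _

theorem det_diagU (d : κ → Fˣ) : (diagU d : Matrix κ κ F).det = ∏ i, (d i : F) := by
  rw [diagU_val, Matrix.det_diagonal]

/-- the exponents of `d_ab(t)` -/
def dgv (a b : κ) (t : Fˣ) : κ → Fˣ := fun i => if i = a then t else if i = b then t⁻¹ else 1

/-- `d_ab(t)`: `t` at `a`, `t⁻¹` at `b`, `1` elsewhere -/
def dg (a b : κ) (t : Fˣ) : GL κ F := diagU (dgv a b t)

theorem det_dg {a b : κ} (hab : a ≠ b) (t : Fˣ) : (dg a b t : Matrix κ κ F).det = 1 := by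
  rw [dg, det_diagU]
  have h1 : ∏ i, ((dgv a b t i : Fˣ) : F) = ((∏ i, dgv a b t i : Fˣ) : F) := by
    rw [Units.coe_prod]
  rw [h1]
  have h2 : ∏ i, dgv a b t i = 1 := by
    rw [← Finset.mul_prod_erase Finset.univ _ (Finset.mem_univ a),
      ← Finset.mul_prod_erase _ _ (Finset.mem_erase.mpr ⟨hab.symm, Finset.mem_univ b⟩)]
    have h3 : ∀ i ∈ (Finset.univ.erase a).erase b, dgv a b t i = 1 := by
      intro i hi
      have hib : i ≠ b := (Finset.mem_erase.mp hi).1
      have hia : i ≠ a := (Finset.mem_erase.mp (Finset.mem_erase.mp hi).2).1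
      simp [dgv, hia, hib]
    rw [Finset.prod_eq_one h3]
    simp [dgv, hab.symm]
  rw [h2, Units.val_one]

theorem dg_mem {X : Subgroup (GL κ F)} (hX : MonIn X) {a b : κ} (hab : a ≠ b) (t : Fˣ) :
    dg a b t ∈ X := hX _ (det_dg hab t) (isMono_diagU _)

/-- entries of a torus conjugate -/
theorem conj_diagU_apply (x : GL κ F) (d : κ → Fˣ) (i j : κ) :
    ((x * diagU d * x⁻¹ : GL κ F) : Matrix κ κ F) i j =
      ∑ k, (x : Matrix κ κ F) i k * (d k : F) * ((x⁻¹ : GL κ F) : Matrix κ κ F) k j := by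
  rw [Units.val_mul, Units.val_mul, diagU_val, Matrix.mul_apply]
  apply Finset.sum_congr rfl
  intro k _
  rw [Matrix.mul_diagonal]

/-- formula `(*)`: `x d_ab(t) x⁻¹ = 1 + (t-1) u_a φ_a + (t⁻¹-1) u_b φ_b` -/
theorem conj_dg_apply (x : GL κ F) {a b : κ} (hab : a ≠ b) (t : Fˣ) (i j : κ) :
    ((x * dg a b t * x⁻¹ : GL κ F) : Matrix κ κ F) i j =
      (if i = j then 1 else 0) +
        ((t : F) - 1) * (x : Matrix κ κ F) i a * ((x⁻¹ : GL κ F) : Matrix κ κ F) a j +
        (((t⁻¹ : Fˣ) : F) - 1) * (x : Matrix κ κ F) i b * ((x⁻¹ : GL κ F) : Matrix κ κ F) b j := by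
  rw [dg, conj_diagU_apply, ← gl_mul_inv_apply x i j]
  have h : ∀ k, (x : Matrix κ κ F) i k * ((dgv a b t k : Fˣ) : F) *
      ((x⁻¹ : GL κ F) : Matrix κ κ F) k j =
      (x : Matrix κ κ F) i k * ((x⁻¹ : GL κ F) : Matrix κ κ F) k j +
      ((if k = a then ((t : F) - 1) * (x : Matrix κ κ F) i a *
          ((x⁻¹ : GL κ F) : Matrix κ κ F) a j else 0) +
       (if k = b then (((t⁻¹ : Fˣ) : F) - 1) * (x : Matrix κ κ F) i b *
          ((x⁻¹ : GL κ F) : Matrix κ κ F) b j else 0)) := by
    intro k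
    by_cases hka : k = a
    · subst hka
      simp [dgv, hab]
      ring
    · by_cases hkb : k = b
      · subst hkb
        simp [dgv, hka]
        ring
      · simp [dgv, hka, hkb]
  rw [Finset.sum_congr rfl (fun k _ => h k), Finset.sum_add_distrib, Finset.sum_add_distrib,
    Finset.sum_ite_eq' Finset.univ a, Finset.sum_ite_eq' Finset.univ b]
  simp only [Finset.mem_univ, if_true]
  ring

/-! ### coordinate subspaces and blocks -/

/-- `A` stabilises the coordinate subspace `V_J` -/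
def StabJ (J : Finset κ) (A : Matrix κ κ F) : Prop := ∀ i j, i ∉ J → j ∈ J → A i j = 0

/-- `A = 1 + N` with `N` supported on `J × Jᶜ` -/
def UJ (J : Finset κ) (A : Matrix κ κ F) : Prop :=
  ∀ i j, A i j ≠ (1 : Matrix κ κ F) i j → i ∈ J ∧ j ∉ J

/-- the block of `A` on the complement of `J` -/
def blk (J : Finset κ) (A : Matrix κ κ F) : Matrix {i // i ∉ J} {i // i ∉ J} F :=
  A.submatrix Subtype.val Subtype.val

theorem stabJ_one (J : Finset κ) : StabJ J (1 : Matrix κ κ F) := by
  intro i j hi hj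
  apply Matrix.one_apply_ne
  rintro rfl
  exact hi hj

theorem StabJ.mul {J : Finset κ} {A B : Matrix κ κ F} (hA : StabJ J A) (hB : StabJ J B) :
    StabJ J (A * B) := by
  intro i j hi hj
  rw [Matrix.mul_apply]
  apply Finset.sum_eq_zero
  intro k _
  by_cases hk : k ∈ J
  · rw [hA i k hi hk, zero_mul]
  · rw [hB k j hk hj, mul_zero]

/-- the inverse of an invertible matrix stabilising `V_J` stabilises `V_J` -/
theorem stabJ_inv {J : Finset κ} (g : GL κ F) (h : StabJ J (g : Matrix κ κ F)) :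
    StabJ J ((g⁻¹ : GL κ F) : Matrix κ κ F) := by
  classical
  have hb : Matrix.BlockTriangular (g : Matrix κ κ F) (fun i => if i ∈ J then (0 : ℕ) else 1) := by
    intro i j hij
    by_cases hi : i ∈ J
    · simp [hi] at hij
    · by_cases hj : j ∈ J
      · exact h i j hi hj
      · simp [hi, hj] at hij
  have : Invertible (g : Matrix κ κ F) := Units.invertible g
  have hb2 := Matrix.blockTriangular_inv_of_blockTriangular hb
  rw [Matrix.coe_units_inv]
  intro i j hi hj
  apply hb2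
  simp [hi, hj]

theorem blk_one (J : Finset κ) : blk J (1 : Matrix κ κ F) = 1 := by
  ext i j
  simp [blk, Matrix.one_apply, Subtype.ext_iff]

/-- the block map is multiplicative on matrices stabilising `V_J` -/
theorem blk_mul {J : Finset κ} {A B : Matrix κ κ F} (hA : StabJ J A) :
    blk J (A * B) = blk J A * blk J B := by
  classical
  ext i k
  simp only [blk, Matrix.submatrix_apply, Matrix.mul_apply]
  rw [← Fintype.sum_subtype_add_sum_subtype (fun j => j ∉ J)
    (fun j => A i.1 j * B j k.1)]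
  have h0 : ∑ j : {j // ¬ j ∉ J}, A i.1 j.1 * B j.1 k.1 = 0 := by
    apply Finset.sum_eq_zero
    intro j _
    rw [hA i.1 j.1 i.2 (not_not.mp j.2), zero_mul]
  rw [h0, add_zero]

/-! ### the inverse-transpose group -/

/-- `g ↦ (g⁻¹)ᵀ` -/
def tinvHom : GL κ F →* GL κ F where
  toFun g := ⟨((g⁻¹ : GL κ F) : Matrix κ κ F)ᵀ, (g : Matrix κ κ F)ᵀ,
    by rw [← Matrix.transpose_mul, ← Units.val_mul, mul_inv_cancel, Units.val_one,
      Matrix.transpose_one],
    by rw [← Matrix.transpose_mul, ← Units.val_mul, inv_mul_cancel, Units.val_one,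
      Matrix.transpose_one]⟩
  map_one' := by
    apply Units.ext
    simp
  map_mul' g h := by
    apply Units.ext
    simp [Matrix.transpose_mul]

theorem tinvHom_val (g : GL κ F) :
    (tinvHom g : Matrix κ κ F) = ((g⁻¹ : GL κ F) : Matrix κ κ F)ᵀ := rfl

theorem tinvHom_inv_val (g : GL κ F) :
    (((tinvHom g)⁻¹ : GL κ F) : Matrix κ κ F) = (g : Matrix κ κ F)ᵀ := rfl

theorem tinvHom_tinvHom (g : GL κ F) : tinvHom (tinvHom g) = g := by
  apply Units.ext
  rw [tinvHom_val, tinvHom_inv_val, Matrix.transpose_transpose]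

/-- the inverse-transpose group -/
def tinv (X : Subgroup (GL κ F)) : Subgroup (GL κ F) := X.map tinvHom

theorem mem_tinv {X : Subgroup (GL κ F)} {g : GL κ F} : g ∈ tinv X ↔ tinvHom g ∈ X := by
  constructor
  · rintro ⟨x, hx, rfl⟩
    rw [tinvHom_tinvHom]
    exact hx
  · intro h
    exact ⟨tinvHom g, h, tinvHom_tinvHom g⟩

/-! ### the statements of the pieces -/

/-- (P1): a non-monomial element of `X` has no monomial column -/
def P1 (X : Subgroup (GL κ F)) : Prop :=
  ∀ x ∈ X, ∀ k k' : κ, (∀ i, i ≠ k' → (x : Matrix κ κ F) i k = 0) → IsMono (x : Matrix κ κ F)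

/-- (P1'): a non-monomial element of `X` maps no coordinate plane onto a coordinate plane -/
def P1' (X : Subgroup (GL κ F)) : Prop :=
  ∀ x ∈ X, ∀ a b i i' : κ, a ≠ b → i ≠ i' →
    (∀ r, r ≠ i → r ≠ i' → (x : Matrix κ κ F) r a = 0 ∧ (x : Matrix κ κ F) r b = 0) →
    IsMono (x : Matrix κ κ F)

/-- (P3), columns: a column of a non-monomial element of `X` has at most one zero -/
def P3col (X : Subgroup (GL κ F)) : Prop :=
  ∀ x ∈ X, ¬ IsMono (x : Matrix κ κ F) → ∀ k a b : κ, a ≠ b →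
    (x : Matrix κ κ F) a k = 0 → (x : Matrix κ κ F) b k = 0 → False

/-- (P3), rows -/
def P3row (X : Subgroup (GL κ F)) : Prop :=
  ∀ x ∈ X, ¬ IsMono (x : Matrix κ κ F) → ∀ k a b : κ, a ≠ b →
    (x : Matrix κ κ F) k a = 0 → (x : Matrix κ κ F) k b = 0 → False

/-- (RK): torus conjugates of non-monomial elements are not monomial -/
def RKP (X : Subgroup (GL κ F)) : Prop :=
  ∀ x ∈ X, ¬ IsMono (x : Matrix κ κ F) → ∀ a b : κ, a ≠ b → ∀ t : Fˣ, t ≠ 1 →
    ¬ IsMono ((x * dg a b t * x⁻¹ : GL κ F) : Matrix κ κ F)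

/-- (P4*): two columns with equal ratio at two rows are proportional wherever both are nonzero -/
def P4starP (X : Subgroup (GL κ F)) : Prop :=
  ∀ x ∈ X, ¬ IsMono (x : Matrix κ κ F) → ∀ a b j j' : κ, a ≠ b → j ≠ j' →
    (x : Matrix κ κ F) j a ≠ 0 → (x : Matrix κ κ F) j b ≠ 0 →
    (x : Matrix κ κ F) j' a ≠ 0 → (x : Matrix κ κ F) j' b ≠ 0 →
    (x : Matrix κ κ F) j b * (x : Matrix κ κ F) j' a =
      (x : Matrix κ κ F) j a * (x : Matrix κ κ F) j' b →
    ∀ i, (x : Matrix κ κ F) i a ≠ 0 → (x : Matrix κ κ F) i b ≠ 0 →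
      (x : Matrix κ κ F) i b * (x : Matrix κ κ F) j a =
        (x : Matrix κ κ F) i a * (x : Matrix κ κ F) j b

/-- (A1) -/
def A1P (X : Subgroup (GL κ F)) : Prop :=
  ∀ J : Finset κ, 3 ≤ Fintype.card {i // i ∉ J} → ∀ g ∈ X, UJ J (g : Matrix κ κ F) → g ≠ 1 →
    RootIn X

/-- (LL) -/
def LLP (X : Subgroup (GL κ F)) : Prop :=
  ∀ J : Finset κ, J.Nonempty → 3 ≤ Fintype.card {i // i ∉ J} → ∀ z ∈ X,
    StabJ J (z : Matrix κ κ F) →
    (∃ (k l : {i // i ∉ J}) (c : F), k ≠ l ∧ c ≠ 0 ∧
      blk J (z : Matrix κ κ F) = Matrix.transvection k l c) → RootIn X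

/-- (BLK)+(G) -/
def QGP (X : Subgroup (GL κ F)) : Prop :=
  ∀ J : Finset κ, J.Nonempty → 3 ≤ Fintype.card {i // i ∉ J} → ∀ x ∈ X,
    StabJ J (x : Matrix κ κ F) → ¬ IsMono (blk J (x : Matrix κ κ F)) →
    ∃ z ∈ X, StabJ J (z : Matrix κ κ F) ∧ ∃ (k l : {i // i ∉ J}) (c : F), k ≠ l ∧ c ≠ 0 ∧
      blk J (z : Matrix κ κ F) = Matrix.transvection k l c

/-- (G): overgroups of the full monomial group of `GL(κ)` -/
def GProp (F : Type*) [Field F] : Prop :=
  ∀ (κ : Type) [Fintype κ] [DecidableEq κ] (Y : Subgroup (GL κ F)), 3 ≤ Fintype.card κ →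
    GMonIn Y → (∃ g ∈ Y, ¬ IsMono (g : Matrix κ κ F)) → RootIn Y

/-- the monomial group of determinant `1` is transitive on vectors with exactly one zero -/
def TransP (κ : Type) [Fintype κ] [DecidableEq κ] (F : Type*) [Field F] : Prop :=
  ∀ (u w : κ → F) (p p' : κ), u p = 0 → (∀ i, i ≠ p → u i ≠ 0) → w p' = 0 →
    (∀ i, i ≠ p' → w i ≠ 0) →
    ∃ m : GL κ F, (m : Matrix κ κ F).det = 1 ∧ IsMono (m : Matrix κ κ F) ∧
      (m : Matrix κ κ F) *ᵥ u = w

/-- the main theorem for the standard frame -/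
def MonoMaxP (κ : Type) [Fintype κ] [DecidableEq κ] (F : Type*) [Field F] : Prop :=
  ∀ X : Subgroup (GL κ F), MonIn X → X ≤ Cfsg.Geo.specialLinear κ F →
    (∃ x ∈ X, ¬ IsMono (x : Matrix κ κ F)) → Cfsg.Geo.specialLinear κ F ≤ X

end

end Cfsg.Agent.Lib.Helper65.Mono
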