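import Mathlib
import Cfsg.Agent.Lib.Helper65.MonoDefs

/-!
# S5634 (helper65): kit for monomial matrices

`monoM σ d` / `monoG σ d`: the monomial matrix with `d s` at `(σ s, s)`;
`normDet g j₀`: `g` with column `j₀` rescaled so that the determinant is `1`;
`extM J C` / `extG J C`: the block matrix `1 ⊕ C` for `C` on the complement of `J`.
-/

set_option autoImplicit false
set_option linter.unusedSectionVars false

namespace Cfsg.Agent.Lib.Helper65.Mono

open Matrix

section
variable {F : Type*} [Field F] {κ : Type} [Fintype κ] [DecidableEq κ]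

/-- the monomial matrix with `d s` at position `(σ s, s)` -/
def monoM (σ : Equiv.Perm κ) (d : κ → F) : Matrix κ κ F := fun r s => if r = σ s then d s else 0

theorem monoM_apply (σ : Equiv.Perm κ) (d : κ → F) (r s : κ) :
    monoM σ d r s = if r = σ s then d s else 0 := rfl

theorem monoM_mul (σ τ : Equiv.Perm κ) (d e : κ → F) :
    monoM σ d * monoM τ e = monoM (σ * τ) (fun s => d (τ s) * e s) := by
  ext r s
  rw [Matrix.mul_apply, Finset.sum_eq_single (τ s)]
  · rw [monoM_apply, monoM_apply, monoM_apply, Equiv.Perm.mul_apply, if_pos rfl]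
    by_cases h : r = σ (τ s)
    · rw [if_pos h, if_pos h]
    · rw [if_neg h, if_neg h, zero_mul]
  · intro k _ hk
    rw [monoM_apply, monoM_apply, if_neg hk, mul_zero]
  · intro h
    exact absurd (Finset.mem_univ _) h

theorem monoM_one : monoM (1 : Equiv.Perm κ) (fun _ => (1 : F)) = 1 := by
  ext r s
  rw [monoM_apply, Matrix.one_apply, Equiv.Perm.one_apply]

theorem isMono_monoM (σ : Equiv.Perm κ) (d : κ → F) : IsMono (monoM σ d) := by
  intro j
  refine ⟨σ j, fun i' h => ?_⟩
  by_contra hne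
  exact h (by simp [monoM, hne])

theorem monoM_mulVec (σ : Equiv.Perm κ) (d : κ → F) (v : κ → F) (s : κ) :
    (monoM σ d *ᵥ v) (σ s) = d s * v s := by
  rw [Matrix.mulVec, dotProduct, Finset.sum_eq_single s]
  · simp [monoM]
  · intro k _ hk
    have : σ s ≠ σ k := fun h => hk (σ.injective h).symm
    simp [monoM, this]
  · intro h
    exact absurd (Finset.mem_univ _) h

theorem monoM_eq (σ : Equiv.Perm κ) (d : κ → F) :
    monoM σ d = (σ⁻¹).toPEquiv.toMatrix * Matrix.diagonal d := by
  ext r s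
  rw [Matrix.mul_diagonal, PEquiv.toMatrix_apply, monoM_apply]
  simp only [Equiv.toPEquiv_apply, Option.mem_def, Option.some.injEq]
  by_cases h : r = σ s
  · have h2 : σ⁻¹ r = s := by rw [h]; simp
    rw [if_pos h, if_pos h2, one_mul]
  · have h2 : ¬ σ⁻¹ r = s := fun h2 => h (by rw [← h2]; simp)
    rw [if_neg h, if_neg h2, zero_mul]

theorem det_monoM (σ : Equiv.Perm κ) (d : κ → F) :
    (monoM σ d).det = ((Equiv.Perm.sign σ : ℤˣ) : ℤ) * ∏ s, d s := by
  rw [monoM_eq, Matrix.det_mul, Matrix.det_permutation, Matrix.det_diagonal, Equiv.Perm.sign_inv]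

/-- the monomial element of `GL` with `d s` at `(σ s, s)` -/
def monoG (σ : Equiv.Perm κ) (d : κ → Fˣ) : GL κ F :=
  ⟨monoM σ (fun s => (d s : F)), monoM σ⁻¹ (fun s => (((d (σ⁻¹ s))⁻¹ : Fˣ) : F)),
    by
      rw [monoM_mul, mul_inv_cancel, ← monoM_one]
      congr 1
      funext s
      simp,
    by
      rw [monoM_mul, inv_mul_cancel, ← monoM_one]
      congr 1
      funext s
      simp⟩

theorem monoG_val (σ : Equiv.Perm κ) (d : κ → Fˣ) :
    (monoG σ d : Matrix κ κ F) = monoM σ (fun s => (d s : F)) := rfl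

theorem monoG_apply (σ : Equiv.Perm κ) (d : κ → Fˣ) (r s : κ) :
    (monoG σ d : Matrix κ κ F) r s = if r = σ s then (d s : F) else 0 := rfl

theorem monoG_inv_apply (σ : Equiv.Perm κ) (d : κ → Fˣ) (r s : κ) :
    (((monoG σ d)⁻¹ : GL κ F) : Matrix κ κ F) r s =
      if r = σ⁻¹ s then (((d (σ⁻¹ s))⁻¹ : Fˣ) : F) else 0 := rfl

theorem isMono_monoG (σ : Equiv.Perm κ) (d : κ → Fˣ) : IsMono (monoG σ d : Matrix κ κ F) :=
  isMono_monoM σ _

theorem det_monoG (σ : Equiv.Perm κ) (d : κ → Fˣ) :
    (monoG σ d : Matrix κ κ F).det = ((Equiv.Perm.sign σ : ℤˣ) : ℤ) * ∏ s, (d s : F) :=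
  det_monoM σ _

/-- `g` with column `j₀` divided by `det g` -/
def normDet (g : GL κ F) (j₀ : κ) : GL κ F :=
  g * diagU (fun j => if j = j₀ then (Matrix.GeneralLinearGroup.det g)⁻¹ else 1)

theorem det_normDet (g : GL κ F) (j₀ : κ) : (normDet g j₀ : Matrix κ κ F).det = 1 := by
  rw [normDet, Units.val_mul, Matrix.det_mul, det_diagU]
  have h1 : ∏ i, (((if i = j₀ then (Matrix.GeneralLinearGroup.det g)⁻¹ else 1 : Fˣ)) : F) =
      (((Matrix.GeneralLinearGroup.det g)⁻¹ : Fˣ) : F) := by
    rw [Finset.prod_eq_single j₀]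
    · simp
    · intro b _ hb
      simp [hb]
    · intro h
      exact absurd (Finset.mem_univ _) h
  rw [h1, ← Matrix.GeneralLinearGroup.val_det_apply, ← Units.val_mul, mul_inv_cancel,
    Units.val_one]

theorem normDet_apply (g : GL κ F) (j₀ r s : κ) :
    (normDet g j₀ : Matrix κ κ F) r s = (g : Matrix κ κ F) r s *
      (((if s = j₀ then (Matrix.GeneralLinearGroup.det g)⁻¹ else 1 : Fˣ)) : F) := by
  rw [normDet, Units.val_mul, diagU_val, Matrix.mul_diagonal]

theorem normDet_apply_ne (g : GL κ F) {j₀ s : κ} (h : s ≠ j₀) (r : κ) :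
    (normDet g j₀ : Matrix κ κ F) r s = (g : Matrix κ κ F) r s := by
  rw [normDet_apply, if_neg h, Units.val_one, mul_one]

theorem normDet_eq_zero_iff (g : GL κ F) (j₀ r s : κ) :
    (normDet g j₀ : Matrix κ κ F) r s = 0 ↔ (g : Matrix κ κ F) r s = 0 := by
  rw [normDet_apply]
  constructor
  · intro h
    rcases mul_eq_zero.mp h with h | h
    · exact h
    · exact absurd h (Units.ne_zero _)
  · intro h
    rw [h, zero_mul]

theorem isMono_normDet {g : GL κ F} (h : IsMono (g : Matrix κ κ F)) (j₀ : κ) :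
    IsMono (normDet g j₀ : Matrix κ κ F) := by
  intro j
  obtain ⟨i, hi⟩ := h j
  refine ⟨i, fun i' h' => hi i' ?_⟩
  intro h0
  exact h' ((normDet_eq_zero_iff g j₀ i' j).mpr h0)

theorem normDet_mem {X : Subgroup (GL κ F)} (hX : MonIn X) {g : GL κ F}
    (h : IsMono (g : Matrix κ κ F)) (j₀ : κ) : normDet g j₀ ∈ X :=
  hX _ (det_normDet g j₀) (isMono_normDet h j₀)

/-! ### block extension `1 ⊕ C` -/

/-- the block matrix `1 ⊕ C` (identity on `J`, `C` on the complement) -/
def extM (J : Finset κ) (C : Matrix {i // i ∉ J} {i // i ∉ J} F) : Matrix κ κ F :=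
  fun i j => if hi : i ∈ J then (if i = j then 1 else 0)
    else if hj : j ∈ J then 0 else C ⟨i, hi⟩ ⟨j, hj⟩

theorem extM_apply_mem {J : Finset κ} (C : Matrix {i // i ∉ J} {i // i ∉ J} F) {i : κ}
    (hi : i ∈ J) (j : κ) : extM J C i j = if i = j then 1 else 0 := by
  simp [extM, hi]

theorem extM_apply_mem_right {J : Finset κ} (C : Matrix {i // i ∉ J} {i // i ∉ J} F) (i : κ)
    {j : κ} (hj : j ∈ J) : extM J C i j = if i = j then 1 else 0 := by
  by_cases hi : i ∈ J
  · exact extM_apply_mem C hi j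
  · have : i ≠ j := fun h : i = j => hi (h ▸ hj)
    simp [extM, hi, hj, this]

theorem extM_apply_notMem {J : Finset κ} (C : Matrix {i // i ∉ J} {i // i ∉ J} F) {i j : κ}
    (hi : i ∉ J) (hj : j ∉ J) : extM J C i j = C ⟨i, hi⟩ ⟨j, hj⟩ := by
  simp [extM, hi, hj]

theorem extM_one (J : Finset κ) : extM J (1 : Matrix {i // i ∉ J} {i // i ∉ J} F) = 1 := by
  ext i j
  by_cases hi : i ∈ J
  · rw [extM_apply_mem _ hi, Matrix.one_apply]
  · by_cases hj : j ∈ J
    · rw [extM_apply_mem_right _ _ hj, Matrix.one_apply]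
    · rw [extM_apply_notMem _ hi hj, Matrix.one_apply, Matrix.one_apply]
      simp [Subtype.ext_iff]

theorem extM_mul (J : Finset κ) (C C' : Matrix {i // i ∉ J} {i // i ∉ J} F) :
    extM J C * extM J C' = extM J (C * C') := by
  classical
  ext i j
  rw [Matrix.mul_apply]
  by_cases hi : i ∈ J
  · rw [Finset.sum_eq_single i]
    · rw [extM_apply_mem _ hi, if_pos rfl, one_mul, extM_apply_mem _ hi, extM_apply_mem _ hi]
    · intro k _ hk
      rw [extM_apply_mem _ hi, if_neg (Ne.symm hk), zero_mul]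
    · intro h
      exact absurd (Finset.mem_univ _) h
  · by_cases hj : j ∈ J
    · rw [extM_apply_mem_right _ _ hj, if_neg (fun h : i = j => hi (h ▸ hj))]
      apply Finset.sum_eq_zero
      intro k _
      by_cases hk : k ∈ J
      · rw [extM_apply_mem_right _ _ hk, if_neg (fun h : i = k => hi (h ▸ hk)), zero_mul]
      · rw [extM_apply_mem_right _ _ hj, if_neg (fun h : k = j => hk (h ▸ hj)), mul_zero]
    · rw [extM_apply_notMem _ hi hj, Matrix.mul_apply,
        ← Fintype.sum_subtype_add_sum_subtype (fun k => k ∉ J)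
          (fun k => extM J C i k * extM J C' k j)]
      have h0 : ∑ k : {k // ¬ k ∉ J}, extM J C i k.1 * extM J C' k.1 j = 0 := by
        apply Finset.sum_eq_zero
        intro k _
        have hk : k.1 ∈ J := not_not.mp k.2
        rw [extM_apply_mem_right _ _ hk, if_neg (fun h : i = k => hi (h ▸ hk)), zero_mul]
      rw [h0, add_zero]
      apply Finset.sum_congr rfl
      intro k _
      rw [extM_apply_notMem _ hi k.2, extM_apply_notMem _ k.2 hj]

/-- the element `1 ⊕ C` of `GL` -/
def extG (J : Finset κ) (C : GL {i // i ∉ J} F) : GL κ F :=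
  ⟨extM J (C : Matrix _ _ F), extM J ((C⁻¹ : GL _ F) : Matrix _ _ F),
    by rw [extM_mul, ← Units.val_mul, mul_inv_cancel, Units.val_one, extM_one],
    by rw [extM_mul, ← Units.val_mul, inv_mul_cancel, Units.val_one, extM_one]⟩

theorem extG_val (J : Finset κ) (C : GL {i // i ∉ J} F) :
    (extG J C : Matrix κ κ F) = extM J (C : Matrix _ _ F) := rfl

theorem stabJ_extM (J : Finset κ) (C : Matrix {i // i ∉ J} {i // i ∉ J} F) :
    StabJ J (extM J C) := by
  intro i j hi hj
  rw [extM_apply_mem_right _ _ hj, if_neg (fun h : i = j => hi (h ▸ hj))]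

theorem blk_extM (J : Finset κ) (C : Matrix {i // i ∉ J} {i // i ∉ J} F) :
    blk J (extM J C) = C := by
  ext i j
  simp only [blk, Matrix.submatrix_apply]
  rw [extM_apply_notMem _ i.2 j.2]

theorem isMono_extM {J : Finset κ} {C : Matrix {i // i ∉ J} {i // i ∉ J} F} (h : IsMono C) :
    IsMono (extM J C) := by
  intro j
  by_cases hj : j ∈ J
  · refine ⟨j, fun i' h' => ?_⟩
    by_contra hne
    apply h'
    rw [extM_apply_mem_right _ _ hj, if_neg hne]
  · obtain ⟨i, hi⟩ := h ⟨j, hj⟩
    refine ⟨i.1, fun i' h' => ?_⟩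
    by_cases hi' : i' ∈ J
    · exfalso
      apply h'
      rw [extM_apply_mem _ hi', if_neg (fun h : i' = j => hj (h ▸ hi'))]
    · rw [extM_apply_notMem _ hi' hj] at h'
      have := hi ⟨i', hi'⟩ h'
      rw [← this]

/-- the determinant of a matrix stabilising `V_J` -/
theorem det_of_stabJ {J : Finset κ} {A : Matrix κ κ F} (h : StabJ J A) :
    ∃ c : F, A.det = c * (blk J A).det := by
  classical
  rw [Matrix.twoBlockTriangular_det A (fun i => i ∈ J) (fun i hi j hj => h i j hi hj)]
  exact ⟨_, rfl⟩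

/-- the block of an element of `GL` stabilising `V_J`, as an element of `GL` -/
noncomputable def blkG (J : Finset κ) (g : GL κ F) (h : StabJ J (g : Matrix κ κ F)) :
    GL {i // i ∉ J} F :=
  ⟨blk J (g : Matrix κ κ F), blk J ((g⁻¹ : GL κ F) : Matrix κ κ F),
    by rw [← blk_mul h, ← Units.val_mul, mul_inv_cancel, Units.val_one, blk_one],
    by rw [← blk_mul (stabJ_inv g h), ← Units.val_mul, inv_mul_cancel, Units.val_one, blk_one]⟩

theorem blkG_val (J : Finset κ) (g : GL κ F) (h : StabJ J (g : Matrix κ κ F)) :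
    (blkG J g h : Matrix _ _ F) = blk J (g : Matrix κ κ F) := rfl

theorem blkG_inv_val (J : Finset κ) (g : GL κ F) (h : StabJ J (g : Matrix κ κ F)) :
    (((blkG J g h)⁻¹ : GL _ F) : Matrix _ _ F) = blk J ((g⁻¹ : GL κ F) : Matrix κ κ F) := rfl

end

end Cfsg.Agent.Lib.Helper65.Mono
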