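import Mathlib
import Cfsg.Agent.Lib.Helper65.MonoDefs
import Cfsg.Agent.Lib.Helper65.MonoSTEPA2
import Cfsg.Agent.Lib.Helper13.MonoP4
import Cfsg.Agent.Lib.Helper16.MonoQG
import Cfsg.Agent.Lib.Helper18.MonoROOT
import Cfsg.Agent.Lib.Helper19.MonoCASED
import Cfsg.Agent.Lib.Helper21.MonoTRANS
import Cfsg.Agent.Lib.Helper32.MonoSTEPA
import Cfsg.Agent.Lib.Helper34.MonoGBAL
import Cfsg.Agent.Lib.Helper52.MonoCASEZ
import Cfsg.Agent.Lib.Helper58.MonoDUAL
import Cfsg.Agent.Lib.Helper82.MonoRK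
import Cfsg.Agent.Lib.Helper86.MonoA1
import Cfsg.Agent.Lib.Helper87.MonoP3
import Cfsg.Agent.Lib.Helper5.MonoGUNBAL
import Cfsg.Agent.Lib.Helper12.MonoLL
import Cfsg.Agent.Lib.Helper87.MonoTRANSPORT

/-!
# S5634, case `m = 1` (helper65): the monomial group is maximal in `SL_n(q)`, `q ≥ 5`, `n ≥ 7`

Assembly of the pieces (see notes 1277, 1316).
-/

set_option autoImplicit false

namespace Cfsg.Agent.Lib.Helper65.Mono

open Matrix

section
variable {F : Type*} [Field F] {κ : Type} [Fintype κ] [DecidableEq κ]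

theorem gprop [Fintype F] (hq : 5 ≤ Fintype.card F) : GProp F := by
  intro κ _ _ Y h3 hY hne
  by_contra hR
  obtain ⟨g, hg, hnm⟩ := hne
  apply hnm
  apply g_bal hq h3 hY _ g hg
  intro x hx j k
  constructor
  · intro h1 h2
    exact hR (g_unbal hq h3 hY x hx k j h1 h2)
  · intro h1 h2
    apply hR
    refine g_unbal hq h3 hY x⁻¹ (Y.inv_mem hx) j k h1 ?_
    rw [inv_inv]
    exact h2

theorem mono_max [Fintype F] (hq : 5 ≤ Fintype.card F) (hn : 7 ≤ Fintype.card κ) :
    MonoMaxP κ F := by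
  intro X hX hSL hne
  by_contra hcon
  have hdet : ∀ g ∈ X, (g : Matrix κ κ F).det = 1 := fun g hg =>
    (Cfsg.Agent.Lib.Helper97.mem_specialLinear_iff g).mp (hSL hg)
  have hG : GProp F := gprop hq
  have hR : ¬ RootIn X := fun h => hcon (root_sl (by omega) hX h)
  have hA1 := a1 hq hX
  have hLL := ll hq hX hA1
  have hQG := qg hX hG
  have h1 : P1 X := fun x hx k k' hcol => by
    by_contra hm
    exact hR (stepA hq hn hX hdet hA1 hLL hQG x hx hm k k' hcol)
  have h1' : P1' X := fun x hx a b i i' hab hii hcols => by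
    by_contra hm
    exact hR (stepA' hq hn hX hdet hA1 hLL hQG x hx hm a b i i' hab hii hcols)
  have hX' := monIn_tinv hX
  have hdet' := det_tinv hdet
  have hR' : ¬ RootIn (tinv X) := fun h => hR (rootIn_of_tinv h)
  have hA1' := a1 hq hX'
  have hLL' := ll hq hX' hA1'
  have hQG' := qg hX' hG
  have h1t : P1 (tinv X) := fun x hx k k' hcol => by
    by_contra hm
    exact hR' (stepA hq hn hX' hdet' hA1' hLL' hQG' x hx hm k k' hcol)
  have h1t' : P1' (tinv X) := fun x hx a b i i' hab hii hcols => by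
    by_contra hm
    exact hR' (stepA' hq hn hX' hdet' hA1' hLL' hQG' x hx hm a b i i' hab hii hcols)
  have h3 := p3col hq (by omega) hX h1 h1'
  have h3r := p3row_of_tinv (p3col hq (by omega) hX' h1t h1t')
  have hrk := rk hn h3
  have hstar := p4star hn hX h3 h3r hrk
  obtain ⟨x₀, hx₀, hnm⟩ := hne
  by_cases hD : ∀ x ∈ X, ¬ IsMono (x : Matrix κ κ F) → ∀ i j, (x : Matrix κ κ F) i j ≠ 0
  · exact hnm (caseD hn hX hrk hD x₀ hx₀)
  · push Not at hD
    obtain ⟨x, hx, hxm, i, j, h0⟩ := hD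
    exact caseZ hq hn hX h3 h3r hstar trans_one_zero x hx hxm i j h0

end

/-- S5634 for `m = 1`: the stabiliser of a decomposition into lines is maximal in `SL_n(q)`,
`q ≥ 5`, `n ≥ 13`. -/
theorem s5634_mono {F : Type*} [Field F] [Fintype F] (n : ℕ) (hn : 13 ≤ n) {t : ℕ}
    (D : Fin t → Submodule F (Fin n → F)) (hD : Cfsg.Geo.IsMDecomposition 1 D)
    (hq : 5 ≤ Fintype.card F) :
    Cfsg.Geo.IsMaximalIn (Cfsg.Geo.specialLinear (Fin n) F)
      (Cfsg.Geo.decompositionStabilizer D ⊓ Cfsg.Geo.specialLinear (Fin n) F) :=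
  s5634_m1 n hn D hD (mono_max hq (by rw [Fintype.card_fin]; omega))

end Cfsg.Agent.Lib.Helper65.Mono
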