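import Mathlib
import Cfsg.Prelude.Def_GeometricClasses
import Cfsg.Agent.Lib.Helper71.Asch0
import Cfsg.Agent.Lib.Helper71.Asch5

/-! S5630, branch B5: common facts F1–F4 about a symplectic-type minimal subgroup (helper65). -/

set_option autoImplicit false

namespace Cfsg.Agent.Lib.Helper65.ASF

open Matrix Cfsg.Geo Cfsg.Agent.Lib.Helper71.Asch

variable {n : ℕ} {F : Type*} [Field F]

/-- Scalars are central in `GL`. -/
theorem scalar_comm {z : GL (Fin n) F} (hz : z ∈ scalars (Fin n) F) (g : GL (Fin n) F) :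
    g * z = z * g := by
  rw [mem_scalars_iff] at hz
  obtain ⟨c, hc⟩ := hz
  apply Units.ext
  rw [Units.val_mul, Units.val_mul, hc, Matrix.mul_smul, Matrix.smul_mul, Matrix.mul_one,
    Matrix.one_mul]

/-- General class-2 power identity. -/
theorem mul_pow_of_comm {G : Type*} [Group G] (x y c : G) (hc : y * x = c * (x * y))
    (hcx : Commute c x) (hcy : Commute c y) (m : ℕ) :
    (x * y) ^ m = x ^ m * y ^ m * c ^ (∑ i ∈ Finset.range m, i) := by
  have hyx : ∀ k : ℕ, y ^ k * x = c ^ k * (x * y ^ k) := by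
    intro k
    induction k with
    | zero => simp
    | succ k ih =>
      calc y ^ (k + 1) * x = y ^ k * (y * x) := by rw [pow_succ, mul_assoc]
        _ = y ^ k * (c * (x * y)) := by rw [hc]
        _ = c * (y ^ k * x) * y := by
            rw [← mul_assoc (y ^ k), ((hcy.pow_right k).eq).symm]; group
        _ = c * (c ^ k * (x * y ^ k)) * y := by rw [ih]
        _ = c ^ (k + 1) * (x * y ^ (k + 1)) := by
            rw [pow_succ' c, pow_succ y]; group
  induction m with
  | zero => simp
  | succ m ih =>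
    rw [pow_succ (x * y), ih, Finset.sum_range_succ, pow_add c]
    have h1 : Commute (c ^ (∑ i ∈ Finset.range m, i)) x := hcx.pow_left _
    have h2 : Commute (c ^ (∑ i ∈ Finset.range m, i)) y := hcy.pow_left _
    have h3 : Commute (c ^ m) y := hcy.pow_left _
    calc x ^ m * y ^ m * c ^ (∑ i ∈ Finset.range m, i) * (x * y)
        = x ^ m * y ^ m * (c ^ (∑ i ∈ Finset.range m, i) * x) * y := by group
      _ = x ^ m * y ^ m * (x * c ^ (∑ i ∈ Finset.range m, i)) * y := by rw [h1.eq]
      _ = x ^ m * (y ^ m * x) * (c ^ (∑ i ∈ Finset.range m, i) * y) := by group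
      _ = x ^ m * (c ^ m * (x * y ^ m)) * (y * c ^ (∑ i ∈ Finset.range m, i)) := by
          rw [hyx, h2.eq]
      _ = x ^ m * (c ^ m * x) * y ^ m * y * c ^ (∑ i ∈ Finset.range m, i) := by group
      _ = x ^ m * (x * c ^ m) * y ^ m * y * c ^ (∑ i ∈ Finset.range m, i) := by
          rw [(hcx.pow_left m).eq]
      _ = x ^ m * x * (c ^ m * y ^ m) * y * c ^ (∑ i ∈ Finset.range m, i) := by group
      _ = x ^ m * x * (y ^ m * c ^ m) * y * c ^ (∑ i ∈ Finset.range m, i) := by
          rw [((hcy.pow_left m).pow_right m).eq]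
      _ = x ^ m * x * y ^ m * (c ^ m * y) * c ^ (∑ i ∈ Finset.range m, i) := by group
      _ = x ^ m * x * y ^ m * (y * c ^ m) * c ^ (∑ i ∈ Finset.range m, i) := by rw [h3.eq]
      _ = x ^ m * x * y ^ m * y * (c ^ m * c ^ (∑ i ∈ Finset.range m, i)) := by group
      _ = x ^ m * x * y ^ m * y * (c ^ (∑ i ∈ Finset.range m, i) * c ^ m) := by
          rw [(((Commute.refl c).pow_left m).pow_right (∑ i ∈ Finset.range m, i)).eq]
      _ = x ^ (m + 1) * y ^ (m + 1) * (c ^ (∑ i ∈ Finset.range m, i) * c ^ m) := by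
          rw [pow_succ x, pow_succ y]; group

/-- If `y x = c x y` with `c` central then `y^k x = c^k x y^k`. -/
theorem pow_comm_of_comm {G : Type*} [Group G] (x y c : G) (hc : y * x = c * (x * y))
    (hcy : Commute c y) (k : ℕ) : y ^ k * x = c ^ k * (x * y ^ k) := by
  induction k with
  | zero => simp
  | succ k ih =>
    calc y ^ (k + 1) * x = y ^ k * (y * x) := by rw [pow_succ, mul_assoc]
      _ = y ^ k * (c * (x * y)) := by rw [hc]
      _ = c * (y ^ k * x) * y := by
          rw [← mul_assoc (y ^ k), ((hcy.pow_right k).eq).symm]; group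
      _ = c * (c ^ k * (x * y ^ k)) * y := by rw [ih]
      _ = c ^ (k + 1) * (x * y ^ (k + 1)) := by
          rw [pow_succ' c, pow_succ y]; group

variable {H L : Subgroup (GL (Fin n) F)}

/-- (F1) commutators of elements of `L` are scalar. -/
theorem comm_mem_scalars (h : SymT H L) {x y : GL (Fin n) F} (hx : x ∈ L) (hy : y ∈ L) :
    x * y * x⁻¹ * y⁻¹ ∈ scalars (Fin n) F := by
  have := Subgroup.commutator_mem_commutator hx hy
  rw [commutatorElement_def] at this
  exact h.comm this

theorem comm_mem_L {x y : GL (Fin n) F} (hx : x ∈ L) (hy : y ∈ L) :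
    x * y * x⁻¹ * y⁻¹ ∈ L :=
  L.mul_mem (L.mul_mem (L.mul_mem hx hy) (L.inv_mem hx)) (L.inv_mem hy)

/-- (F1) `y x = c x y` with `c = y x y⁻¹ x⁻¹`. -/
theorem comm_eq (x y : GL (Fin n) F) : y * x = (y * x * y⁻¹ * x⁻¹) * (x * y) := by group

/-- (F2) an element of `L` commuting with all of `L` is scalar. -/
theorem central_scalar (h : SymT H L) {x : GL (Fin n) F}
    (hc : ∀ y ∈ L, x * y = y * x) : x ∈ scalars (Fin n) F := by
  have h1 : ∀ s ∈ matrixSet L, x.1 * s = s * x.1 := by
    rintro _ ⟨y, hy, rfl⟩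
    have := congrArg Units.val (hc y hy)
    simpa [Units.val_mul] using this
  obtain ⟨c, hcx⟩ := h.abs.2 x.1 h1
  rw [mem_scalars_iff]
  by_cases hc0 : c = 0
  · refine ⟨1, ?_⟩
    have h0 : x.1 = 0 := by rw [hcx, hc0, zero_smul]
    have h10 : (1 : Matrix (Fin n) (Fin n) F) = 0 := by
      have := x.mul_inv
      rw [h0, zero_mul] at this
      exact this.symm
    rw [h0, Units.val_one, one_smul, h10]
  · exact ⟨Units.mk0 c hc0, hcx⟩

/-- (F2) `L` is not abelian. -/
theorem not_abelian (h : SymT H L) : ∃ x ∈ L, ∃ y ∈ L, x * y ≠ y * x := by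
  by_contra hcon
  push Not at hcon
  apply h.min.ns
  intro x hx
  exact central_scalar h (fun y hy => hcon x hx y hy)

/-- (F2') a non-scalar element of `L` does not commute with some element of `L`. -/
theorem exists_not_comm (h : SymT H L) {x : GL (Fin n) F}
    (hxs : x ∉ scalars (Fin n) F) : ∃ y ∈ L, x * y ≠ y * x := by
  by_contra hcon
  push Not at hcon
  exact hxs (central_scalar h hcon)

/-- (F3) a subgroup of `L` normalised by `H` is scalar or all of `L`. -/
theorem min_dich (h : SymT H L) (L' : Subgroup (GL (Fin n) F)) (hle : L' ≤ L) (hN : Nrm H L') :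
    L' ≤ scalars (Fin n) F ∨ L' = L := h.min.min L' hle hN

/-- (F3') a subgroup of `L` given by a conjugation-invariant predicate and containing a non-scalar
element is all of `L`. -/
theorem eq_of_nonscalar (h : SymT H L) (L' : Subgroup (GL (Fin n) F)) (hle : L' ≤ L)
    (hN : Nrm H L') {x : GL (Fin n) F} (hx : x ∈ L') (hxs : x ∉ scalars (Fin n) F) : L' = L := by
  rcases h.min.min L' hle hN with h1 | h1
  · exact absurd (h1 hx) hxs
  · exact h1

/-- (F4) the scalars form a cyclic group (finite field). -/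
theorem scalars_isCyclic [Finite F] : IsCyclic ↥(scalars (Fin n) F) := by
  unfold scalars
  exact isCyclic_of_surjective _ (MonoidHom.rangeRestrict_surjective
    (Units.map (Matrix.scalar (Fin n) : F →+* Matrix (Fin n) (Fin n) F).toMonoidHom))

/-- (F4) `L ⊓ Z` is cyclic. -/
theorem Z0_isCyclic [Finite F] (L : Subgroup (GL (Fin n) F)) :
    IsCyclic ↥(L ⊓ scalars (Fin n) F) := by
  have := scalars_isCyclic (n := n) (F := F)
  exact isCyclic_of_injective (Subgroup.inclusion (inf_le_right : L ⊓ scalars (Fin n) F ≤ _))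
    (Subgroup.inclusion_injective _)

/-- (F4) the scalars inside `↥L` form a cyclic group. -/
theorem subgroupOf_isCyclic [Finite F] (L : Subgroup (GL (Fin n) F)) :
    IsCyclic ↥((scalars (Fin n) F).subgroupOf L) := by
  have := scalars_isCyclic (n := n) (F := F)
  let f : ↥((scalars (Fin n) F).subgroupOf L) →* ↥(scalars (Fin n) F) :=
    { toFun := fun x => ⟨x.1.1, x.2⟩
      map_one' := rfl
      map_mul' := fun _ _ => rfl }
  refine isCyclic_of_injective f ?_
  intro a b hab
  apply Subtype.ext
  apply Subtype.ext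
  have h1 := congrArg Subtype.val hab
  exact h1

/-- conjugation invariance of scalars -/
theorem conj_mem_scalars_iff (g x : GL (Fin n) F) :
    g * x * g⁻¹ ∈ scalars (Fin n) F ↔ x ∈ scalars (Fin n) F := by
  constructor
  · intro hx
    have h1 := (scalars_normal (ι := Fin n) (F := F)).conj_mem _ hx g⁻¹
    have h2 : g⁻¹ * (g * x * g⁻¹) * g⁻¹⁻¹ = x := by group
    rw [h2] at h1
    exact h1
  · intro hx
    exact (scalars_normal (ι := Fin n) (F := F)).conj_mem _ hx g

end Cfsg.Agent.Lib.Helper65.ASF
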