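import Mathlib
import Cfsg.Prelude.Def_GeometricClasses
import Cfsg.Agent.Lib.Helper71.Asch0
import Cfsg.Agent.Lib.Helper71.Asch5
import Cfsg.Agent.Lib.Helper65.ASF

/-! S5630, branch B5, piece SE: the exponent of `L` is `r` (r odd) or divides 4 (helper65). -/

set_option autoImplicit false

namespace Cfsg.Agent.Lib.Helper65.ASSE

open Matrix Cfsg.Geo Cfsg.Agent.Lib.Helper71.Asch Cfsg.Agent.Lib.Helper65.ASF

variable {n : ℕ} {F : Type*} [Field F] [Fintype F]

/-- If the `m`-th power map is a homomorphism of `L` into the scalars, then `x ^ m = 1` on `L`. -/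
theorem pow_eq_one_of_hom (H L : Subgroup (GL (Fin n) F)) (h : SymT H L) (m : ℕ)
    (hsc : ∀ x ∈ L, x ^ m ∈ scalars (Fin n) F)
    (hmul : ∀ x ∈ L, ∀ y ∈ L, (x * y) ^ m = x ^ m * y ^ m) :
    ∀ x ∈ L, x ^ m = 1 := by
  -- the subgroup Ω
  let Ω : Subgroup (GL (Fin n) F) :=
    { carrier := {x | x ∈ L ∧ x ^ m = 1}
      mul_mem' := by
        rintro a b ⟨ha, ha1⟩ ⟨hb, hb1⟩
        exact ⟨L.mul_mem ha hb, by rw [hmul a ha b hb, ha1, hb1, one_mul]⟩
      one_mem' := ⟨L.one_mem, one_pow m⟩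
      inv_mem' := by
        rintro a ⟨ha, ha1⟩
        exact ⟨L.inv_mem ha, by rw [inv_pow, ha1, inv_one]⟩ }
  have hΩL : Ω ≤ L := fun x hx => hx.1
  have hΩN : Nrm H Ω := by
    intro g hg x hx
    refine ⟨h.min.nrm g hg x hx.1, ?_⟩
    rw [conj_pow, hx.2, mul_one, mul_inv_cancel]
  rcases min_dich h Ω hΩL hΩN with hΩ | hΩ
  · exfalso
    -- `L` is abelian
    obtain ⟨x₀, hx₀, y₀, hy₀, hne⟩ := not_abelian h
    apply hne
    -- the scalar subgroup of ↥L
    let Z' : Subgroup ↥L := (scalars (Fin n) F).subgroupOf L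
    have hZc : ∀ a b : ↥Z', a * b = b * a := by
      intro a b
      apply Subtype.ext
      apply Subtype.ext
      exact (scalar_comm (z := b.1.1) b.2 a.1.1)
    let R : Subgroup ↥Z' :=
      { carrier := {w | ∃ v : ↥Z', v ^ m = w}
        mul_mem' := by
          rintro a b ⟨v, rfl⟩ ⟨w, rfl⟩
          exact ⟨v * w, (Commute.mul_pow (hZc v w) m)⟩
        one_mem' := ⟨1, one_pow m⟩
        inv_mem' := by
          rintro a ⟨v, rfl⟩
          exact ⟨v⁻¹, inv_pow v m⟩ }
    have hRn : R.Normal := by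
      refine ⟨fun a ha g => ?_⟩
      have : g * a * g⁻¹ = a := by rw [hZc g a, mul_assoc, mul_inv_cancel, mul_one]
      rw [this]
      exact ha
    have hZcyc : IsCyclic ↥Z' := subgroupOf_isCyclic L
    have hQcyc : IsCyclic (↥Z' ⧸ R) :=
      isCyclic_of_surjective (QuotientGroup.mk' R) (QuotientGroup.mk'_surjective R)
    let π : ↥L →* ↥Z' :=
      { toFun := fun x => ⟨x ^ m, hsc x.1 x.2⟩
        map_one' := by
          apply Subtype.ext
          exact one_pow m
        map_mul' := by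
          intro a b
          apply Subtype.ext
          apply Subtype.ext
          exact hmul a.1 a.2 b.1 b.2 }
    let φ : ↥L →* (↥Z' ⧸ R) := (QuotientGroup.mk' R).comp π
    have hker : φ.ker ≤ Subgroup.center ↥L := by
      intro x hx
      rw [MonoidHom.mem_ker] at hx
      have h1 : π x ∈ R := by
        have : (QuotientGroup.mk' R) (π x) = 1 := hx
        rwa [QuotientGroup.mk'_apply, QuotientGroup.eq_one_iff] at this
      obtain ⟨w, hw⟩ := h1
      have hw' : w.1.1 ^ m = x.1 ^ m := by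
        have := congrArg (fun t : ↥Z' => t.1.1) hw
        exact this
      have hwL : w.1.1 ∈ L := w.1.2
      have hws : w.1.1 ∈ scalars (Fin n) F := w.2
      have h2 : x.1 * w.1.1⁻¹ ∈ Ω := by
        refine ⟨L.mul_mem x.2 (L.inv_mem hwL), ?_⟩
        rw [hmul x.1 x.2 _ (L.inv_mem hwL), inv_pow, hw', mul_inv_cancel]
      have h3 : x.1 * w.1.1⁻¹ ∈ scalars (Fin n) F := hΩ h2
      have h4 : x.1 ∈ scalars (Fin n) F := by
        have := (scalars (Fin n) F).mul_mem h3 hws
        rwa [inv_mul_cancel_right] at this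
      rw [Subgroup.mem_center_iff]
      intro g
      apply Subtype.ext
      exact scalar_comm h4 g.1
    have := commutative_of_cyclic_center_quotient φ hker ⟨x₀, hx₀⟩ ⟨y₀, hy₀⟩
    exact congrArg Subtype.val this
  · intro x hx
    have : x ∈ Ω := by rw [hΩ]; exact hx
    exact this.2

/-- SE -/
theorem SE (hn : 2 ≤ n) (H L : Subgroup (GL (Fin n) F)) (h : SymT H L) (r : ℕ) (hr : r.Prime)
    (hx : ∀ x ∈ L, x ^ r ∈ scalars (Fin n) F) (hp : ∀ x ∈ L, ∃ j : ℕ, x ^ (r ^ j) = 1) :
    ∀ x ∈ L, x ^ (r * Nat.gcd 2 r) = 1 := by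
  apply pow_eq_one_of_hom H L h
  · intro x hxL
    rw [pow_mul]
    exact (scalars (Fin n) F).pow_mem (hx x hxL) _
  · intro x hxL y hyL
    set c := y * x * y⁻¹ * x⁻¹ with hc
    have hcs : c ∈ scalars (Fin n) F := comm_mem_scalars h hyL hxL
    have hcx : Commute c x := (scalar_comm hcs x).symm
    have hcy : Commute c y := (scalar_comm hcs y).symm
    have hyx : y * x = c * (x * y) := comm_eq x y
    rw [mul_pow_of_comm x y c hyx hcx hcy]
    -- c ^ r = 1
    have hcr : c ^ r = 1 := by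
      have h1 := pow_comm_of_comm x y c hyx hcy r
      have h2 : y ^ r * x = x * y ^ r := (scalar_comm (hx y hyL) x).symm
      rw [h2] at h1
      have h3 : c ^ r * (x * y ^ r) = 1 * (x * y ^ r) := by rw [one_mul]; exact h1.symm
      exact mul_right_cancel h3
    have hdvd : r ∣ ∑ i ∈ Finset.range (r * Nat.gcd 2 r), i := by
      rcases hr.eq_two_or_odd' with h2 | hodd
      · subst h2
        decide
      · have hg : Nat.gcd 2 r = 1 := Nat.coprime_two_left.mpr hodd
        rw [hg, mul_one]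
        have h1 := Finset.sum_range_id_mul_two r
        have h2 : r ∣ (∑ i ∈ Finset.range r, i) * 2 := by rw [h1]; exact dvd_mul_right _ _
        exact (Nat.Coprime.dvd_mul_right (Nat.coprime_two_right.mpr hodd)).mp h2
    obtain ⟨k, hk⟩ := hdvd
    rw [hk, pow_mul c, hcr, one_pow, mul_one]

end Cfsg.Agent.Lib.Helper65.ASSE
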