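import Mathlib
import Cfsg.Prelude.Def_GeometricClasses
import Cfsg.Agent.Lib.Helper71.Asch0
import Cfsg.Agent.Lib.Helper71.Asch5
import Cfsg.Agent.Lib.Helper65.ASF

/-! S5630, branch B5, piece SN: minimal field, odd `e` (or `e = 1`): class 6 (helper65). -/

set_option autoImplicit false

namespace Cfsg.Agent.Lib.Helper65.ASSN

open Matrix Cfsg.Geo Cfsg.Agent.Lib.Helper71.Asch Cfsg.Agent.Lib.Helper65.ASF

variable {n : ℕ} {F : Type*} [Field F] [Fintype F]

/-- The centre of `↥L` corresponds to `L ⊓ Z`. -/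
theorem card_center (H L : Subgroup (GL (Fin n) F)) (h : SymT H L) :
    Nat.card (Subgroup.center ↥L) = Nat.card ↥(L ⊓ scalars (Fin n) F) := by
  refine Nat.card_congr
    { toFun := fun x => ⟨x.1.1, ⟨x.1.2, central_scalar h (fun y hy => ?_)⟩⟩
      invFun := fun z => ⟨⟨z.1, z.2.1⟩, ?_⟩
      left_inv := fun x => rfl
      right_inv := fun z => rfl }
  · have h1 := Subgroup.mem_center_iff.1 x.2 ⟨y, hy⟩
    exact (congrArg Subtype.val h1).symm
  · rw [Subgroup.mem_center_iff]
    intro g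
    apply Subtype.ext
    exact scalar_comm z.2.2 g.1

/-- Conjugation by an element of `H` as an automorphism of `↥L`. -/
def conjAut (H L : Subgroup (GL (Fin n) F)) (hN : Nrm H L) (g : GL (Fin n) F) (hg : g ∈ H) :
    ↥L ≃* ↥L where
  toFun x := ⟨g * x.1 * g⁻¹, hN g hg x.1 x.2⟩
  invFun x := ⟨g⁻¹ * x.1 * g, by
    have := hN g⁻¹ (H.inv_mem hg) x.1 x.2
    rwa [inv_inv] at this⟩
  left_inv x := by
    apply Subtype.ext
    show g⁻¹ * (g * x.1 * g⁻¹) * g = x.1
    group
  right_inv x := by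
    apply Subtype.ext
    show g * (g⁻¹ * x.1 * g) * g⁻¹ = x.1
    group
  map_mul' x y := by
    apply Subtype.ext
    show g * (x.1 * y.1) * g⁻¹ = (g * x.1 * g⁻¹) * (g * y.1 * g⁻¹)
    group

theorem cyclic_of_char (H L : Subgroup (GL (Fin n) F)) (h : SymT H L) (A : Subgroup ↥L)
    (hA : A.Characteristic) (hAc : IsMulCommutative A) : IsCyclic A := by
  have hA'L : A.map L.subtype ≤ L := by
    rintro _ ⟨a, -, rfl⟩
    exact a.2
  have hA'N : Nrm H (A.map L.subtype) := by
    rintro g hg _ ⟨a, ha, rfl⟩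
    refine ⟨conjAut H L h.min.nrm g hg a, ?_, rfl⟩
    have h1 := hA.fixed (conjAut H L h.min.nrm g hg)
    have h2 : a ∈ A.comap (conjAut H L h.min.nrm g hg).toMonoidHom := by rw [h1]; exact ha
    exact h2
  rcases min_dich h _ hA'L hA'N with h1 | h1
  · have hcyc := scalars_isCyclic (n := n) (F := F)
    let f : ↥A →* ↥(scalars (Fin n) F) :=
      { toFun := fun a => ⟨a.1.1, h1 ⟨a.1, a.2, rfl⟩⟩
        map_one' := rfl
        map_mul' := fun _ _ => rfl }
    refine isCyclic_of_injective f ?_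
    intro a b hab
    apply Subtype.ext
    apply Subtype.ext
    have h2 := congrArg Subtype.val hab
    exact h2
  · exfalso
    obtain ⟨x, hx, y, hy, hne⟩ := not_abelian h
    apply hne
    rw [← h1] at hx hy
    obtain ⟨a, ha, rfl⟩ := hx
    obtain ⟨b, hb, rfl⟩ := hy
    have h2 := hAc.is_comm.comm ⟨a, ha⟩ ⟨b, hb⟩
    have h3 : a * b = b * a := congrArg Subtype.val h2
    exact congrArg Subtype.val h3

theorem exists_pow_eq (r : ℕ) (hr : r.Prime) : ∃ k : ℕ, r * Nat.gcd 2 r = r ^ k := by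
  rcases hr.eq_two_or_odd' with h2 | hodd
  · subst h2
    exact ⟨2, by norm_num⟩
  · have hg : Nat.gcd 2 r = 1 := Nat.coprime_two_left.mpr hodd
    exact ⟨1, by rw [hg, mul_one, pow_one]⟩

theorem isPGroup_L (L : Subgroup (GL (Fin n) F)) (r : ℕ) (hr : r.Prime)
    (hexp : ∀ x ∈ L, x ^ (r * Nat.gcd 2 r) = 1) : IsPGroup r ↥L := by
  obtain ⟨k, hk⟩ := exists_pow_eq r hr
  intro x
  refine ⟨k, ?_⟩
  apply Subtype.ext
  rw [← hk]
  exact hexp x.1 x.2

/-- SN -/
theorem SN (hn : 3 ≤ n) (H L : Subgroup (GL (Fin n) F)) (h : SymT H L) (r : ℕ) (hr : r.Prime)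
    (hr0 : (r : F) ≠ 0) (hexp : ∀ x ∈ L, x ^ (r * Nat.gcd 2 r) = 1)
    (hcard : Nat.card ↥L = Nat.card ↥(L ⊓ scalars (Fin n) F) * n ^ 2) (p e : ℕ)
    (hmin : IsMinimalFieldFor (Nat.card ↥(L ⊓ scalars (Fin n) F)) p e F)
    (hcase : (Odd r ∧ Odd e ∧ Nat.card ↥(L ⊓ scalars (Fin n) F) = r) ∨
      (r = 2 ∧ e = 1 ∧ Nat.card ↥(L ⊓ scalars (Fin n) F) = 4)) : InCls H := by
  classical
  haveI : Fact r.Prime := ⟨hr⟩
  have hpG : IsPGroup r ↥L := isPGroup_L L r hr hexp
  have hcen := card_center H L h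
  obtain ⟨k, hk⟩ := (IsPGroup.iff_card (p := r) (G := ↥L)).1 hpG
  -- `n` is a power of `r`
  have hnpow : ∃ m : ℕ, n = r ^ m := by
    have h1 : n ∣ r ^ k := by
      rw [← hk, hcard]
      exact Dvd.dvd.mul_left (dvd_pow_self n (by norm_num)) _
    obtain ⟨m, -, hm⟩ := (Nat.dvd_prime_pow hr).1 h1
    exact ⟨m, hm⟩
  obtain ⟨m, hm⟩ := hnpow
  have hexpo : Monoid.exponent ↥L = r * Nat.gcd 2 r := by
    have hdvd : Monoid.exponent ↥L ∣ r * Nat.gcd 2 r := by
      apply Monoid.exponent_dvd_of_forall_pow_eq_one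
      intro x
      apply Subtype.ext
      exact hexp x.1 x.2
    have hne1 : Monoid.exponent ↥L ≠ 1 := by
      intro h1
      rw [Monoid.exp_eq_one_iff] at h1
      obtain ⟨x, hx, y, hy, hne⟩ := not_abelian h
      apply hne
      have h2 : (⟨x, hx⟩ : ↥L) = ⟨y, hy⟩ := Subsingleton.elim _ _
      have h3 : x = y := congrArg Subtype.val h2
      rw [h3]
    rcases hcase with ⟨hodd, -, -⟩ | ⟨h2, -, hz4⟩
    · have hg : Nat.gcd 2 r = 1 := Nat.coprime_two_left.mpr hodd
      rw [hg, mul_one] at hdvd ⊢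
      rcases (Nat.dvd_prime hr).1 hdvd with h1 | h1
      · exact absurd h1 hne1
      · exact h1
    · subst h2
      apply Nat.dvd_antisymm hdvd
      have hcyc := Z0_isCyclic (n := n) (F := F) L
      obtain ⟨g, hg⟩ := hcyc.exists_generator
      have ho : orderOf g = 4 := by
        rw [orderOf_eq_card_of_forall_mem_zpowers hg, hz4]
      have ho2 : orderOf (⟨g.1, g.2.1⟩ : ↥L) = 4 := by
        rw [← ho, ← Subgroup.orderOf_coe, ← Subgroup.orderOf_coe]
      have := Monoid.order_dvd_exponent (⟨g.1, g.2.1⟩ : ↥L)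
      rw [ho2] at this
      exact this
  have hsymp : IsSymplecticTypeGroup r L :=
    { prime := hr
      pGroup := hpG
      cyclic_of_characteristic := fun A hA hAc => cyclic_of_char H L h A hA hAc
      exponent_eq := hexpo }
  have hrp : r ≠ p := by
    intro hrp
    haveI := hmin.2.1
    apply hr0
    rw [hrp]
    exact CharP.cast_eq_zero F p
  have hdata : IsLinearSymplecticTypeData r L := by
    refine ⟨hsymp, h.abs, p, e, hrp, ?_, ?_⟩
    · rw [hcen]; exact hmin
    · rcases hcase with ⟨hodd, he, hz⟩ | ⟨h2, he, hz4⟩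
      · left
        refine ⟨hodd, he, by rw [hcen]; exact hz, m, ?_, ?_⟩
        · by_contra hm0
          have : m = 0 := by omega
          rw [this, pow_zero] at hm
          omega
        · rw [hcard, hz, hm]
          ring
      · right; left
        subst h2
        have hm2 : 2 ≤ m := by
          by_contra hm0
          have : m = 0 ∨ m = 1 := by omega
          rcases this with h0 | h0 <;> rw [h0] at hm <;> norm_num at hm <;> omega
        refine ⟨rfl, he, by rw [hcen]; exact hz4, ?_, m, ?_⟩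
        · rw [Fintype.card_fin, hm]
          calc 4 = 2 ^ 2 := by norm_num
            _ ≤ 2 ^ m := Nat.pow_le_pow_right (by norm_num) hm2
        · rw [hcard, hz4, hm]
          ring
  refine ⟨subgroupNormalizer L, ?_, ?_⟩
  · right; right; right; right; right; right; right; left
    exact ⟨r, L, hdata, rfl⟩
  · intro g hg
    unfold subgroupNormalizer
    rw [Subgroup.mem_normalizer_iff]
    intro x
    constructor
    · intro hx
      exact h.min.nrm g hg x hx
    · intro hx
      have := h.min.nrm g⁻¹ (H.inv_mem hg) _ hx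
      have h2 : g⁻¹ * (g * x * g⁻¹) * g⁻¹⁻¹ = x := by group
      rw [h2] at this
      exact this

end Cfsg.Agent.Lib.Helper65.ASSN
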