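import Mathlib
import Cfsg.Prelude.Def_GeometricClasses
import Cfsg.Agent.Lib.Helper71.Asch0

/-! S5630, branch B5, pieces AVG and AVGinv: averaging gives an invariant sesquilinear matrix
(helper65). -/

set_option autoImplicit false

namespace Cfsg.Agent.Lib.Helper65.ASAVG

open Matrix Cfsg.Geo Cfsg.Agent.Lib.Helper71.Asch

variable {n : ℕ} {F : Type*} [Field F]

theorem entry_aux (g : Matrix (Fin n) (Fin n) F) (σ : F →+* F) (i j k l : Fin n) :
    (gᵀ * Matrix.single i j (1 : F) * g.map σ) k l = g i k * σ (g j l) := by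
  rw [Matrix.mul_apply, Finset.sum_eq_single j]
  · rw [Matrix.mul_single_apply_same, Matrix.transpose_apply, mul_one, Matrix.map_apply]
  · intro b _ hb
    rw [Matrix.mul_single_apply_of_ne _ _ _ _ _ hb, zero_mul]
  · intro hj
    exact absurd (Finset.mem_univ j) hj

/-- AVG -/
theorem AVG (L : Subgroup (GL (Fin n) F)) (σ : F →+* F) (s : Finset (GL (Fin n) F))
    (hs : ∀ g, g ∈ s ↔ g ∈ L)
    (hsum : ∑ g ∈ s, Matrix.trace g.1 * σ (Matrix.trace g.1) ≠ 0) :
    ∃ S : Matrix (Fin n) (Fin n) F, S ≠ 0 ∧ ∀ x ∈ L, x.1ᵀ * S * x.1.map σ = S := by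
  classical
  set S : Fin n → Fin n → Matrix (Fin n) (Fin n) F :=
    fun i j => ∑ g ∈ s, g.1ᵀ * Matrix.single i j (1 : F) * g.1.map σ with hSdef
  have hinv : ∀ i j, ∀ x ∈ L, x.1ᵀ * S i j * x.1.map σ = S i j := by
    intro i j x hx
    simp only [hSdef]
    rw [Finset.mul_sum, Finset.sum_mul]
    symm
    refine Finset.sum_equiv (Equiv.mulRight x⁻¹) ?_ ?_
    · intro g
      rw [hs, hs]
      exact (Subgroup.mul_mem_cancel_right L (L.inv_mem hx)).symm
    · intro g _
      have hg : g.1 = (g * x⁻¹ : GL (Fin n) F).1 * x.1 := by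
        rw [← Units.val_mul, inv_mul_cancel_right]
      show g.1ᵀ * Matrix.single i j (1 : F) * g.1.map σ =
        x.1ᵀ * ((g * x⁻¹ : GL (Fin n) F).1ᵀ * Matrix.single i j (1 : F) *
          (g * x⁻¹ : GL (Fin n) F).1.map σ) * x.1.map σ
      conv_lhs => rw [hg]
      rw [Matrix.transpose_mul, Matrix.map_mul]
      simp only [Matrix.mul_assoc]
  by_cases hall : ∀ i j, S i j = 0
  · exfalso
    apply hsum
    have h1 : ∀ i j, ∑ g ∈ s, g.1 i i * σ (g.1 j j) = 0 := by
      intro i j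
      have := congrFun (congrFun (hall i j) i) j
      simp only [hSdef] at this
      rw [Matrix.sum_apply] at this
      simp only [entry_aux] at this
      exact this
    calc ∑ g ∈ s, Matrix.trace g.1 * σ (Matrix.trace g.1)
        = ∑ g ∈ s, ∑ i, ∑ j, g.1 i i * σ (g.1 j j) := by
          refine Finset.sum_congr rfl (fun g _ => ?_)
          rw [Matrix.trace, map_sum, Finset.sum_mul_sum]
          rfl
      _ = ∑ i, ∑ j, ∑ g ∈ s, g.1 i i * σ (g.1 j j) := by
          rw [Finset.sum_comm]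
          refine Finset.sum_congr rfl (fun i _ => ?_)
          rw [Finset.sum_comm]
      _ = 0 := by
          simp only [h1, Finset.sum_const_zero]
  · push Not at hall
    obtain ⟨i, j, hij⟩ := hall
    exact ⟨S i j, hij, hinv i j⟩

theorem map_mulVec_aux (M : Matrix (Fin n) (Fin n) F) (σ : F →+* F) (v : Fin n → F) :
    σ ∘ (M *ᵥ v) = M.map σ *ᵥ (σ ∘ v) := by
  funext i
  simp only [Function.comp_apply, Matrix.mulVec, dotProduct, map_sum, map_mul, Matrix.map_apply]

/-- AVGinv -/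
theorem AVGinv (L : Subgroup (GL (Fin n) F)) (hirr : ActsIrreducibly (matrixSet L))
    (σ : F ≃+* F) (S : Matrix (Fin n) (Fin n) F) (hS : S ≠ 0)
    (hinv : ∀ x ∈ L, x.1ᵀ * S * x.1.map σ = S) : IsUnit S := by
  classical
  let W : Submodule F (Fin n → F) :=
    { carrier := {v | S *ᵥ (σ ∘ v) = 0}
      add_mem' := by
        intro u v hu hv
        have : (σ ∘ (u + v) : Fin n → F) = σ ∘ u + σ ∘ v := by
          funext i; simp
        show S *ᵥ (σ ∘ (u + v)) = 0
        rw [this, Matrix.mulVec_add, hu, hv, add_zero]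
      zero_mem' := by
        have : (σ ∘ (0 : Fin n → F) : Fin n → F) = 0 := by
          funext i; simp
        show S *ᵥ (σ ∘ (0 : Fin n → F)) = 0
        rw [this, Matrix.mulVec_zero]
      smul_mem' := by
        intro c v hv
        have : (σ ∘ (c • v) : Fin n → F) = σ c • (σ ∘ v) := by
          funext i; simp
        show S *ᵥ (σ ∘ (c • v)) = 0
        rw [this, Matrix.mulVec_smul, hv, smul_zero] }
  have hWmem : ∀ v, v ∈ W ↔ S *ᵥ (σ ∘ v) = 0 := fun v => Iff.rfl
  have hWinv : ∀ s ∈ matrixSet L, W.map (Matrix.toLin' s) ≤ W := by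
    rintro _ ⟨x, hx, rfl⟩
    rintro _ ⟨v, hv, rfl⟩
    rw [hWmem]
    have hv' : S *ᵥ (σ ∘ v) = 0 := hv
    rw [Matrix.toLin'_apply]
    have h0 := map_mulVec_aux x.1 (σ : F →+* F) v
    have h1 : (⇑σ ∘ (x.1 *ᵥ v) : Fin n → F) = x.1.map σ *ᵥ (σ ∘ v) := h0
    rw [h1, Matrix.mulVec_mulVec]
    have h2 : S * x.1.map σ = (x⁻¹ : GL (Fin n) F).1ᵀ * S := by
      have h3 := hinv x hx
      calc S * x.1.map σ = ((x⁻¹ : GL (Fin n) F).1ᵀ * x.1ᵀ) * (S * x.1.map σ) := by
            rw [← Matrix.transpose_mul, ← Units.val_mul, mul_inv_cancel, Units.val_one,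
              Matrix.transpose_one, Matrix.one_mul]
        _ = (x⁻¹ : GL (Fin n) F).1ᵀ * (x.1ᵀ * S * x.1.map σ) := by
            simp only [Matrix.mul_assoc]
        _ = (x⁻¹ : GL (Fin n) F).1ᵀ * S := by rw [h3]
    rw [h2, ← Matrix.mulVec_mulVec, hv', Matrix.mulVec_zero]
  have hsurj : ∀ w : Fin n → F, w = σ ∘ (σ.symm ∘ w) := by
    intro w
    funext i
    simp
  rcases hirr W hWinv with hW | hW
  · -- injective
    rw [← Matrix.mulVec_injective_iff_isUnit]
    intro u w huw
    have h1 : S *ᵥ (u - w) = 0 := by rw [Matrix.mulVec_sub, huw, sub_self]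
    have h2 : (σ.symm ∘ (u - w)) ∈ W := by
      rw [hWmem, ← hsurj]
      exact h1
    rw [hW, Submodule.mem_bot] at h2
    have h3 : u - w = 0 := by
      rw [hsurj (u - w), h2]
      funext i
      simp
    exact sub_eq_zero.mp h3
  · exfalso
    apply hS
    ext i j
    have h1 : (σ.symm ∘ (Pi.single j (1 : F) : Fin n → F)) ∈ W := by rw [hW]; trivial
    rw [hWmem, ← hsurj] at h1
    have h2 := congrFun h1 i
    rw [Matrix.mulVec_single_one] at h2
    simpa using h2

end Cfsg.Agent.Lib.Helper65.ASAVG
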