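import Mathlib
import Cfsg.Prelude.Def_GeometricClasses
import Cfsg.Agent.Lib.Helper71.Asch0
import Cfsg.Agent.Lib.Helper71.Asch5
import Cfsg.Agent.Lib.Helper65.ASF
import Cfsg.Agent.Lib.Helper65.ASAVG
import Cfsg.Agent.Lib.Helper89.ASUFU

/-! S5630, branch B5, piece SO: minimal field, even `e`: invariant hermitian form (helper65). -/

set_option autoImplicit false

namespace Cfsg.Agent.Lib.Helper65.ASSO

open Matrix Cfsg.Geo Cfsg.Agent.Lib.Helper71.Asch Cfsg.Agent.Lib.Helper65.ASF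
  Cfsg.Agent.Lib.Helper65.ASAVG

variable {n : ℕ} {F : Type*} [Field F]

/-- An invariant nonzero sesquilinear matrix of an absolutely irreducible group gives an invariant
unitary form. -/
theorem UF (L : Subgroup (GL (Fin n) F)) (hLa : ActsAbsolutelyIrreducibly (matrixSet L))
    (σ : F ≃+* F) (hσ2 : ∀ a, σ (σ a) = a) (hσne : σ ≠ RingEquiv.refl F)
    (S : Matrix (Fin n) (Fin n) F) (hS : S ≠ 0)
    (hinv : ∀ x ∈ L, x.1ᵀ * S * x.1.map σ = S) :
    ∃ f : (Fin n → F) → (Fin n → F) → F, IsUnitaryForm σ f ∧ FixesForm (matrixSet L) f := by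
  classical
  have hSu : IsUnit S := AVGinv L hLa.1 σ S hS hinv
  have hSdet : IsUnit S.det := (Matrix.isUnit_iff_isUnit_det S).1 hSu
  set τ : F →+* F := σ.toRingHom with hτdef
  have hτ : ∀ a, τ a = σ a := fun _ => rfl
  have hτ2 : ∀ a, τ (τ a) = a := hσ2
  have hinvτ : ∀ x ∈ L, x.1ᵀ * S * x.1.map τ = S := hinv
  have hmm : ∀ M : Matrix (Fin n) (Fin n) F, (M.map τ).map τ = M := by
    intro M; ext i j; simp [hτ2]
  set Ss : Matrix (Fin n) (Fin n) F := (S.map τ)ᵀ with hSs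
  have hstar : (Ss.map τ)ᵀ = S := by
    ext i j; simp [hSs, hτ2]
  have hinvs : ∀ x ∈ L, x.1ᵀ * Ss * x.1.map τ = Ss := by
    intro x hx
    have h1 : ((x.1ᵀ * S * x.1.map τ).map τ)ᵀ = (S.map τ)ᵀ := by rw [hinvτ x hx]
    rw [Matrix.map_mul, Matrix.map_mul, hmm, Matrix.transpose_mul, Matrix.transpose_mul,
      Matrix.transpose_map, Matrix.transpose_transpose, ← Matrix.mul_assoc] at h1
    exact h1
  -- the key relations
  have key : ∀ (S₁ : Matrix (Fin n) (Fin n) F), (∀ x ∈ L, x.1ᵀ * S₁ * x.1.map τ = S₁) →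
      ∀ x ∈ L, S₁ * x.1.map τ = (x⁻¹ : GL (Fin n) F).1ᵀ * S₁ := by
    intro S₁ hS₁ x hx
    have h3 := hS₁ x hx
    calc S₁ * x.1.map τ = ((x⁻¹ : GL (Fin n) F).1ᵀ * x.1ᵀ) * (S₁ * x.1.map τ) := by
          rw [← Matrix.transpose_mul, ← Units.val_mul, mul_inv_cancel, Units.val_one,
            Matrix.transpose_one, Matrix.one_mul]
      _ = (x⁻¹ : GL (Fin n) F).1ᵀ * (x.1ᵀ * S₁ * x.1.map τ) := by
          simp only [Matrix.mul_assoc]
      _ = (x⁻¹ : GL (Fin n) F).1ᵀ * S₁ := by rw [h3]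
  have hSi1 : S⁻¹ * S = 1 := Matrix.nonsing_inv_mul S hSdet
  have hSi2 : S * S⁻¹ = 1 := Matrix.mul_nonsing_inv S hSdet
  obtain ⟨T, hT⟩ : ∃ T : Matrix (Fin n) (Fin n) F, T = S⁻¹ * Ss := ⟨_, rfl⟩
  have hTcomm : ∀ x ∈ L, T * x.1.map τ = x.1.map τ * T := by
    intro x hx
    have h1 := key S hinvτ x hx
    have h2 := key Ss hinvs x hx
    have h3 : x.1.map τ * S⁻¹ = S⁻¹ * (x⁻¹ : GL (Fin n) F).1ᵀ := by
      calc x.1.map τ * S⁻¹ = (S⁻¹ * S) * (x.1.map τ * S⁻¹) := by rw [hSi1, Matrix.one_mul]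
        _ = S⁻¹ * (S * x.1.map τ) * S⁻¹ := by simp only [Matrix.mul_assoc]
        _ = S⁻¹ * ((x⁻¹ : GL (Fin n) F).1ᵀ * S) * S⁻¹ := by rw [h1]
        _ = S⁻¹ * (x⁻¹ : GL (Fin n) F).1ᵀ * (S * S⁻¹) := by simp only [Matrix.mul_assoc]
        _ = S⁻¹ * (x⁻¹ : GL (Fin n) F).1ᵀ := by rw [hSi2, Matrix.mul_one]
    calc T * x.1.map τ = S⁻¹ * (Ss * x.1.map τ) := by rw [hT, Matrix.mul_assoc]
      _ = S⁻¹ * (x⁻¹ : GL (Fin n) F).1ᵀ * Ss := by rw [h2, Matrix.mul_assoc]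
      _ = x.1.map τ * T := by rw [← h3, hT, Matrix.mul_assoc]
  have hTτ : ∀ s ∈ matrixSet L, T.map τ * s = s * T.map τ := by
    rintro _ ⟨x, hx, rfl⟩
    have h1 : (T * x.1.map τ).map τ = (x.1.map τ * T).map τ := by rw [hTcomm x hx]
    rw [Matrix.map_mul, Matrix.map_mul, hmm] at h1
    exact h1
  obtain ⟨c', hc'⟩ := hLa.2 (T.map τ) hTτ
  have hTc : T = τ c' • (1 : Matrix (Fin n) (Fin n) F) := by
    rw [← hmm T, hc']
    ext i j
    by_cases hij : i = j
    · subst hij; simp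
    · simp [Matrix.one_apply_ne hij]
  set c : F := τ c' with hc
  have hSsc : Ss = c • S := by
    calc Ss = (S * S⁻¹) * Ss := by rw [hSi2, Matrix.one_mul]
      _ = S * T := by rw [hT, Matrix.mul_assoc]
      _ = c • S := by rw [hTc, Matrix.mul_smul, Matrix.mul_one]
  obtain ⟨i₀, j₀, hij₀⟩ : ∃ i j, S i j ≠ 0 := by
    by_contra hcon
    push Not at hcon
    apply hS
    ext i j
    exact hcon i j
  have hcc : τ c * c = 1 := by
    have h1 : S = (τ c * c) • S := by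
      conv_lhs => rw [← hstar, hSsc]
      ext i j
      simp only [Matrix.transpose_apply, Matrix.map_apply, Matrix.smul_apply, smul_eq_mul,
        map_mul]
      have h2 : τ (S j i) = Ss i j := by simp [hSs]
      rw [h2, hSsc]
      simp only [Matrix.smul_apply, smul_eq_mul]
      ring
    have h2 := congrFun (congrFun h1 i₀) j₀
    simp only [Matrix.smul_apply, smul_eq_mul] at h2
    have h3 : (τ c * c - 1) * S i₀ j₀ = 0 := by linear_combination -h2
    rcases mul_eq_zero.1 h3 with h4 | h4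
    · exact sub_eq_zero.1 h4
    · exact absurd h4 hij₀
  -- Hilbert 90
  obtain ⟨y, hy⟩ : ∃ y : F, y + c * τ y ≠ 0 := by
    by_contra hcon
    push Not at hcon
    have h1 := hcon 1
    rw [map_one, mul_one] at h1
    have hc1 : c = -1 := by linear_combination h1
    apply hσne
    ext a
    have h2 := hcon a
    rw [hc1] at h2
    have h3 : τ a = a := by linear_combination -h2
    rw [← hτ, h3]
    rfl
  set d : F := y + c * τ y with hd
  have hdc : τ d * c = d := by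
    rw [hd, map_add, map_mul, hτ2 y]
    linear_combination y * hcc
  set S' : Matrix (Fin n) (Fin n) F := d • S with hS'
  have hS'herm : ∀ i j, τ (S' i j) = S' j i := by
    intro i j
    have h2 : τ (S i j) = Ss j i := by simp [hSs]
    simp only [hS', Matrix.smul_apply, smul_eq_mul, map_mul]
    rw [h2, hSsc]
    simp only [Matrix.smul_apply, smul_eq_mul]
    linear_combination (S j i) * hdc
  have hinv' : ∀ x ∈ L, x.1ᵀ * S' * x.1.map τ = S' := by
    intro x hx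
    rw [hS', Matrix.mul_smul, Matrix.smul_mul, hinvτ x hx]
  have hS'inj : ∀ v : Fin n → F, S' *ᵥ v = 0 → v = 0 := by
    intro v hv
    have h1 : S *ᵥ v = 0 := by
      rw [hS', Matrix.smul_mulVec] at hv
      rcases smul_eq_zero.1 hv with h | h
      · exact absurd h hy
      · exact h
    have h2 : S⁻¹ *ᵥ (S *ᵥ v) = v := by
      rw [Matrix.mulVec_mulVec, hSi1, Matrix.one_mulVec]
    rw [← h2, h1, Matrix.mulVec_zero]
  refine ⟨fun u v => u ⬝ᵥ (S' *ᵥ (σ ∘ v)), ?_, ?_⟩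
  · have hherm : ∀ v w : Fin n → F,
        v ⬝ᵥ (S' *ᵥ (σ ∘ w)) = σ (w ⬝ᵥ (S' *ᵥ (σ ∘ v))) := by
      intro v w
      simp only [dotProduct, Matrix.mulVec, map_sum, map_mul, Function.comp_apply,
        Finset.mul_sum]
      rw [Finset.sum_comm]
      refine Finset.sum_congr rfl (fun i _ => Finset.sum_congr rfl (fun j _ => ?_))
      rw [hσ2, ← hτ (S' i j), hS'herm]
      ring
    have hnd1 : ∀ v : Fin n → F, v ≠ 0 → ∃ x : Fin n → F, x ⬝ᵥ (S' *ᵥ (σ ∘ v)) ≠ 0 := by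
      intro v hv
      have h1 : (σ ∘ v : Fin n → F) ≠ 0 := by
        intro h0
        apply hv
        funext i
        have := congrFun h0 i
        simpa using this
      have h2 : S' *ᵥ (σ ∘ v) ≠ 0 := fun h0 => h1 (hS'inj _ h0)
      obtain ⟨i, hi⟩ : ∃ i, (S' *ᵥ (σ ∘ v)) i ≠ 0 := by
        by_contra hcon
        push Not at hcon
        exact h2 (funext hcon)
      refine ⟨Pi.single i 1, ?_⟩
      rw [single_dotProduct, one_mul]
      exact hi
    refine ⟨hσne, hσ2, ?_, ?_, hherm, ?_⟩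
    · intro x y v
      exact add_dotProduct _ _ _
    · intro a x v
      show (a • x) ⬝ᵥ _ = _
      rw [smul_dotProduct, smul_eq_mul]
    · intro v hv
      obtain ⟨x, hx⟩ := hnd1 v hv
      refine ⟨⟨x, hx⟩, ⟨x, ?_⟩⟩
      show v ⬝ᵥ (S' *ᵥ (σ ∘ x)) ≠ 0
      rw [hherm]
      intro h0
      apply hx
      have := congrArg σ h0
      rw [hσ2, map_zero] at this
      exact this
  · rintro _ ⟨x, hx, rfl⟩ u v
    show (x.1 *ᵥ u) ⬝ᵥ (S' *ᵥ (σ ∘ (x.1 *ᵥ v))) = u ⬝ᵥ (S' *ᵥ (σ ∘ v))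
    have h1 : (⇑σ ∘ (x.1 *ᵥ v) : Fin n → F) = x.1.map τ *ᵥ (σ ∘ v) :=
      map_mulVec_aux x.1 τ v
    rw [h1, ← Matrix.vecMul_transpose, ← Matrix.dotProduct_mulVec, Matrix.mulVec_mulVec,
      Matrix.mulVec_mulVec, hinv' x hx]

theorem frob_data [Fintype F] (z p e : ℕ) (hmin : IsMinimalFieldFor z p e F) (he : Even e)
    (hz : z.Prime ∨ z = 4) : ∃ e' : ℕ, 0 < e' ∧ e = e' + e' ∧ z ∣ p ^ e' + 1 := by
  obtain ⟨hp, hchar, hcard, hdvd, hminz⟩ := hmin
  obtain ⟨e', he'⟩ := he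
  have he'pos : 0 < e' := by
    by_contra h0
    have h00 : e' = 0 := by omega
    subst h00
    rw [he'] at hcard
    have := Fintype.one_lt_card (α := F)
    simp at hcard
    omega
  refine ⟨e', he'pos, he', ?_⟩
  have ha : 1 ≤ p ^ e' := Nat.one_le_pow _ _ hp.pos
  obtain ⟨b, hb⟩ : ∃ b, p ^ e' = b + 1 := ⟨p ^ e' - 1, by omega⟩
  have hfac : p ^ e - 1 = b * (b + 2) := by
    rw [he', pow_add, hb]
    have : (b + 1) * (b + 1) = b * (b + 2) + 1 := by ring
    rw [this]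
    simp
  have hnd : ¬ z ∣ b := by
    have := hminz e' he'pos (by omega)
    rw [hb] at this
    simpa using this
  rw [hfac] at hdvd
  rw [hb]
  show z ∣ b + 1 + 1
  rcases hz with hz | hz
  · rcases (Nat.Prime.dvd_mul hz).1 hdvd with h | h
    · exact absurd h hnd
    · exact h
  · subst hz
    obtain ⟨k, hk⟩ := hdvd
    have hbe : b % 2 = 0 := by
      by_contra hodd
      have h1 : b % 2 = 1 := by omega
      have h2 : (b * (b + 2)) % 2 = 1 := by
        have h3 : (b + 2) % 2 = 1 := by omega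
        rw [Nat.mul_mod, h1, h3]
      omega
    omega

theorem trace_sum [Fintype F] (hn : 1 ≤ n) (L : Subgroup (GL (Fin n) F)) (σ : F →+* F)
    (htr : ∀ x ∈ L, x ∉ scalars (Fin n) F → Matrix.trace x.1 = 0)
    (hσ : ∀ c : F, c ^ Nat.card ↥(L ⊓ scalars (Fin n) F) = 1 → c * σ c = 1)
    (s : Finset (GL (Fin n) F)) (hs : ∀ g, g ∈ s ↔ g ∈ L) :
    ∑ g ∈ s, Matrix.trace g.1 * σ (Matrix.trace g.1) =
      (Nat.card ↥(L ⊓ scalars (Fin n) F) : F) * (n : F) ^ 2 := by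
  classical
  rw [← Finset.sum_filter_add_sum_filter_not s (fun g => g ∈ scalars (Fin n) F)]
  have h2 : ∑ g ∈ s.filter (fun g => ¬ g ∈ scalars (Fin n) F),
      Matrix.trace g.1 * σ (Matrix.trace g.1) = 0 := by
    apply Finset.sum_eq_zero
    intro g hg
    rw [Finset.mem_filter] at hg
    rw [htr g ((hs g).1 hg.1) hg.2, zero_mul]
  have h1 : ∀ g ∈ s.filter (fun g => g ∈ scalars (Fin n) F),
      Matrix.trace g.1 * σ (Matrix.trace g.1) = (n : F) ^ 2 := by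
    intro g hg
    rw [Finset.mem_filter] at hg
    obtain ⟨hgs, hgZ⟩ := hg
    have hgL := (hs g).1 hgs
    obtain ⟨c, hc⟩ := (mem_scalars_iff g).1 hgZ
    have hpow : (⟨g, ⟨hgL, hgZ⟩⟩ : ↥(L ⊓ scalars (Fin n) F)) ^
        Nat.card ↥(L ⊓ scalars (Fin n) F) = 1 := pow_card_eq_one'
    have hpow' : g ^ Nat.card ↥(L ⊓ scalars (Fin n) F) = 1 := congrArg Subtype.val hpow
    have hcz : (c : F) ^ Nat.card ↥(L ⊓ scalars (Fin n) F) = 1 := by
      have h3 := congrArg Units.val hpow'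
      rw [Units.val_pow_eq_pow_val, hc, smul_pow, one_pow, Units.val_one] at h3
      have h4 := congrFun (congrFun h3 ⟨0, by omega⟩) ⟨0, by omega⟩
      simpa using h4
    have htrace : Matrix.trace g.1 = (c : F) * n := by
      rw [hc, Matrix.trace_smul, Matrix.trace_one, Fintype.card_fin, smul_eq_mul]
    rw [htrace, map_mul, map_natCast]
    have := hσ c hcz
    linear_combination (n : F) ^ 2 * this
  rw [h2, add_zero, Finset.sum_congr rfl h1, Finset.sum_const, nsmul_eq_mul]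
  congr 2
  rw [Nat.card_eq_fintype_card]
  refine (Fintype.card_of_subtype _ (fun x => ?_)).symm
  rw [Finset.mem_filter, hs]
  rfl

/-- SO, with UFU as a hypothesis. -/
theorem SO_of [Fintype F] (hn : 3 ≤ n) (H L : Subgroup (GL (Fin n) F)) (h : SymT H L)
    (hn0 : (n : F) ≠ 0)
    (htr : ∀ x ∈ L, x ∉ scalars (Fin n) F → Matrix.trace x.1 = 0) (r : ℕ) (hr : r.Prime)
    (hr0 : (r : F) ≠ 0) (p e : ℕ)
    (hmin : IsMinimalFieldFor (Nat.card ↥(L ⊓ scalars (Fin n) F)) p e F) (he : Even e)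
    (hz : (Odd r ∧ Nat.card ↥(L ⊓ scalars (Fin n) F) = r) ∨
      (r = 2 ∧ Nat.card ↥(L ⊓ scalars (Fin n) F) = 4))
    (hUFU : ∀ (σ : F ≃+* F) (f : (Fin n → F) → (Fin n → F) → F), IsUnitaryForm σ f →
      FixesForm (matrixSet L) f → InCls H) : InCls H := by
  classical
  have hz' : (Nat.card ↥(L ⊓ scalars (Fin n) F)).Prime ∨
      Nat.card ↥(L ⊓ scalars (Fin n) F) = 4 := by
    rcases hz with ⟨_, h1⟩ | ⟨_, h1⟩
    · left; rw [h1]; exact hr
    · right; exact h1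
  obtain ⟨e', he'pos, hee, hzdvd⟩ := frob_data _ p e hmin he hz'
  obtain ⟨hp, hchar, hcard, -, -⟩ := hmin
  haveI := hchar
  haveI : ExpChar F p := ExpChar.prime hp
  obtain ⟨σ, hσapp⟩ : ∃ σ : F ≃+* F, ∀ a, σ a = a ^ p ^ e' :=
    ⟨iterateFrobeniusEquiv F p e', fun a => rfl⟩
  have hσ2 : ∀ a, σ (σ a) = a := by
    intro a
    rw [hσapp, hσapp, ← pow_mul, ← pow_add, ← hee, ← hcard]
    exact FiniteField.pow_card a
  have hσne : σ ≠ RingEquiv.refl F := by
    intro hrefl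
    obtain ⟨u, hu⟩ := IsCyclic.exists_generator (α := Fˣ)
    have ho : orderOf u = p ^ e - 1 := by
      rw [orderOf_eq_card_of_forall_mem_zpowers hu, Nat.card_eq_fintype_card,
        Fintype.card_units, hcard]
    have h1 : (u : F) ^ p ^ e' = u := by
      rw [← hσapp, hrefl]
      rfl
    have h2 : u ^ (p ^ e' - 1) = 1 := by
      apply Units.ext
      rw [Units.val_pow_eq_pow_val, Units.val_one]
      have h3 : (u : F) ^ (p ^ e' - 1) * u = 1 * u := by
        rw [← pow_succ, Nat.sub_add_cancel (Nat.one_le_pow _ _ hp.pos), h1, one_mul]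
      exact mul_right_cancel₀ u.ne_zero h3
    have h3 := orderOf_dvd_of_pow_eq_one h2
    rw [ho] at h3
    have h4 : 2 ≤ p ^ e' := by
      calc 2 ≤ p := hp.two_le
        _ = p ^ 1 := (pow_one p).symm
        _ ≤ p ^ e' := Nat.pow_le_pow_right hp.pos he'pos
    have h5 := Nat.le_of_dvd (by omega) h3
    rw [hee, pow_add] at h5
    have h6 : p ^ e' * p ^ e' ≤ p ^ e' := by omega
    nlinarith
  have hσz : ∀ c : F, c ^ Nat.card ↥(L ⊓ scalars (Fin n) F) = 1 →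
      c * (σ : F →+* F) c = 1 := by
    intro c hc
    obtain ⟨k, hk⟩ := hzdvd
    show c * σ c = 1
    rw [hσapp, ← pow_succ', hk, pow_mul, hc, one_pow]
  obtain ⟨s, hs⟩ : ∃ s : Finset (GL (Fin n) F), ∀ g, g ∈ s ↔ g ∈ L :=
    ⟨Finset.univ.filter (fun g => g ∈ L), fun g => by simp⟩
  have hsum := trace_sum (by omega) L (σ : F →+* F) htr hσz s hs
  have hzF : ((Nat.card ↥(L ⊓ scalars (Fin n) F) : ℕ) : F) ≠ 0 := by
    rcases hz with ⟨_, h1⟩ | ⟨h2, h1⟩
    · rw [h1]; exact hr0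
    · rw [h1]
      subst h2
      have h2' : ((2 : ℕ) : F) ≠ 0 := hr0
      have h4 : ((4 : ℕ) : F) = ((2 : ℕ) : F) * ((2 : ℕ) : F) := by norm_num
      rw [h4]
      exact mul_ne_zero h2' h2'
  have hsum0 : ∑ g ∈ s, Matrix.trace g.1 * (σ : F →+* F) (Matrix.trace g.1) ≠ 0 := by
    rw [hsum]
    exact mul_ne_zero hzF (pow_ne_zero 2 hn0)
  obtain ⟨S, hS0, hSinv⟩ := AVG L (σ : F →+* F) s hs hsum0
  obtain ⟨f, hf, hfix⟩ := UF L h.abs σ hσ2 hσne S hS0 hSinv
  exact hUFU σ f hf hfix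

/-- SO -/
theorem SO [Fintype F] (hn : 3 ≤ n) (H L : Subgroup (GL (Fin n) F)) (h : SymT H L)
    (hn0 : (n : F) ≠ 0)
    (htr : ∀ x ∈ L, x ∉ scalars (Fin n) F → Matrix.trace x.1 = 0) (r : ℕ) (hr : r.Prime)
    (hr0 : (r : F) ≠ 0) (p e : ℕ)
    (hmin : IsMinimalFieldFor (Nat.card ↥(L ⊓ scalars (Fin n) F)) p e F) (he : Even e)
    (hz : (Odd r ∧ Nat.card ↥(L ⊓ scalars (Fin n) F) = r) ∨
      (r = 2 ∧ Nat.card ↥(L ⊓ scalars (Fin n) F) = 4)) : InCls H :=
  SO_of hn H L h hn0 htr r hr hr0 p e hmin he hz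
    (fun σ f hf hfix => Cfsg.Agent.Lib.Helper89.ASUFU.UFU hn H L h.min.nrm h.abs σ f hf hfix)

end Cfsg.Agent.Lib.Helper65.ASSO
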