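import Cfsg.Agent.Lib.Helper10.LC0

/-!
# LC-A6: the coordinates with respect to a frame give a good coordinate lattice
-/

set_option autoImplicit false

namespace Cfsg.Agent.Lib.Helper65.LCA6

open Matrix Cfsg.Agent.Lib.Helper10.LC

/-- The coordinate map with respect to a family `e`. -/
def phi (B : Matrix (Fin 24) (Fin 24) ℤ) (e : Fin 24 → (Fin 24 → ℤ)) :
    (Fin 24 → ℤ) →+ (Fin 24 → ℤ) where
  toFun x := fun i => bf B x (e i)
  map_zero' := by funext i; exact bf_zero_left _
  map_add' x y := by funext i; exact bf_add_left _ _ _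

theorem phi_apply (B : Matrix (Fin 24) (Fin 24) ℤ) (e : Fin 24 → (Fin 24 → ℤ))
    (x : Fin 24 → ℤ) (i : Fin 24) : phi B e x i = bf B x (e i) := rfl

theorem phi_norm {B : Matrix (Fin 24) (Fin 24) ℤ} (hB : Hyp B)
    (e : Fin 24 → (Fin 24 → ℤ))
    (hexp : ∀ x : Fin 24 → ℤ, (8 : ℤ) • x = ∑ i, bf B x (e i) • e i) (x : Fin 24 → ℤ) :
    ∑ i, phi B e x i ^ 2 = 8 * qf B x := by
  have h1 : bf B ((8 : ℤ) • x) x = 8 * qf B x := by
    rw [bf_smul_left, bf_self]
  rw [hexp x, bf_sum_left] at h1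
  rw [← h1]
  apply Finset.sum_congr rfl
  intro i _
  rw [phi_apply, bf_comm hB.symm (e i) x]
  ring

theorem phi_injective {B : Matrix (Fin 24) (Fin 24) ℤ} (hB : Hyp B)
    (e : Fin 24 → (Fin 24 → ℤ))
    (hexp : ∀ x : Fin 24 → ℤ, (8 : ℤ) • x = ∑ i, bf B x (e i) • e i) :
    Function.Injective (phi B e) := by
  rw [injective_iff_map_eq_zero]
  intro x hx
  have h := phi_norm hB e hexp x
  rw [hx] at h
  simp only [Pi.zero_apply, ne_eq, OfNat.ofNat_ne_zero, not_false_eq_true, zero_pow,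
    Finset.sum_const_zero] at h
  apply qf_eq_zero hB
  omega

theorem phi_frame {B : Matrix (Fin 24) (Fin 24) ℤ}
    (e : Fin 24 → (Fin 24 → ℤ)) (he8 : ∀ i, qf B (e i) = 8)
    (heo : ∀ i j, i ≠ j → bf B (e i) (e j) = 0) (i : Fin 24) :
    phi B e (e i) = Pi.single i 8 := by
  funext j
  rw [phi_apply]
  by_cases hij : j = i
  · subst hij
    rw [Pi.single_eq_same, bf_self, he8]
  · rw [Pi.single_eq_of_ne hij]
    exact heo i j (fun h => hij h.symm)

theorem coords_good {B : Matrix (Fin 24) (Fin 24) ℤ} (hB : Hyp B)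
    (e : Fin 24 → (Fin 24 → ℤ)) (he8 : ∀ i, qf B (e i) = 8)
    (heo : ∀ i j, i ≠ j → bf B (e i) (e j) = 0)
    (hec : ∀ i j, ∃ z : Fin 24 → ℤ, e i - e j = (2 : ℤ) • z)
    (hexp : ∀ x : Fin 24 → ℤ, (8 : ℤ) • x = ∑ i, bf B x (e i) • e i) :
    ∃ φ : (Fin 24 → ℤ) →+ (Fin 24 → ℤ), Function.Injective φ ∧
      (∀ x, ∑ i, φ x i ^ 2 = 8 * qf B x) ∧ Good φ.range ∧
      {y : Fin 24 → ℤ | y ∈ φ.range ∧ ∑ i, y i ^ 2 = 32}.ncard = 196560 := by
  have hinj := phi_injective hB e hexp
  have hnorm := phi_norm hB e hexp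
  refine ⟨phi B e, hinj, hnorm, ?_, ?_⟩
  · constructor
    · -- norm16
      rintro y ⟨x, rfl⟩
      rw [hnorm x]
      obtain ⟨k, hk⟩ := hB.even x
      rw [hk]
      exact ⟨k, by ring⟩
    · -- norm32
      rintro y ⟨x, rfl⟩ hy
      rw [hnorm x]
      have hx : x ≠ 0 := by
        rintro rfl
        exact hy (map_zero _)
      have := qf_ge_four hB hx
      omega
    · -- single8
      intro i
      exact ⟨e i, phi_frame e he8 heo i⟩
    · -- pair4
      intro i j hij
      obtain ⟨z, hz⟩ := hec i j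
      refine ⟨z + e j, ?_⟩
      rw [map_add, phi_frame e he8 heo j]
      have h2 : ∀ k, 2 * phi B e z k = phi B e (e i) k - phi B e (e j) k := by
        intro k
        rw [phi_apply, phi_apply, phi_apply, ← bf_sub_left, hz, bf_smul_left]
      rw [phi_frame e he8 heo i, phi_frame e he8 heo j] at h2
      funext k
      have h2k := h2 k
      simp only [Pi.add_apply]
      by_cases hki : k = i
      · subst hki
        rw [Pi.single_eq_same, Pi.single_eq_of_ne hij] at h2k
        rw [Pi.single_eq_same, Pi.single_eq_of_ne hij, Pi.single_eq_of_ne hij]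
        omega
      · by_cases hkj : k = j
        · subst hkj
          rw [Pi.single_eq_same, Pi.single_eq_of_ne hki] at h2k
          rw [Pi.single_eq_same, Pi.single_eq_of_ne hki, Pi.single_eq_same]
          omega
        · rw [Pi.single_eq_of_ne hki, Pi.single_eq_of_ne hkj] at h2k
          rw [Pi.single_eq_of_ne hki, Pi.single_eq_of_ne hkj, Pi.single_eq_of_ne hkj]
          omega
    · -- parity
      rintro y ⟨x, rfl⟩ i j
      obtain ⟨z, hz⟩ := hec i j
      have h : phi B e x i - phi B e x j = 2 * bf B x z := by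
        rw [phi_apply, phi_apply, ← bf_sub_right, hz, bf_smul_right]
      omega
  · have hset : {y : Fin 24 → ℤ | y ∈ (phi B e).range ∧ ∑ i, y i ^ 2 = 32} =
        (phi B e) '' {x : Fin 24 → ℤ | qf B x = 4} := by
      ext y
      constructor
      · rintro ⟨⟨x, rfl⟩, hy⟩
        refine ⟨x, ?_, rfl⟩
        rw [hnorm x] at hy
        show qf B x = 4
        omega
      · rintro ⟨x, hx, rfl⟩
        refine ⟨⟨x, rfl⟩, ?_⟩
        rw [hnorm x]
        have : qf B x = 4 := hx
        omega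
    rw [hset, Set.ncard_image_of_injective _ hinj]
    exact hB.c4

end Cfsg.Agent.Lib.Helper65.LCA6
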