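import Cfsg.Agent.Lib.Helper10.LC0

/-!
# LC-B2: normal form of the words of the code of a good coordinate lattice
-/

set_option autoImplicit false

namespace Cfsg.Agent.Lib.Helper65.LCB2

open Matrix Cfsg.Agent.Lib.Helper10.LC

theorem zmod2_cases (a : ZMod 2) : a = 0 ∨ a = 1 := by
  revert a; decide

theorem zmod2_cast_eq_zero (a : ℤ) : ((a : ZMod 2) = 0) ↔ a % 2 = 0 := by
  rw [ZMod.intCast_zmod_eq_zero_iff_dvd]
  constructor
  · intro h; exact Int.emod_eq_zero_of_dvd h
  · intro h; exact Int.dvd_of_emod_eq_zero h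

theorem zmod2_cast_eq_one (a : ℤ) : ((a : ZMod 2) = 1) ↔ a % 2 = 1 := by
  constructor
  · intro h
    by_contra hne
    have h0 : a % 2 = 0 := by omega
    rw [(zmod2_cast_eq_zero a).2 h0] at h
    exact absurd h (by decide)
  · intro h
    rcases zmod2_cases (a : ZMod 2) with h' | h'
    · rw [zmod2_cast_eq_zero] at h'
      omega
    · exact h'

theorem code_normal_form {M : AddSubgroup (Fin 24 → ℤ)} (hM : Good M)
    (h4 : ∀ z : Fin 24 → ℤ, (∑ i, z i) % 2 = 0 → (fun i => 4 * z i) ∈ M)
    (c : Fin 24 → ZMod 2) (hc : c ∈ code M) :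
    ∃ y ∈ M, ∀ i, (c i = 1 → (y i = 2 ∨ y i = -2)) ∧ (c i = 0 → y i = 0) := by
  classical
  obtain ⟨y0, hy0, he, hcy⟩ := hc
  have h1 : ∀ i, c i = 1 → y0 i % 4 = 2 := by
    intro i hi
    rw [hcy i, zmod2_cast_eq_one] at hi
    have := he i
    omega
  have h0 : ∀ i, c i = 0 → y0 i % 4 = 0 := by
    intro i hi
    rw [hcy i, zmod2_cast_eq_zero] at hi
    have := he i
    omega
  have h01 : (0 : ZMod 2) ≠ 1 := by decide
  set t : Fin 24 → ℤ := fun i => if c i = 1 then 2 else 0 with ht
  have ht1 : ∀ i, c i = 1 → t i = 2 := by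
    intro i h; simp [ht, h]
  have ht0 : ∀ i, c i = 0 → t i = 0 := by
    intro i h
    have hne : ¬ c i = 1 := by rw [h]; exact h01
    simp [ht, hne]
  set z : Fin 24 → ℤ := fun i => (y0 i - t i) / 4 with hz
  have hzt : ∀ i, y0 i - t i = 4 * z i := by
    intro i
    have hzi : z i = (y0 i - t i) / 4 := rfl
    rcases zmod2_cases (c i) with h | h
    · have := h0 i h
      have := ht0 i h
      omega
    · have := h1 i h
      have := ht1 i h
      omega
  by_cases hs : (∑ i, z i) % 2 = 0
  · refine ⟨t, ?_, ?_⟩
    · have : t = y0 - (fun i => 4 * z i) := by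
        funext i
        have := hzt i
        simp only [Pi.sub_apply]
        omega
      rw [this]
      exact M.sub_mem hy0 (h4 z hs)
    · intro i
      exact ⟨fun h => Or.inl (ht1 i h), fun h => ht0 i h⟩
  · by_cases hex : ∃ j, c j = 1
    · obtain ⟨j, hj⟩ := hex
      set z' : Fin 24 → ℤ := z + Pi.single j 1 with hz'
      have hs' : (∑ i, z' i) % 2 = 0 := by
        have : ∑ i, z' i = ∑ i, z i + 1 := by
          simp only [hz', Pi.add_apply, Finset.sum_add_distrib]
          rw [Finset.sum_pi_single']
          simp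
        rw [this]; omega
      refine ⟨y0 - (fun i => 4 * z' i), M.sub_mem hy0 (h4 z' hs'), ?_⟩
      intro i
      have hi := hzt i
      simp only [Pi.sub_apply, hz', Pi.add_apply]
      by_cases hij : i = j
      · subst hij
        rw [Pi.single_eq_same]
        constructor
        · intro _; right
          have := ht1 i hj
          omega
        · intro h; rw [hj] at h; exact absurd h.symm h01
      · rw [Pi.single_eq_of_ne hij]
        constructor
        · intro h; left
          have := ht1 i h
          omega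
        · intro h
          have := ht0 i h
          omega
    · refine ⟨0, M.zero_mem, ?_⟩
      intro i
      constructor
      · intro h; exact absurd ⟨i, h⟩ hex
      · intro _; rfl

end Cfsg.Agent.Lib.Helper65.LCB2
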