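import Cfsg.Agent.Lib.Helper10.TH0

/-! # S1632 piece A1: coercivity of a triangular quadratic form -/

set_option autoImplicit false

namespace Cfsg.Agent.Lib.Helper65.THA1

open Matrix Complex UpperHalfPlane ModularForm MatrixGroups Cfsg.Agent.Lib.Helper10.TH
open scoped Manifold Real

/-- A1 -/
theorem coercive {n : ℕ} (T : Tri n) :
    ∃ c : ℝ, 0 < c ∧ ∀ x : Fin n → ℝ, c * ∑ i, x i ^ 2 ≤ T.Q x := by
  induction T with
  | nil => exact ⟨1, one_pos, fun x => by simp [Tri.Q_nil]⟩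
  | cons d hd u T ih =>
    obtain ⟨c', hc', h'⟩ := ih
    set U : ℝ := ∑ j, u j ^ 2 with hU
    have hU0 : 0 ≤ U := Finset.sum_nonneg (fun j _ => sq_nonneg _)
    set ε : ℝ := min 1 (c' / (2 * d * (U + 1))) with hε
    have hεpos : 0 < ε := lt_min one_pos (div_pos hc' (by positivity))
    have hε1 : ε ≤ 1 := min_le_left _ _
    have hε2 : ε * (2 * d * (U + 1)) ≤ c' := by
      have h0 : ε ≤ c' / (2 * d * (U + 1)) := min_le_right _ _
      rwa [le_div_iff₀ (by positivity)] at h0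
    refine ⟨min (ε * d / 2) (c' / 2), lt_min (by positivity) (by positivity), fun x => ?_⟩
    rw [Tri.Q_cons, Fin.sum_univ_succ]
    set s : ℝ := ∑ j, u j * x j.succ with hs
    set X : ℝ := ∑ j : Fin _, x j.succ ^ 2 with hX
    have hX0 : 0 ≤ X := Finset.sum_nonneg (fun j _ => sq_nonneg _)
    have hcs : s ^ 2 ≤ U * X := Finset.sum_mul_sq_le_sq_mul_sq _ _ _
    have hQ' : c' * X ≤ T.Q (fun j => x j.succ) := h' (fun j => x j.succ)
    have h1 : min (ε * d / 2) (c' / 2) * (x 0 ^ 2 + X) ≤ ε * d / 2 * x 0 ^ 2 + c' / 2 * X := by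
      rw [mul_add]
      exact add_le_add (mul_le_mul_of_nonneg_right (min_le_left _ _) (sq_nonneg _))
        (mul_le_mul_of_nonneg_right (min_le_right _ _) hX0)
    have h2 : ε * d * (x 0 ^ 2 / 2 - s ^ 2) ≤ d * (x 0 + s) ^ 2 := by
      have h20 : x 0 ^ 2 / 2 - s ^ 2 ≤ (x 0 + s) ^ 2 := by nlinarith [sq_nonneg (x 0 + 2 * s)]
      have h21 : 0 ≤ ε * d := by positivity
      have h22 : 0 ≤ d * (x 0 + s) ^ 2 := by positivity
      calc ε * d * (x 0 ^ 2 / 2 - s ^ 2) ≤ ε * d * (x 0 + s) ^ 2 :=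
            mul_le_mul_of_nonneg_left h20 h21
        _ = ε * (d * (x 0 + s) ^ 2) := by ring
        _ ≤ 1 * (d * (x 0 + s) ^ 2) := mul_le_mul_of_nonneg_right hε1 h22
        _ = d * (x 0 + s) ^ 2 := one_mul _
    have h3 : ε * d * s ^ 2 ≤ c' / 2 * X := by
      have h30 : ε * d * s ^ 2 ≤ ε * d * (U * X) :=
        mul_le_mul_of_nonneg_left hcs (by positivity)
      have h31 : ε * d * (U * X) ≤ ε * (2 * d * (U + 1)) * (X / 2) := by
        have : 0 ≤ ε * d * X := by positivity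
        nlinarith
      have h32 : ε * (2 * d * (U + 1)) * (X / 2) ≤ c' * (X / 2) :=
        mul_le_mul_of_nonneg_right hε2 (by positivity)
      linarith
    linarith

end Cfsg.Agent.Lib.Helper65.THA1
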