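import Cfsg.Agent.Lib.Helper10.TH0

/-! # S1632 piece A2: coercivity of the dual triangular quadratic form -/

set_option autoImplicit false

namespace Cfsg.Agent.Lib.Helper65.THA2

open Matrix Complex UpperHalfPlane ModularForm MatrixGroups Cfsg.Agent.Lib.Helper10.TH
open scoped Manifold Real

/-- A2 -/
theorem coercive_dual {n : ℕ} (T : Tri n) :
    ∃ c : ℝ, 0 < c ∧ ∀ w : Fin n → ℝ, c * ∑ i, w i ^ 2 ≤ T.Qd w := by
  induction T with
  | nil => exact ⟨1, one_pos, fun x => by simp [Tri.Qd_nil]⟩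
  | cons d hd u T ih =>
    obtain ⟨c', hc', h'⟩ := ih
    set U : ℝ := ∑ j, u j ^ 2 with hU
    have hU0 : 0 ≤ U := Finset.sum_nonneg (fun j _ => sq_nonneg _)
    set ε : ℝ := min 1 (1 / (2 * d * c' * (U + 1))) with hε
    have hεpos : 0 < ε := lt_min one_pos (div_pos one_pos (by positivity))
    have hε1 : ε ≤ 1 := min_le_left _ _
    have hε2 : ε * (2 * d * c' * (U + 1)) ≤ 1 := by
      have h0 : ε ≤ 1 / (2 * d * c' * (U + 1)) := min_le_right _ _
      rwa [le_div_iff₀ (by positivity)] at h0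
    refine ⟨min (1 / (2 * d)) (ε * c' / 2), lt_min (by positivity) (by positivity), fun w => ?_⟩
    rw [Tri.Qd_cons, Fin.sum_univ_succ]
    set X : ℝ := ∑ j : Fin _, w j.succ ^ 2 with hX
    have hX0 : 0 ≤ X := Finset.sum_nonneg (fun j _ => sq_nonneg _)
    set Y : ℝ := ∑ j : Fin _, (w j.succ - w 0 * u j) ^ 2 with hY
    have hY0 : 0 ≤ Y := Finset.sum_nonneg (fun j _ => sq_nonneg _)
    have hQ' : c' * Y ≤ T.Qd (fun j => w j.succ - w 0 * u j) :=
      h' (fun j => w j.succ - w 0 * u j)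
    have hYX : X / 2 - w 0 ^ 2 * U ≤ Y := by
      rw [hX, hY, hU, Finset.sum_div, Finset.mul_sum, ← Finset.sum_sub_distrib]
      apply Finset.sum_le_sum
      intro j _
      nlinarith [sq_nonneg (w j.succ - 2 * (w 0 * u j))]
    have h1 : min (1 / (2 * d)) (ε * c' / 2) * (w 0 ^ 2 + X) ≤
        1 / (2 * d) * w 0 ^ 2 + ε * c' / 2 * X := by
      rw [mul_add]
      exact add_le_add (mul_le_mul_of_nonneg_right (min_le_left _ _) (sq_nonneg _))
        (mul_le_mul_of_nonneg_right (min_le_right _ _) hX0)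
    have h2 : ε * c' * (X / 2 - w 0 ^ 2 * U) ≤ c' * Y := by
      have h21 : 0 ≤ ε * c' := by positivity
      have h22 : 0 ≤ c' * Y := by positivity
      calc ε * c' * (X / 2 - w 0 ^ 2 * U) ≤ ε * c' * Y := mul_le_mul_of_nonneg_left hYX h21
        _ = ε * (c' * Y) := by ring
        _ ≤ 1 * (c' * Y) := mul_le_mul_of_nonneg_right hε1 h22
        _ = c' * Y := one_mul _
    have h3 : ε * c' * (w 0 ^ 2 * U) ≤ 1 / (2 * d) * w 0 ^ 2 := by
      have h30 : ε * c' * (w 0 ^ 2 * U) ≤ ε * c' * (w 0 ^ 2 * (U + 1)) := by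
        apply mul_le_mul_of_nonneg_left _ (by positivity)
        apply mul_le_mul_of_nonneg_left _ (sq_nonneg _)
        linarith
      have h31 : ε * c' * (w 0 ^ 2 * (U + 1)) =
          ε * (2 * d * c' * (U + 1)) * (w 0 ^ 2 / (2 * d)) := by
        field_simp
      have h32 : ε * (2 * d * c' * (U + 1)) * (w 0 ^ 2 / (2 * d)) ≤ 1 * (w 0 ^ 2 / (2 * d)) :=
        mul_le_mul_of_nonneg_right hε2 (by positivity)
      have h33 : 1 * (w 0 ^ 2 / (2 * d)) = 1 / (2 * d) * w 0 ^ 2 := by ring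
      linarith
    have h4 : w 0 ^ 2 / d = 1 / (2 * d) * w 0 ^ 2 + 1 / (2 * d) * w 0 ^ 2 := by
      field_simp
      ring
    linarith

end Cfsg.Agent.Lib.Helper65.THA2
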