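import Cfsg.Agent.Lib.Helper10.TH0

/-! # S1632 piece A3: the dual form at the gradient -/

set_option autoImplicit false

namespace Cfsg.Agent.Lib.Helper65.THA3

open Matrix Complex UpperHalfPlane ModularForm MatrixGroups Cfsg.Agent.Lib.Helper10.TH
open scoped Manifold Real

/-- A3 -/
theorem Qd_grad {n : ℕ} (T : Tri n) (x : Fin n → ℝ) : T.Qd (T.grad x) = T.Q x := by
  induction T with
  | nil => rfl
  | cons d hd u T ih =>
    rw [Tri.Q_cons, Tri.Qd_cons, Tri.grad_cons]
    have h1 : (fun j : Fin _ =>
        (Fin.cons (d * (x 0 + ∑ j, u j * x j.succ))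
          (fun j => d * (x 0 + ∑ j, u j * x j.succ) * u j + T.grad (fun j => x j.succ) j) :
            Fin (_ + 1) → ℝ) j.succ -
        (Fin.cons (d * (x 0 + ∑ j, u j * x j.succ))
          (fun j => d * (x 0 + ∑ j, u j * x j.succ) * u j + T.grad (fun j => x j.succ) j) :
            Fin (_ + 1) → ℝ) 0 * u j) = T.grad (fun j => x j.succ) := by
      funext j
      rw [Fin.cons_succ, Fin.cons_zero]
      ring
    rw [h1, ih, Fin.cons_zero]
    congr 1
    field_simp

end Cfsg.Agent.Lib.Helper65.THA3
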