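import Cfsg.Agent.Lib.Helper10.TH0

/-! # S1632 piece A5: an integral positive definite form with nonzero determinant is positive
definite over the reals -/

set_option autoImplicit false

namespace Cfsg.Agent.Lib.Helper65.THA5

open Matrix Complex UpperHalfPlane ModularForm MatrixGroups Cfsg.Agent.Lib.Helper10.TH
open scoped Manifold Real

/-- A5 -/
theorem real_posdef {n : ℕ} (B : Matrix (Fin n) (Fin n) ℤ) (hB : B.IsSymm)
    (hpos : ∀ x : Fin n → ℤ, x ≠ 0 → 0 < x ⬝ᵥ (B *ᵥ x)) (hdet : B.det ≠ 0) :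
    ∀ x : Fin n → ℝ, x ≠ 0 → 0 < x ⬝ᵥ ((B.map (Int.cast : ℤ → ℝ)) *ᵥ x) := by
  set A : Matrix (Fin n) (Fin n) ℝ := B.map (Int.cast : ℤ → ℝ) with hA
  have hAsymm : A.IsSymm := by
    rw [hA]
    exact hB.map _
  have hbil : ∀ x y : Fin n → ℝ, x ⬝ᵥ (A *ᵥ y) = y ⬝ᵥ (A *ᵥ x) := by
    intro x y
    rw [Matrix.dotProduct_mulVec, ← Matrix.mulVec_transpose, hAsymm.eq, dotProduct_comm]
  have hint : ∀ y : Fin n → ℤ, (fun i => (y i : ℝ)) ⬝ᵥ (A *ᵥ fun i => (y i : ℝ)) =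
      ((y ⬝ᵥ (B *ᵥ y) : ℤ) : ℝ) := by
    intro y
    simp [hA, dotProduct, Matrix.mulVec, Int.cast_sum, Int.cast_mul]
  have hint0 : ∀ y : Fin n → ℤ, 0 ≤ (fun i => (y i : ℝ)) ⬝ᵥ (A *ᵥ fun i => (y i : ℝ)) := by
    intro y
    rw [hint]
    by_cases hy : y = 0
    · subst hy
      simp
    · exact_mod_cast (hpos y hy).le
  have hsm : ∀ (c : ℝ) (y : Fin n → ℝ),
      (c • y) ⬝ᵥ (A *ᵥ (c • y)) = c ^ 2 * (y ⬝ᵥ (A *ᵥ y)) := by
    intro c y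
    rw [Matrix.mulVec_smul, smul_dotProduct, dotProduct_smul, smul_eq_mul, smul_eq_mul]
    ring
  have hcont : Continuous (fun x : Fin n → ℝ => x ⬝ᵥ (A *ᵥ x)) := by
    unfold dotProduct Matrix.mulVec dotProduct
    fun_prop
  have hnn : ∀ x : Fin n → ℝ, 0 ≤ x ⬝ᵥ (A *ᵥ x) := by
    intro x
    let xm : ℕ → (Fin n → ℝ) := fun m =>
      ((m : ℝ) + 1)⁻¹ • (fun i => ((⌊x i * ((m : ℝ) + 1)⌋ : ℤ) : ℝ))
    have hlim : Filter.Tendsto xm Filter.atTop (nhds x) := by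
      rw [tendsto_pi_nhds]
      intro i
      rw [tendsto_iff_norm_sub_tendsto_zero]
      refine squeeze_zero (fun m => norm_nonneg _) (fun m => ?_)
        tendsto_one_div_add_atTop_nhds_zero_nat
      have hm : (0 : ℝ) < (m : ℝ) + 1 := by positivity
      show ‖((m : ℝ) + 1)⁻¹ * ((⌊x i * ((m : ℝ) + 1)⌋ : ℤ) : ℝ) - x i‖ ≤ 1 / ((m : ℝ) + 1)
      have h1 := Int.floor_le (x i * ((m : ℝ) + 1))
      have h2 := Int.lt_floor_add_one (x i * ((m : ℝ) + 1))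
      have e : ((m : ℝ) + 1)⁻¹ * ((⌊x i * ((m : ℝ) + 1)⌋ : ℤ) : ℝ) - x i =
          (((⌊x i * ((m : ℝ) + 1)⌋ : ℤ) : ℝ) - x i * ((m : ℝ) + 1)) / ((m : ℝ) + 1) := by
        field_simp
      rw [e, Real.norm_eq_abs, abs_le]
      constructor
      · rw [neg_le, ← neg_div, div_le_div_iff_of_pos_right hm]
        linarith
      · exact le_trans (div_nonpos_of_nonpos_of_nonneg (by linarith) hm.le) (by positivity)
    have hlim2 : Filter.Tendsto (fun m => xm m ⬝ᵥ (A *ᵥ xm m)) Filter.atTop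
        (nhds (x ⬝ᵥ (A *ᵥ x))) := (hcont.tendsto x).comp hlim
    refine ge_of_tendsto' hlim2 (fun m => ?_)
    show 0 ≤ xm m ⬝ᵥ (A *ᵥ xm m)
    rw [hsm]
    exact mul_nonneg (sq_nonneg _) (hint0 _)
  intro x hx
  rcases (hnn x).lt_or_eq with h | h
  · exact h
  · exfalso
    have hb : ∀ y : Fin n → ℝ, y ⬝ᵥ (A *ᵥ x) = 0 := by
      intro y
      by_contra hb
      have hqy0 : 0 ≤ y ⬝ᵥ (A *ᵥ y) := hnn y
      have hexp : ∀ s : ℝ, (x + s • y) ⬝ᵥ (A *ᵥ (x + s • y)) =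
          2 * s * (y ⬝ᵥ (A *ᵥ x)) + s ^ 2 * (y ⬝ᵥ (A *ᵥ y)) := by
        intro s
        rw [Matrix.mulVec_add, Matrix.mulVec_smul, add_dotProduct, dotProduct_add, dotProduct_add,
          smul_dotProduct, smul_dotProduct, dotProduct_smul, dotProduct_smul, ← h, hbil x y]
        simp only [smul_eq_mul]
        ring
      have h0 := hnn (x + (-(y ⬝ᵥ (A *ᵥ x)) / (y ⬝ᵥ (A *ᵥ y) + 1)) • y)
      rw [hexp] at h0
      have hq1 : 0 < y ⬝ᵥ (A *ᵥ y) + 1 := by linarith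
      have hneg : 2 * (-(y ⬝ᵥ (A *ᵥ x)) / (y ⬝ᵥ (A *ᵥ y) + 1)) * (y ⬝ᵥ (A *ᵥ x)) +
          (-(y ⬝ᵥ (A *ᵥ x)) / (y ⬝ᵥ (A *ᵥ y) + 1)) ^ 2 * (y ⬝ᵥ (A *ᵥ y)) =
          -((y ⬝ᵥ (A *ᵥ x)) ^ 2 * (y ⬝ᵥ (A *ᵥ y) + 2)) / (y ⬝ᵥ (A *ᵥ y) + 1) ^ 2 := by
        field_simp
        ring
      rw [hneg] at h0
      have hb2 : 0 < (y ⬝ᵥ (A *ᵥ x)) ^ 2 := by positivity
      have hlt : -((y ⬝ᵥ (A *ᵥ x)) ^ 2 * (y ⬝ᵥ (A *ᵥ y) + 2)) / (y ⬝ᵥ (A *ᵥ y) + 1) ^ 2 < 0 := by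
        apply div_neg_of_neg_of_pos
        · have : 0 < (y ⬝ᵥ (A *ᵥ x)) ^ 2 * (y ⬝ᵥ (A *ᵥ y) + 2) := by positivity
          linarith
        · positivity
      linarith
    have hAx : A *ᵥ x = 0 := dotProduct_self_eq_zero.1 (hb (A *ᵥ x))
    have hdetA : A.det ≠ 0 := by
      have e : A.det = ((B.det : ℤ) : ℝ) := by
        rw [hA]
        exact ((Int.castRingHom ℝ).map_det B).symm
      rw [e]
      exact_mod_cast hdet
    exact hx (Matrix.eq_zero_of_mulVec_eq_zero hdetA hAx)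

end Cfsg.Agent.Lib.Helper65.THA5
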