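import Cfsg.Agent.Lib.Helper10.TH0

/-! # S1632 piece C5: the q-expansion of the theta series -/

set_option autoImplicit false

namespace Cfsg.Agent.Lib.Helper65.THC5

open Matrix Complex UpperHalfPlane ModularForm MatrixGroups Cfsg.Agent.Lib.Helper10.TH
open scoped Manifold Real

variable {B : Matrix (Fin 24) (Fin 24) ℤ}

/-- C5 (from C2, C3 as hypotheses) -/
theorem hasSum_theta_of (hB : UHyp B)
    (hsum : ∀ ρ : ℝ, 0 < ρ → Summable (fun x : Fin 24 → ℤ => Real.exp (-ρ * (qf B x : ℝ))))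
    (hfin : ∀ m : ℤ, {x : Fin 24 → ℤ | qf B x = m}.Finite) (τ : ℍ) :
    HasSum (fun m : ℕ => (rep B m : ℂ) • Function.Periodic.qParam 1 (τ : ℂ) ^ m)
      (theta B τ) := by
  set f : (Fin 24 → ℤ) → ℂ :=
    fun x => cexp (-(π : ℂ) * (-Complex.I * (τ : ℂ)) * (qf B x : ℂ)) with hf
  have hnorm : ∀ x, ‖f x‖ = Real.exp (-(π * τ.im) * (qf B x : ℝ)) := by
    intro x
    rw [hf, Complex.norm_exp]
    congr 1
    simp [Complex.mul_re, Complex.mul_im]
  have hsummable : Summable f := by
    apply Summable.of_norm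
    have e : (fun x => ‖f x‖) = fun x : Fin 24 → ℤ => Real.exp (-(π * τ.im) * (qf B x : ℝ)) :=
      funext hnorm
    rw [e]
    exact hsum (π * τ.im) (mul_pos Real.pi_pos τ.im_pos)
  have hS : HasSum f (theta B τ) := hsummable.hasSum
  set mf : (Fin 24 → ℤ) → ℕ := fun x => (qf B x / 2).toNat with hmf
  have hq : ∀ x, qf B x = 2 * (mf x : ℤ) := by
    intro x
    have hnn : 0 ≤ qf B x := by
      by_cases hx : x = 0
      · subst hx
        simp [qf]
      · exact (hB.pos x hx).le
    have hev := hB.even x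
    have h2 : 2 * (qf B x / 2) = qf B x := Int.mul_ediv_cancel' hev
    have h3 : 0 ≤ qf B x / 2 := by omega
    show qf B x = 2 * (((qf B x / 2).toNat : ℕ) : ℤ)
    rw [Int.toNat_of_nonneg h3, h2]
  have hfib := hS.tsum_fiberwise mf
  have key_aux : ∀ m : ℕ, ∑' b : mf ⁻¹' {m}, f b =
      (rep B m : ℂ) • Function.Periodic.qParam 1 (τ : ℂ) ^ m := by
    intro m
    have hset : mf ⁻¹' {m} = {x | qf B x = 2 * (m : ℤ)} := by
      ext x
      simp only [Set.mem_preimage, Set.mem_singleton_iff, Set.mem_setOf_eq]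
      constructor
      · intro h
        rw [hq x, h]
      · intro h
        have := hq x
        omega
    have hval : ∀ b : mf ⁻¹' {m}, f b = Function.Periodic.qParam 1 (τ : ℂ) ^ m := by
      rintro ⟨x, hx⟩
      have hx' : mf x = m := hx
      show cexp (-(π : ℂ) * (-Complex.I * (τ : ℂ)) * (qf B x : ℂ)) = _
      rw [hq x, hx', Function.Periodic.qParam, ← Complex.exp_nat_mul]
      congr 1
      push_cast
      ring
    rw [tsum_congr hval, tsum_const, hset, Nat.card_coe_set_eq, nsmul_eq_mul, smul_eq_mul]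
    rfl
  have key : (fun m : ℕ => (rep B m : ℂ) • Function.Periodic.qParam 1 (τ : ℂ) ^ m) =
      fun c : ℕ => ∑' b : mf ⁻¹' {c}, f b := by
    funext m
    exact (key_aux m).symm
  rw [key]
  exact hfib

end Cfsg.Agent.Lib.Helper65.THC5
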