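import Mathlib
import Cfsg.Prelude.Def_GeometricClasses
import Cfsg.Agent.Lib.Helper71.SLP0

/-!
# Project SLC (helper65): pieces N4 and N7

`SL_n(F)` is contained in no tensor-product subgroup and in no tensor-wreath subgroup: these
groups preserve the set of decomposable tensors, while `SL_n(F)` maps a decomposable vector to a
non-decomposable one.
-/

set_option autoImplicit false

namespace Cfsg.Agent.Lib.Helper65.SLCN47

open Matrix Cfsg.Geo Cfsg.Agent.Lib.Helper71.SLP
open scoped Kronecker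

variable {n : ℕ} {F : Type*} [Field F]

/-- A transvection of `SL_n(F)` mapping `v` to `w`. -/
theorem exists_sl_map (v w : Fin n → F) (hvw : v ∉ Submodule.span F {w - v}) :
    ∃ g ∈ specialLinear (Fin n) F, g.1 *ᵥ v = w := by
  obtain ⟨φ, h1, h2⟩ := exists_dual (Submodule.span F {w - v}) v hvw
  have h0 : φ ⬝ᵥ (w - v) = 0 := h2 _ (Submodule.subset_span rfl)
  refine ⟨tv (w - v) φ h0, tv_mem_specialLinear _ _ _, ?_⟩
  rw [tv_mulVec, h1, one_smul]
  abel

theorem glReindex_val {κ : Type} [Fintype κ] [DecidableEq κ] (e : Fin n ≃ κ) (k : GL κ F) :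
    ((glReindex e.symm k : GL (Fin n) F) : Matrix (Fin n) (Fin n) F) = k.1.submatrix e e := by
  rfl

theorem glReindex_mulVec {κ : Type} [Fintype κ] [DecidableEq κ] (e : Fin n ≃ κ) (k : GL κ F)
    (x : κ → F) :
    ((glReindex e.symm k : GL (Fin n) F) : Matrix (Fin n) (Fin n) F) *ᵥ (x ∘ e) =
      (k.1 *ᵥ x) ∘ e := by
  rw [glReindex_val, Matrix.submatrix_mulVec_equiv]
  congr 2
  ext i
  simp

theorem mulVec_gl_injective (P : GL (Fin n) F) : Function.Injective (fun v => P.1 *ᵥ v) := by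
  intro a b hab
  have h := congrArg (fun v => (P⁻¹ : GL (Fin n) F).1 *ᵥ v) hab
  simp only [Matrix.mulVec_mulVec] at h
  have e : (P⁻¹ : GL (Fin n) F).1 * P.1 = 1 := by
    rw [← Units.val_mul, inv_mul_cancel, Units.val_one]
  rw [e, Matrix.one_mulVec, Matrix.one_mulVec] at h
  exact h

/-- Transport: a subgroup of `GL κ F` preserving a set `Dec` of vectors which is not everything
gives, after reindexing and conjugation, a subgroup not containing `SL_n(F)`. -/
theorem not_le_of_dec {κ : Type} [Fintype κ] [DecidableEq κ] (e : Fin n ≃ κ) (P : GL (Fin n) F)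
    (K : Subgroup (GL κ F)) (Dec : Set (κ → F))
    (hK : ∀ k ∈ K, ∀ x ∈ Dec, k.1 *ᵥ x ∈ Dec) (x₀ y₀ : κ → F) (hy : y₀ ∈ Dec) (hx : x₀ ∉ Dec)
    (hind : ∀ c : F, y₀ ≠ c • (x₀ - y₀)) :
    ¬ specialLinear (Fin n) F ≤
      (K.map (glReindex e.symm).toMonoidHom).map (MulAut.conj P).toMonoidHom := by
  intro hle
  have hvw : P.1 *ᵥ (y₀ ∘ e) ∉ Submodule.span F {P.1 *ᵥ (x₀ ∘ e) - P.1 *ᵥ (y₀ ∘ e)} := by
    intro hmem
    obtain ⟨c, hc⟩ := Submodule.mem_span_singleton.mp hmem
    have h1 : P.1 *ᵥ ((c • (x₀ - y₀)) ∘ e) = P.1 *ᵥ (y₀ ∘ e) := by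
      rw [← hc, ← Matrix.mulVec_sub, ← Matrix.mulVec_smul]
      congr 1
    have h2 := mulVec_gl_injective P h1
    apply hind c
    funext a
    have h3 := congrFun h2 (e.symm a)
    simp only [Function.comp_apply, Equiv.apply_symm_apply] at h3
    exact h3.symm
  obtain ⟨g, hg, hgv⟩ := exists_sl_map _ _ hvw
  obtain ⟨h, ⟨k, hk, rfl⟩, rfl⟩ := hle hg
  have h1 : ((MulAut.conj P).toMonoidHom ((glReindex e.symm).toMonoidHom k) : GL (Fin n) F).1 *ᵥ
      (P.1 *ᵥ (y₀ ∘ e)) = P.1 *ᵥ ((k.1 *ᵥ y₀) ∘ e) := by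
    have e1 : ((MulAut.conj P).toMonoidHom ((glReindex e.symm).toMonoidHom k) : GL (Fin n) F) =
        P * glReindex e.symm k * P⁻¹ := rfl
    rw [e1, Units.val_mul, Units.val_mul, Matrix.mulVec_mulVec, mul_assoc, mul_assoc,
      ← Units.val_mul P⁻¹ P, inv_mul_cancel, Units.val_one, mul_one, ← Matrix.mulVec_mulVec,
      glReindex_mulVec]
  rw [h1] at hgv
  have h2 := mulVec_gl_injective P hgv
  apply hx
  have h3 : k.1 *ᵥ y₀ = x₀ := by
    funext a
    have h4 := congrFun h2 (e.symm a)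
    simpa using h4
  rw [← h3]
  exact hK k hk y₀ hy

/-! ## N4 -/

/-- decomposable vectors of `F^(n₁ × n₂)` -/
def Dec2 (n₁ n₂ : ℕ) (F : Type*) [Field F] : Set (Fin n₁ × Fin n₂ → F) :=
  {x | ∃ (u : Fin n₁ → F) (v : Fin n₂ → F), ∀ p, x p = u p.1 * v p.2}

theorem kron_mulVec_dec {n₁ n₂ : ℕ} (k : GL (Fin n₁ × Fin n₂) F)
    (hk : k ∈ kroneckerSubgroup n₁ n₂ F) (x : Fin n₁ × Fin n₂ → F) (hx : x ∈ Dec2 n₁ n₂ F) :
    k.1 *ᵥ x ∈ Dec2 n₁ n₂ F := by
  obtain ⟨a, b, hab⟩ := hk
  obtain ⟨u, v, huv⟩ := hx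
  refine ⟨a.1 *ᵥ u, b.1 *ᵥ v, ?_⟩
  rintro ⟨i, j⟩
  have hab' : (k : Matrix (Fin n₁ × Fin n₂) (Fin n₁ × Fin n₂) F) = a.1 ⊗ₖ b.1 := hab
  simp only [Matrix.mulVec, dotProduct, hab', Matrix.kroneckerMap_apply, huv]
  rw [Fintype.sum_prod_type, Finset.sum_mul_sum]
  refine Finset.sum_congr rfl fun i' _ => Finset.sum_congr rfl fun j' _ => ?_
  ring

/-- N4 -/
theorem N4 [Fintype F] (n₁ n₂ : ℕ) (h1 : 2 ≤ n₁) (h2 : 2 ≤ n₂) (e : Fin n ≃ Fin n₁ × Fin n₂)
    (P : GL (Fin n) F) : ¬ specialLinear (Fin n) F ≤ tensorProductSubgroup n₁ n₂ e P := by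
  classical
  unfold tensorProductSubgroup
  have i0 : Fin n₁ := ⟨0, by omega⟩
  have i1 : Fin n₁ := ⟨1, by omega⟩
  have j0 : Fin n₂ := ⟨0, by omega⟩
  have j1 : Fin n₂ := ⟨1, by omega⟩
  let a0 : Fin n₁ := ⟨0, by omega⟩
  let a1 : Fin n₁ := ⟨1, by omega⟩
  let b0 : Fin n₂ := ⟨0, by omega⟩
  let b1 : Fin n₂ := ⟨1, by omega⟩
  have ha : a0 ≠ a1 := by
    intro h
    have := congrArg Fin.val h
    simp [a0, a1] at this
  have hb : b0 ≠ b1 := by
    intro h
    have := congrArg Fin.val h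
    simp [b0, b1] at this
  apply not_le_of_dec e P (kroneckerSubgroup n₁ n₂ F) (Dec2 n₁ n₂ F) kron_mulVec_dec
    (Pi.single (a0, b0) 1 + Pi.single (a1, b1) 1) (Pi.single (a0, b0) 1)
  · refine ⟨Pi.single a0 1, Pi.single b0 1, ?_⟩
    rintro ⟨i, j⟩
    by_cases hi : i = a0
    · by_cases hj : j = b0
      · subst hi; subst hj; simp
      · subst hi; simp [Pi.single_apply, hj]
    · simp [Pi.single_apply, hi]
  · rintro ⟨u, v, huv⟩
    have e1 := huv (a0, b0)
    have e2 := huv (a1, b1)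
    have e3 := huv (a0, b1)
    simp [Pi.single_apply, ha, hb, ha.symm, hb.symm] at e1 e2 e3
    rcases e3 with h | h
    · rw [h, zero_mul] at e1; exact one_ne_zero e1
    · rw [h, mul_zero] at e2; exact one_ne_zero e2
  · intro c hc
    have e1 := congrFun hc (a0, b0)
    simp [Pi.single_apply, ha, hb, ha.symm, hb.symm] at e1

/-! ## N7 -/

/-- decomposable vectors of the `t`-fold tensor power of `F^m` -/
def DecT (m t : ℕ) (F : Type*) [Field F] : Set ((Fin t → Fin m) → F) :=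
  {x | ∃ u : Fin t → Fin m → F, ∀ a, x a = ∏ i, u i (a i)}

theorem pure_mulVec_dec {m t : ℕ} (g : GL (Fin t → Fin m) F) (hg : IsPureTensor m t g)
    (x : (Fin t → Fin m) → F) (hx : x ∈ DecT m t F) : g.1 *ᵥ x ∈ DecT m t F := by
  classical
  obtain ⟨gs, hgs⟩ := hg
  obtain ⟨u, hu⟩ := hx
  refine ⟨fun i => (gs i).1 *ᵥ u i, ?_⟩
  intro a
  simp only [Matrix.mulVec, dotProduct]
  rw [Finset.prod_univ_sum]
  rw [Fintype.piFinset_univ]
  refine Finset.sum_congr rfl fun b _ => ?_
  have h1 : (g : Matrix (Fin t → Fin m) (Fin t → Fin m) F) a b =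
      ∏ i, ((gs i : GL (Fin m) F) : Matrix (Fin m) (Fin m) F) (a i) (b i) := hgs a b
  rw [h1, hu b, ← Finset.prod_mul_distrib]

theorem perm_mulVec_dec {m t : ℕ} (g : GL (Fin t → Fin m) F) (hg : IsFactorPermutation m t g)
    (x : (Fin t → Fin m) → F) (hx : x ∈ DecT m t F) : g.1 *ᵥ x ∈ DecT m t F := by
  classical
  obtain ⟨σ, hσ⟩ := hg
  obtain ⟨u, hu⟩ := hx
  refine ⟨fun j => u (σ.symm j), ?_⟩
  intro a
  have h1 : (g.1 *ᵥ x) a = x (a ∘ σ) := by
    simp only [Matrix.mulVec, dotProduct]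
    rw [Finset.sum_eq_single (a ∘ σ)]
    · have h2 : (g : Matrix (Fin t → Fin m) (Fin t → Fin m) F) a (a ∘ σ) = 1 := by
        rw [hσ]; simp
      rw [h2, one_mul]
    · intro b _ hb
      have h2 : (g : Matrix (Fin t → Fin m) (Fin t → Fin m) F) a b = 0 := by
        rw [hσ]; simp [hb]
      rw [h2, zero_mul]
    · intro h; exact absurd (Finset.mem_univ _) h
  rw [h1, hu]
  rw [← Equiv.prod_comp σ (fun j => u (σ.symm j) (a j))]
  simp

theorem wreath_mulVec_dec [Fintype F] {m t : ℕ} (k : GL (Fin t → Fin m) F)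
    (hk : k ∈ tensorWreathStandard m t F) (x : (Fin t → Fin m) → F) (hx : x ∈ DecT m t F) :
    k.1 *ᵥ x ∈ DecT m t F := by
  classical
  have hpow : ∀ (g : GL (Fin t → Fin m) F), (∀ x ∈ DecT m t F, g.1 *ᵥ x ∈ DecT m t F) →
      ∀ j : ℕ, ∀ x ∈ DecT m t F, (g ^ j : GL (Fin t → Fin m) F).1 *ᵥ x ∈ DecT m t F := by
    intro g hg j
    induction j with
    | zero => intro x hx; simpa using hx
    | succ j ih =>
      intro x hx
      rw [pow_succ, Units.val_mul, ← Matrix.mulVec_mulVec]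
      exact ih _ (hg x hx)
  have key : ∀ k ∈ tensorWreathStandard m t F, ∀ x ∈ DecT m t F, k.1 *ᵥ x ∈ DecT m t F := by
    intro k hk
    unfold tensorWreathStandard at hk
    induction hk using Subgroup.closure_induction with
    | mem g hg =>
      rcases hg with hg | hg
      · exact pure_mulVec_dec g hg
      · exact perm_mulVec_dec g hg
    | one => intro x hx; simpa using hx
    | mul g h _ _ ihg ihh =>
      intro x hx
      rw [Units.val_mul, ← Matrix.mulVec_mulVec]
      exact ihg _ (ihh x hx)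
    | inv g _ ih =>
      have hfin : IsOfFinOrder g := isOfFinOrder_of_finite g
      have e1 : g⁻¹ = g ^ (orderOf g - 1) := by
        apply inv_eq_of_mul_eq_one_right
        rw [← pow_succ', Nat.sub_add_cancel hfin.orderOf_pos, pow_orderOf_eq_one]
      rw [e1]
      exact hpow g ih _
  exact key k hk x hx

/-- N7 -/
theorem N7 [Fintype F] (m t : ℕ) (hm : 2 ≤ m) (ht : 2 ≤ t) (e : Fin n ≃ (Fin t → Fin m))
    (P : GL (Fin n) F) : ¬ specialLinear (Fin n) F ≤ tensorWreathSubgroup m t e P := by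
  classical
  unfold tensorWreathSubgroup
  let c0 : Fin m := ⟨0, by omega⟩
  let c1 : Fin m := ⟨1, by omega⟩
  let i0 : Fin t := ⟨0, by omega⟩
  let i1 : Fin t := ⟨1, by omega⟩
  have hc : c0 ≠ c1 := by
    intro h
    have := congrArg Fin.val h
    simp [c0, c1] at this
  have hi : i0 ≠ i1 := by
    intro h
    have := congrArg Fin.val h
    simp [i0, i1] at this
  let a : Fin t → Fin m := fun _ => c0
  let b : Fin t → Fin m := fun _ => c1
  let c : Fin t → Fin m := Function.update b i0 c0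
  have hab : a ≠ b := fun h => hc (congrFun h i0)
  have hca : c ≠ a := by
    intro h
    have := congrFun h i1
    simp [c, a, b, Function.update_apply, hi.symm] at this
    exact hc this.symm
  have hcb : c ≠ b := by
    intro h
    have := congrFun h i0
    simp [c, b] at this
    exact hc this
  apply not_le_of_dec e P (tensorWreathStandard m t F) (DecT m t F) wreath_mulVec_dec
    (Pi.single a 1 + Pi.single b 1) (Pi.single a 1)
  · refine ⟨fun _ => Pi.single c0 1, ?_⟩
    intro x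
    by_cases hx : x = a
    · subst hx
      simp [a]
    · rw [Pi.single_apply, if_neg hx]
      symm
      obtain ⟨i, hi'⟩ : ∃ i, x i ≠ c0 := by
        by_contra hcon
        push Not at hcon
        exact hx (funext hcon)
      apply Finset.prod_eq_zero (Finset.mem_univ i)
      show (Pi.single c0 (1 : F) : Fin m → F) (x i) = 0
      rw [Pi.single_apply, if_neg hi']
  · rintro ⟨u, hu⟩
    have e1 := hu a
    have e2 := hu b
    have e3 := hu c
    simp only [Pi.add_apply, Pi.single_apply, if_pos rfl, if_neg hab, if_neg hab.symm,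
      if_neg hca, if_neg hcb, add_zero, zero_add] at e1 e2 e3
    have h1 : ∀ i, u i c0 ≠ 0 := by
      intro i h
      have : ∏ i, u i (a i) = 0 := Finset.prod_eq_zero (Finset.mem_univ i) h
      rw [this] at e1
      exact one_ne_zero e1
    have h2 : ∀ i, u i c1 ≠ 0 := by
      intro i h
      have : ∏ i, u i (b i) = 0 := Finset.prod_eq_zero (Finset.mem_univ i) h
      rw [this] at e2
      exact one_ne_zero e2
    have h3 : ∏ i, u i (c i) ≠ 0 := by
      rw [Finset.prod_ne_zero_iff]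
      intro i _
      by_cases hii : i = i0
      · subst hii
        simp only [c, Function.update_self]
        exact h1 _
      · simp only [c, Function.update_of_ne hii, b]
        exact h2 i
    exact h3 e3.symm
  · intro d hd
    have e1 := congrFun hd a
    simp [Pi.single_apply, hab] at e1

end Cfsg.Agent.Lib.Helper65.SLCN47
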