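import Mathlib
import Cfsg.Agent.Lib.Helper26.GrossDefs
import Cfsg.Agent.Lib.Helper26.GrossAux
import Cfsg.Agent.Lib.Helper26.GrossSq
import Cfsg.Agent.Lib.Helper26.FrobK4
import Cfsg.Agent.Lib.Helper1.Coprime
import Cfsg.Agent.Lib.Helper26.GrossMinA

/-!
# The abelian case of the minimal configuration in the Shult–Gross key proposition
-/

set_option autoImplicit false

open scoped commutatorElement

namespace Cfsg.Agent.Lib.Helper65.GrossAB

open Cfsg.Agent.Lib.Helper26

theorem gross_kp_ab {k : Type*} [Field k] [Finite k] {p q n M₀ : ℕ} (hD : GrossData k p q n M₀)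
    {V : Type*} [AddCommGroup V] [Module k V] [Module.Finite k V]
    {Q : Subgroup (Module.End k V)ˣ} {φ : (Module.End k V)ˣ}
    (h : GrossKP k p q n M₀ V Q φ) (hmin : GrossMin p q n Q φ)
    (hirr : ∀ U : Submodule k V, (∀ x ∈ Q, ∀ u ∈ U, (x : Module.End k V) u ∈ U) →
      (∀ u ∈ U, (φ : Module.End k V) u ∈ U) → U = ⊥ ∨ U = ⊤)
    (hab : ∀ x ∈ Q, ∀ y ∈ Q, x * y = y * x) : False := by
  have hfinΓ : Finite (Module.End k V)ˣ := gross_finite_units
  have hfinV : Finite V := Module.finite_of_finite k
  have hsmul : ∀ (x : (Module.End k V)ˣ) (v : V), x • v = (x : Module.End k V) v := fun x v => rfl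
  have hcardV : Nat.card (⊤ : AddSubgroup V) = Nat.card k ^ Module.finrank k V := by
    rw [← Module.natCard_eq_pow_finrank (K := k) (V := V)]
    exact Nat.card_congr (Equiv.Set.univ V)
  have hcopM : M₀.Coprime (Nat.card (⊤ : AddSubgroup V)) := by
    rw [hcardV]
    exact Nat.Coprime.pow_right _ hD.hcop
  -- the fixed points of `Q`
  let U₀ : Submodule k V :=
    { carrier := {v | ∀ x ∈ Q, (x : Module.End k V) v = v}
      add_mem' := by
        intro a b ha hb x hx
        rw [map_add, ha x hx, hb x hx]
      zero_mem' := by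
        intro x _
        exact map_zero _
      smul_mem' := by
        intro c a ha x hx
        rw [map_smul, ha x hx] }
  have hU₀ : ∀ v, v ∈ U₀ ↔ ∀ x ∈ Q, (x : Module.End k V) v = v := fun v => Iff.rfl
  have hU₀bot : U₀ = ⊥ := by
    have hcases := hirr U₀ (fun x hx u hu => by rw [(hU₀ u).1 hu x hx]; exact hu) (by
      intro u hu
      rw [hU₀]
      intro x hx
      have hx' : φ⁻¹ * x * φ⁻¹⁻¹ ∈ Q :=
        hmin.zpow_norm (Subgroup.inv_mem _ (Subgroup.mem_zpowers φ)) x hx
      have h1 := (hU₀ u).1 hu _ hx'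
      have h2 : (x : Module.End k V) ((φ : Module.End k V) u) =
          (φ : Module.End k V) (((φ⁻¹ * x * φ⁻¹⁻¹ : (Module.End k V)ˣ) : Module.End k V) u) := by
        rw [← Module.End.mul_apply, ← Module.End.mul_apply, ← Units.val_mul, ← Units.val_mul]
        congr 2
        group
      rw [h2, h1])
    rcases hcases with h0 | h0
    · exact h0
    · exfalso
      apply hmin.hnot
      intro x hx
      have hx1 : x = 1 := by
        apply Units.ext
        refine LinearMap.ext fun v => ?_
        have hv : v ∈ U₀ := by rw [h0]; trivial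
        rw [(hU₀ v).1 hv x hx]
        rfl
      rw [hx1, mul_one, one_mul]
  have hsetup : FrobSetup (V := V) Q (Subgroup.zpowers φ) (⊤ : AddSubgroup V) :=
    { hEU := fun e he u hu => hmin.zpow_norm he u hu
      hfpf := fun e he he1 u hu => hmin.abelian_fpf hab he he1 u hu
      hUW := fun _ _ _ _ => trivial
      hEW := fun _ _ _ _ => trivial
      hcU := Nat.Coprime.coprime_dvd_left h.hcard hcopM
      hcE := by
        refine Nat.Coprime.coprime_dvd_left ?_ hcopM
        rw [Nat.card_zpowers]
        exact (orderOf_dvd_of_pow_eq_one h.hφ).trans hD.hM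
      hCU := by
        intro w _ hw
        have hw' : w ∈ U₀ := by
          rw [hU₀]
          intro x hx
          exact hw x hx
        rw [hU₀bot] at hw'
        exact (Submodule.mem_bot k).1 hw' }
  have hK := frob_K (Γ := (Module.End k V)ˣ) (V := V) _ Q (Subgroup.zpowers φ) ⊤ rfl hsetup
  have hfix : ((⊤ : AddSubgroup V) ⊓ frobFix V ((Subgroup.zpowers φ : Subgroup _) : Set (Module.End k V)ˣ)) = ⊥ := by
    rw [eq_bot_iff]
    intro v hv
    have h1 := hv.2 φ (Subgroup.mem_zpowers φ)
    rw [hsmul] at h1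
    rw [AddSubgroup.mem_bot]
    exact h.hCV v h1
  rw [hfix] at hK
  have hone : Nat.card (⊤ : AddSubgroup V) = 1 := by
    rw [hK]
    simp
  have hsub : Subsingleton V := by
    have h1 : Nat.card V = 1 := by
      rw [← hone]
      exact (Nat.card_congr (Equiv.Set.univ V)).symm
    exact (Nat.card_eq_one_iff_unique.1 h1).1
  apply hmin.hnot
  intro x _
  apply Units.ext
  refine LinearMap.ext fun v => Subsingleton.elim _ _

end Cfsg.Agent.Lib.Helper65.GrossAB
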