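import Mathlib

/-! Project SU6 (S5802), piece E1, part (a): the four-element field model and the finite checks
on the root set `R` (weight-two vectors and full-weight vectors of product one in `F_4^6`). -/

set_option autoImplicit false

namespace Cfsg.Agent.Lib.Helper65.SU6E1

/-- four-element model -/
inductive E4 : Type
  | z | o | w | v
  deriving DecidableEq

namespace E4

def add : E4 → E4 → E4
  | z, z => z | z, o => o | z, w => w | z, v => v
  | o, z => o | o, o => z | o, w => v | o, v => w
  | w, z => w | w, o => v | w, w => z | w, v => o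
  | v, z => v | v, o => w | v, w => o | v, v => z

def mul : E4 → E4 → E4
  | z, z => z | z, o => z | z, w => z | z, v => z
  | o, z => z | o, o => o | o, w => w | o, v => v
  | w, z => z | w, o => w | w, w => v | w, v => o
  | v, z => z | v, o => v | v, w => o | v, v => w

instance : Fintype E4 := ⟨⟨[z, o, w, v], by decide⟩, fun x => by cases x <;> decide⟩

end E4

open E4

def sum6 (a : Fin 6 → E4) : E4 := add (a 0) (add (a 1) (add (a 2) (add (a 3) (add (a 4) (a 5)))))
def prod6 (a : Fin 6 → E4) : E4 := mul (a 0) (mul (a 1) (mul (a 2) (mul (a 3) (mul (a 4) (a 5)))))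

def InRE (a : Fin 6 → E4) : Prop :=
  (∃ i j, i ≠ j ∧ a i ≠ z ∧ a j ≠ z ∧ ∀ k, k ≠ i → k ≠ j → a k = z) ∨
    ((∀ i, a i ≠ z) ∧ prod6 a = o)

instance (a : Fin 6 → E4) : Decidable (InRE a) := by unfold InRE; infer_instance

def TE (a : Fin 6 → E4) : Fin 6 → E4 := fun i => add (a i) (sum6 a)

/-- the transvection with centre `u` in coordinates -/
def TuE (u a : Fin 6 → E4) : Fin 6 → E4 :=
  fun i => add (a i) (mul (sum6 (fun k => mul (a k) (mul (u k) (u k)))) (u i))

set_option maxRecDepth 100000 in
theorem T1E : ∀ a0 a1 a2 a3 a4 a5 : E4,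
    InRE ![a0, a1, a2, a3, a4, a5] → InRE (TE ![a0, a1, a2, a3, a4, a5]) := by
  decide +kernel

set_option maxRecDepth 100000 in
theorem T2E : InRE ![o, z, z, z, o, z] ∧ ¬ InRE (TuE ![o, o, o, o, z, z] ![o, z, z, z, o, z]) := by
  decide +kernel

end Cfsg.Agent.Lib.Helper65.SU6E1
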