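import Mathlib
import Cfsg.Agent.Lib.Helper65.SU6E1d

/-! Project SU6 (S5802), piece E1, part (a): transfer of the finite checks on the root set `R`
from the four-element model to an arbitrary field with four elements. -/

set_option autoImplicit false

namespace Cfsg.Agent.Lib.Helper65.SU6E1

open E4

section field

variable {F : Type*} [Field F] [Fintype F]

/-- the basic facts on a field with four elements -/
theorem exists_omega (hF : Fintype.card F = 4) :
    ∃ ω : F, ω ≠ 0 ∧ ω ≠ 1 ∧ ω ^ 2 = ω + 1 ∧ (2 : F) = 0 := by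
  classical
  have h4 : (4 : F) = 0 := by
    have := Nat.cast_card_eq_zero F
    rw [hF] at this
    exact_mod_cast this
  have h2 : (2 : F) = 0 := by
    have : (2 : F) * 2 = 0 := by rw [← h4]; norm_num
    rcases mul_eq_zero.1 this with h | h <;> exact h
  have hex : ∃ x : F, x ≠ 0 ∧ x ≠ 1 := by
    by_contra hcon
    push Not at hcon
    have hsub : (Finset.univ : Finset F) ⊆ {0, 1} := by
      intro x _
      by_cases hx : x = 0
      · simp [hx]
      · simp [hcon x hx]
    have h1 := Finset.card_le_card hsub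
    have h2' : ({0, 1} : Finset F).card ≤ 2 := Finset.card_le_two
    rw [Finset.card_univ, hF] at h1
    omega
  obtain ⟨ω, hω0, hω1⟩ := hex
  refine ⟨ω, hω0, hω1, ?_, h2⟩
  have h3 : ω ^ 3 = 1 := by
    have := FiniteField.pow_card_sub_one_eq_one ω hω0
    rw [hF] at this
    simpa using this
  have h5 : (ω - 1) * (ω ^ 2 + ω + 1) = 0 := by linear_combination h3
  rcases mul_eq_zero.1 h5 with h | h
  · exact absurd (sub_eq_zero.1 h) hω1
  · linear_combination h - (ω + 1) * h2

/-- the bijection from the model -/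
def phi (ω : F) : E4 → F
  | z => 0 | o => 1 | w => ω | v => ω + 1

theorem phi_add (ω : F) (h2 : (2 : F) = 0) (x y : E4) :
    phi ω (add x y) = phi ω x + phi ω y := by
  cases x <;> cases y <;> simp only [phi, add] <;>
    first
      | ring1
      | linear_combination -h2
      | linear_combination -ω * h2
      | linear_combination -(ω + 1) * h2

theorem phi_mul (ω : F) (h2 : (2 : F) = 0) (hω : ω ^ 2 = ω + 1) (x y : E4) :
    phi ω (mul x y) = phi ω x * phi ω y := by
  cases x <;> cases y <;> simp only [phi, mul] <;>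
    first
      | ring1
      | linear_combination -hω
      | linear_combination -hω - ω * h2
      | linear_combination -hω - (ω + 1) * h2

theorem phi_eq_zero (ω : F) (h2 : (2 : F) = 0) (hω0 : ω ≠ 0) (hω1 : ω ≠ 1) (x : E4) :
    phi ω x = 0 ↔ x = z := by
  cases x
  · simp [phi]
  · simp [phi]
  · simp [phi, hω0]
  · simp only [phi, reduceCtorEq, iff_false]
    intro h
    exact hω1 (by linear_combination h - h2)

theorem phi_eq_one (ω : F) (hω0 : ω ≠ 0) (hω1 : ω ≠ 1) (x : E4) :
    phi ω x = 1 ↔ x = o := by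
  cases x
  · simp [phi]
  · simp [phi]
  · simp [phi, hω1]
  · simp [phi, hω0]

theorem phi_surj (hF : Fintype.card F = 4) (ω : F) (h2 : (2 : F) = 0) (hω : ω ^ 2 = ω + 1)
    (y : F) : ∃ x : E4, phi ω x = y := by
  have hy4 : y ^ 4 = y := by
    have := FiniteField.pow_card y
    rwa [hF] at this
  have hP : y * (y + 1) * (y + ω) * (y + (ω + 1)) = 0 := by
    linear_combination hy4 + (y ^ 3 + y ^ 2 + y + ω * (y + 1) * (y ^ 2 + y)) * h2 +
      (y ^ 2 + y) * hω
  rcases mul_eq_zero.1 hP with h | h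
  · rcases mul_eq_zero.1 h with h | h
    · rcases mul_eq_zero.1 h with h | h
      · exact ⟨z, h.symm⟩
      · exact ⟨o, by simp only [phi]; linear_combination -h + h2⟩
    · exact ⟨w, by simp only [phi]; linear_combination -h + ω * h2⟩
  · exact ⟨v, by simp only [phi]; linear_combination -h + (ω + 1) * h2⟩

theorem phi_sum (ω : F) (h2 : (2 : F) = 0) (a : Fin 6 → E4) :
    ∑ i, phi ω (a i) = phi ω (sum6 a) := by
  simp only [Fin.sum_univ_six, sum6, phi_add ω h2]
  ring

theorem phi_prod (ω : F) (h2 : (2 : F) = 0) (hω : ω ^ 2 = ω + 1) (a : Fin 6 → E4) :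
    ∏ i, phi ω (a i) = phi ω (prod6 a) := by
  simp only [Fin.prod_univ_six, prod6, phi_mul ω h2 hω]
  ring

/-- membership in the root set, in coordinates -/
def InR (a : Fin 6 → F) : Prop :=
  (∃ i j, i ≠ j ∧ a i ≠ 0 ∧ a j ≠ 0 ∧ ∀ k, k ≠ i → k ≠ j → a k = 0) ∨
    ((∀ i, a i ≠ 0) ∧ ∏ i, a i = 1)

theorem InR_iff (ω : F) (h2 : (2 : F) = 0) (hω : ω ^ 2 = ω + 1) (hω0 : ω ≠ 0) (hω1 : ω ≠ 1)
    (a : Fin 6 → E4) : InR (fun i => phi ω (a i)) ↔ InRE a := by
  unfold InR InRE
  simp only [ne_eq, phi_eq_zero ω h2 hω0 hω1, phi_prod ω h2 hω, phi_eq_one ω hω0 hω1]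

theorem eta6 (a : Fin 6 → E4) : ![a 0, a 1, a 2, a 3, a 4, a 5] = a := by
  funext i
  fin_cases i <;> rfl

/-- K1: the transvection with centre `Σ d_i` preserves the root set. -/
theorem K1 (hF : Fintype.card F = 4) (a : Fin 6 → F) (ha : InR a) :
    InR (fun i => a i + ∑ k, a k) := by
  obtain ⟨ω, hω0, hω1, hω, h2⟩ := exists_omega hF
  choose a' ha' using fun i => phi_surj hF ω h2 hω (a i)
  have e1 : a = fun i => phi ω (a' i) := funext fun i => (ha' i).symm
  rw [e1] at ha ⊢
  have e2 : (fun i => phi ω (a' i) + ∑ k, phi ω (a' k)) = fun i => phi ω (TE a' i) := by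
    funext i
    rw [phi_sum ω h2, TE, phi_add ω h2]
  rw [e2, InR_iff ω h2 hω hω0 hω1]
  rw [InR_iff ω h2 hω hω0 hω1] at ha
  have := T1E (a' 0) (a' 1) (a' 2) (a' 3) (a' 4) (a' 5)
  rw [eta6] at this
  exact this ha

/-- K2: the transvection with centre `d_0 + d_1 + d_2 + d_3` does not preserve the root set. -/
theorem K2 (hF : Fintype.card F = 4) :
    InR (fun i : Fin 6 => if i = 0 ∨ i = 4 then (1 : F) else 0) ∧
    ¬ InR (fun i : Fin 6 => (if i = 0 ∨ i = 4 then (1 : F) else 0) +
      (∑ k : Fin 6, (if k = 0 ∨ k = 4 then (1 : F) else 0) *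
        (if (k : ℕ) < 4 then (1 : F) else 0) ^ 2) * (if (i : ℕ) < 4 then (1 : F) else 0)) := by
  obtain ⟨ω, hω0, hω1, hω, h2⟩ := exists_omega hF
  have e1 : (fun i : Fin 6 => if i = 0 ∨ i = 4 then (1 : F) else 0) =
      fun i => phi ω ((![o, z, z, z, o, z] : Fin 6 → E4) i) := by
    funext i
    fin_cases i <;> simp [phi]
  have e3 : (fun i : Fin 6 => if (i : ℕ) < 4 then (1 : F) else 0) =
      fun i => phi ω ((![o, o, o, o, z, z] : Fin 6 → E4) i) := by
    funext i
    fin_cases i <;> simp [phi]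
  have e2 : (fun i : Fin 6 => (if i = 0 ∨ i = 4 then (1 : F) else 0) +
      (∑ k : Fin 6, (if k = 0 ∨ k = 4 then (1 : F) else 0) *
        (if (k : ℕ) < 4 then (1 : F) else 0) ^ 2) * (if (i : ℕ) < 4 then (1 : F) else 0)) =
      fun i => phi ω (TuE ![o, o, o, o, z, z] ![o, z, z, z, o, z] i) := by
    funext i
    have e1i := fun k => congrFun e1 k
    have e3i := fun k => congrFun e3 k
    simp only [e1i, e3i]
    rw [TuE, phi_add ω h2, phi_mul ω h2 hω, ← phi_sum ω h2]
    simp only [phi_mul ω h2 hω, pow_two]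
  rw [e2, e1, InR_iff ω h2 hω hω0 hω1, InR_iff ω h2 hω hω0 hω1]
  exact T2E

end field

end Cfsg.Agent.Lib.Helper65.SU6E1
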