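import Mathlib
import Cfsg.Prelude.Def_GeometricClasses
import Cfsg.Prelude.Def_LieClassical
import Cfsg.Agent.Lib.Helper71.SUP0
import Cfsg.Agent.Lib.Helper65.SU6E1a

/-! Project SU6 (S5802), piece E1: for `q = 2` the stabiliser in `SU_6(2)` of a decomposition into
six pairwise orthogonal non-degenerate lines is not maximal (it lies in the stabiliser of the set
`R` of 378 root vectors, the image of the roots of the Mitchell reflection group). -/

set_option autoImplicit false

namespace Cfsg.Agent.Lib.Helper65.SU6E1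

open Matrix Cfsg.Geo Cfsg.Agent.Lib.Helper7 Cfsg.Agent.Lib.Helper18 Cfsg.Agent.Lib.Helper93
  Cfsg.Agent.Lib.Helper71.SUP

variable {F : Type*} [Field F] [Fintype F]

/-- an orthonormal frame of `F^6` -/
structure Frame (d : Fin 6 → Fin 6 → F) : Prop where
  orth : ∀ i j, Cfsg.hermForm 6 F 2 (d i) (d j) = if i = j then 1 else 0
  expand : ∀ x, x = ∑ i, Cfsg.hermForm 6 F 2 x (d i) • d i

/-- coordinates in a frame -/
def co (d : Fin 6 → Fin 6 → F) (x : Fin 6 → F) : Fin 6 → F :=
  fun i => Cfsg.hermForm 6 F 2 x (d i)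

theorem co_comb (d : Fin 6 → Fin 6 → F) (hd : Frame d) (u : Fin 6 → F) :
    co d (∑ k, u k • d k) = u := by
  funext i
  unfold co
  rw [hf_sum_left]
  simp only [hf_smul_left, hd.orth]
  simp

theorem h_co (hF : Fintype.card F = 2 ^ 2) (d : Fin 6 → Fin 6 → F) (hd : Frame d)
    (x y : Fin 6 → F) :
    Cfsg.hermForm 6 F 2 x y = ∑ k, co d x k * (co d y k) ^ 2 := by
  conv_lhs => rw [hd.expand x]
  rw [hf_sum_left]
  refine Finset.sum_congr rfl fun k _ => ?_
  rw [hf_smul_left, hf_conj hF 6 y (d k)]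
  rfl

/-- the transvection with centre `Σ u_k d_k` -/
theorem exists_T (hF : Fintype.card F = 2 ^ 2) (d : Fin 6 → Fin 6 → F) (hd : Frame d)
    (u : Fin 6 → F) (hu : ∑ k, u k * (u k) ^ 2 = 0) :
    ∃ t : GL (Fin 6) F, t ∈ Cfsg.GU 6 F 2 ⊓ specialLinear (Fin 6) F ∧
      (∀ x, co d (t.1 *ᵥ x) = fun i => co d x i + (∑ k, co d x k * (u k) ^ 2) * u i) ∧
      (∀ x, co d ((t⁻¹ : GL (Fin 6) F).1 *ᵥ x) =
        fun i => co d x i + (∑ k, co d x k * (u k) ^ 2) * u i) := by
  have h4 : (4 : F) = 0 := by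
    have := Nat.cast_card_eq_zero F
    rw [hF] at this
    exact_mod_cast this
  have h2 : (2 : F) = 0 := by
    have : (2 : F) * 2 = 0 := by rw [← h4]; norm_num
    rcases mul_eq_zero.1 this with h | h <;> exact h
  have hcu : co d (∑ k, u k • d k) = u := co_comb d hd u
  have hvv : Cfsg.hermForm 6 F 2 (∑ k, u k • d k) (∑ k, u k • d k) = 0 := by
    rw [h_co hF d hd, hcu]
    exact hu
  obtain ⟨t, htS, -, -, ht, hti⟩ := exists_tv hF (∑ k, u k • d k) (1 : F) hvv
    (by linear_combination h2)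
  refine ⟨t, htS, fun x => ?_, fun x => ?_⟩
  · funext i
    have e1 : co d (t.1 *ᵥ x) i = Cfsg.hermForm 6 F 2 (t.1 *ᵥ x) (d i) := rfl
    have e2 : Cfsg.hermForm 6 F 2 (∑ k, u k • d k) (d i) = u i := congrFun hcu i
    have e4 : Cfsg.hermForm 6 F 2 x (∑ k, u k • d k) = ∑ k, co d x k * (u k) ^ 2 := by
      rw [h_co hF d hd, hcu]
    rw [e1, ht, hf_add_left, hf_smul_left, e4, e2, one_mul]
    rfl
  · funext i
    have e1 : co d ((t⁻¹ : GL (Fin 6) F).1 *ᵥ x) i =
        Cfsg.hermForm 6 F 2 ((t⁻¹ : GL (Fin 6) F).1 *ᵥ x) (d i) := rfl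
    have e2 : Cfsg.hermForm 6 F 2 (∑ k, u k • d k) (d i) = u i := congrFun hcu i
    have e4 : Cfsg.hermForm 6 F 2 x (∑ k, u k • d k) = ∑ k, co d x k * (u k) ^ 2 := by
      rw [h_co hF d hd, hcu]
    rw [e1, hti, hf_sub_left, hf_smul_left, e4, e2, one_mul]
    have e3 : Cfsg.hermForm 6 F 2 x (d i) = co d x i := rfl
    rw [e3]
    linear_combination -((∑ k, co d x k * (u k) ^ 2) * u i) * h2

/-- the stabiliser of the root set -/
def stabR (d : Fin 6 → Fin 6 → F) : Subgroup (GL (Fin 6) F) where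
  carrier := {g | ∀ x, InR (co d (g.1 *ᵥ x)) ↔ InR (co d x)}
  one_mem' := by
    intro x
    simp
  mul_mem' := by
    intro a b ha hb x
    rw [Units.val_mul, ← Matrix.mulVec_mulVec, ha, hb]
  inv_mem' := by
    intro a ha x
    have := ha ((a⁻¹ : GL (Fin 6) F).1 *ᵥ x)
    rw [Matrix.mulVec_mulVec, ← Units.val_mul, mul_inv_cancel, Units.val_one,
      Matrix.one_mulVec] at this
    exact this.symm

theorem mem_stabR (d : Fin 6 → Fin 6 → F) (g : GL (Fin 6) F)
    (h1 : ∀ x, InR (co d x) → InR (co d (g.1 *ᵥ x)))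
    (h2 : ∀ x, InR (co d x) → InR (co d ((g⁻¹ : GL (Fin 6) F).1 *ᵥ x))) : g ∈ stabR d := by
  intro x
  refine ⟨fun h => ?_, h1 x⟩
  have := h2 _ h
  rwa [Matrix.mulVec_mulVec, ← Units.val_mul, inv_mul_cancel, Units.val_one,
    Matrix.one_mulVec] at this

/-- monomial maps of determinant one preserve the root set -/
theorem InR_perm (σ : Equiv.Perm (Fin 6)) (l a b : Fin 6 → F) (hl : ∏ i, l i = 1)
    (hb : ∀ i, b (σ i) = l i * a i) (ha : InR a) : InR b := by
  have hl0 : ∀ i, l i ≠ 0 := by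
    intro i h
    rw [Finset.prod_eq_zero (Finset.mem_univ i) h] at hl
    exact zero_ne_one hl
  rcases ha with ⟨i, j, hij, hi, hj, hk⟩ | ⟨hall, hprod⟩
  · refine Or.inl ⟨σ i, σ j, fun h => hij (σ.injective h), ?_, ?_, fun k hki hkj => ?_⟩
    · rw [hb]; exact mul_ne_zero (hl0 i) hi
    · rw [hb]; exact mul_ne_zero (hl0 j) hj
    · have e : k = σ (σ.symm k) := (σ.apply_symm_apply k).symm
      rw [e, hb, hk (σ.symm k), mul_zero]
      · intro h
        exact hki (by rw [e, h])
      · intro h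
        exact hkj (by rw [e, h])
  · refine Or.inr ⟨fun k => ?_, ?_⟩
    · have e : k = σ (σ.symm k) := (σ.apply_symm_apply k).symm
      rw [e, hb]
      exact mul_ne_zero (hl0 _) (hall _)
    · rw [← Equiv.prod_comp σ b]
      simp only [hb]
      rw [Finset.prod_mul_distrib, hl, hprod, one_mul]

theorem two_eq_zero (hF : Fintype.card F = 2 ^ 2) : (2 : F) = 0 := by
  have h4 : (4 : F) = 0 := by
    have := Nat.cast_card_eq_zero F
    rw [hF] at this
    exact_mod_cast this
  have : (2 : F) * 2 = 0 := by rw [← h4]; norm_num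
  rcases mul_eq_zero.1 this with h | h <;> exact h

/-- a frame adapted to a non-degenerate decomposition into lines -/
theorem exists_frame (hF : Fintype.card F = 2 ^ 2) (D : Fin 6 → Submodule F (Fin 6 → F))
    (hD : IsNondegenerateMDecomposition (Cfsg.hermForm 6 F 2) 1 D) :
    ∃ d : Fin 6 → Fin 6 → F, Frame d ∧ (∀ i, d i ∈ D i) ∧
      ∀ i, ∀ w ∈ D i, ∃ c : F, c • d i = w := by
  have hgen : ∀ i, ∃ d : Fin 6 → F, d ∈ D i ∧ d ≠ 0 ∧ ∀ w ∈ D i, ∃ c : F, c • d = w := by
    intro i
    obtain ⟨⟨d, hdD⟩, hd0, hspan⟩ := finrank_eq_one_iff'.1 (hD.decomp.finrank_eq i)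
    refine ⟨d, hdD, fun h => hd0 (Subtype.ext h), fun w hw => ?_⟩
    obtain ⟨c, hc⟩ := hspan ⟨w, hw⟩
    exact ⟨c, congrArg Subtype.val hc⟩
  choose d hdD hd0 hspan using hgen
  have ha0 : ∀ i, Cfsg.hermForm 6 F 2 (d i) (d i) ≠ 0 := by
    intro i h
    obtain ⟨⟨x, hx, hxne⟩, _⟩ := hD.nondegenerate i (d i) (hdD i) (hd0 i)
    obtain ⟨c, rfl⟩ := hspan i x hx
    rw [hf_smul_left, h, mul_zero] at hxne
    exact hxne rfl
  have horth : ∀ i j, Cfsg.hermForm 6 F 2 (d i) (d j) = if i = j then 1 else 0 := by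
    intro i j
    split_ifs with h
    · subst h
      have h1 := hf_self_pow hF 6 (d i)
      have h3 : Cfsg.hermForm 6 F 2 (d i) (d i) * (Cfsg.hermForm 6 F 2 (d i) (d i) - 1) = 0 := by
        linear_combination h1
      rcases mul_eq_zero.1 h3 with h | h
      · exact absurd h (ha0 i)
      · exact sub_eq_zero.1 h
    · exact hD.orthogonal i j h (d i) (hdD i) (d j) (hdD j)
  refine ⟨d, ⟨horth, fun x => ?_⟩, hdD, hspan⟩
  have hyd : ∀ j, Cfsg.hermForm 6 F 2 (x - ∑ i, Cfsg.hermForm 6 F 2 x (d i) • d i) (d j) = 0 := by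
    intro j
    rw [hf_sub_left, hf_sum_left]
    simp only [hf_smul_left, horth]
    simp
  have hyz : ∀ z, Cfsg.hermForm 6 F 2 (x - ∑ i, Cfsg.hermForm 6 F 2 x (d i) • d i) z = 0 := by
    intro z
    have hz : z ∈ iSup D := by
      rw [hD.decomp.iSup_eq_top]
      exact Submodule.mem_top
    refine Submodule.iSup_induction D
      (motive := fun z => Cfsg.hermForm 6 F 2 (x - ∑ i, Cfsg.hermForm 6 F 2 x (d i) • d i) z = 0)
      hz ?_ ?_ ?_
    · intro i w hw
      obtain ⟨c, rfl⟩ := hspan i w hw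
      rw [hf_smul_right, hyd, mul_zero]
    · exact hf_zero_right hF 6 _
    · intro z1 z2 h1 h2
      rw [hf_add_right hF, h1, h2, add_zero]
  have h0 : x - ∑ i, Cfsg.hermForm 6 F 2 x (d i) • d i = 0 :=
    herm_nondeg hF _ (fun z => hf_eq_zero_symm hF 6 _ z (hyz z))
  exact sub_eq_zero.1 h0

/-- elements of the decomposition stabiliser in `SU` preserve the root set -/
theorem mono (hF : Fintype.card F = 2 ^ 2) (D : Fin 6 → Submodule F (Fin 6 → F))
    (d : Fin 6 → Fin 6 → F) (hd : Frame d) (hdD : ∀ i, d i ∈ D i)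
    (hspan : ∀ i, ∀ w ∈ D i, ∃ c : F, c • d i = w) (g : GL (Fin 6) F)
    (hgD : g ∈ decompositionStabilizer D)
    (hgS : g ∈ Cfsg.GU 6 F 2 ⊓ specialLinear (Fin 6) F) (x : Fin 6 → F)
    (hx : InR (co d x)) : InR (co d (g.1 *ᵥ x)) := by
  have h2 : (2 : F) = 0 := two_eq_zero hF
  obtain ⟨σ, hσ⟩ := hgD
  have hgd : ∀ i, ∃ c : F, c • d (σ i) = g.1 *ᵥ d i := by
    intro i
    apply hspan (σ i)
    rw [← hσ i]
    exact ⟨d i, hdD i, by rw [Matrix.toLin'_apply]⟩
  choose l hl using hgd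
  have hco : ∀ i, co d (g.1 *ᵥ x) (σ i) = l i * co d x i := by
    intro i
    have e1 : g.1 *ᵥ x = ∑ k, (co d x k * l k) • d (σ k) := by
      conv_lhs => rw [hd.expand x]
      rw [Matrix.mulVec_sum]
      refine Finset.sum_congr rfl fun k _ => ?_
      rw [Matrix.mulVec_smul, ← hl k, smul_smul]
      rfl
    show Cfsg.hermForm 6 F 2 (g.1 *ᵥ x) (d (σ i)) = _
    rw [e1, hf_sum_left]
    simp only [hf_smul_left, hd.orth]
    rw [Finset.sum_eq_single i]
    · rw [if_pos rfl]
      ring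
    · intro k _ hk
      rw [if_neg (fun h => hk (σ.injective h)), mul_zero]
    · intro h
      exact absurd (Finset.mem_univ i) h
  have hdet : ∏ i, l i = 1 := by
    have hQP : (Matrix.of fun i r => (d i r) ^ 2 : Matrix (Fin 6) (Fin 6) F) *
        (Matrix.of fun r i => d i r : Matrix (Fin 6) (Fin 6) F) = 1 := by
      ext i j
      rw [Matrix.mul_apply, Matrix.one_apply]
      have := hd.orth j i
      unfold Cfsg.hermForm at this
      simp only [Matrix.of_apply]
      rw [show (if i = j then (1 : F) else 0) = if j = i then 1 else 0 by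
        simp only [eq_comm], ← this]
      exact Finset.sum_congr rfl fun r _ => mul_comm _ _
    have hPdet : (Matrix.of fun r i => d i r : Matrix (Fin 6) (Fin 6) F).det ≠ 0 := by
      intro h
      have := congrArg Matrix.det hQP
      rw [Matrix.det_mul, h, mul_zero, Matrix.det_one] at this
      exact zero_ne_one this
    have hgP : g.1 * (Matrix.of fun r i => d i r : Matrix (Fin 6) (Fin 6) F) =
        ((Matrix.of fun r i => d i r : Matrix (Fin 6) (Fin 6) F).submatrix id σ) *
          Matrix.diagonal l := by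
      ext r i
      rw [Matrix.mul_diagonal, Matrix.submatrix_apply, Matrix.mul_apply]
      have := congrFun (hl i) r
      simp only [Pi.smul_apply, smul_eq_mul] at this
      simp only [Matrix.of_apply, id]
      rw [mul_comm, this]
      rfl
    have hg1 : g.1.det = 1 := ((mem_S_iff g).1 hgS).2
    have hdd := congrArg Matrix.det hgP
    rw [Matrix.det_mul, Matrix.det_mul, hg1, one_mul, Matrix.det_permute',
      Matrix.det_diagonal] at hdd
    have h3 : (Matrix.of fun r i => d i r : Matrix (Fin 6) (Fin 6) F).det * (∏ i, l i - 1) = 0 := by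
      rcases Int.units_eq_one_or (Equiv.Perm.sign σ) with hs | hs
      · rw [hs] at hdd
        simp only [Units.val_one, Int.cast_one, one_mul] at hdd
        linear_combination -hdd
      · rw [hs] at hdd
        simp only [Units.val_neg, Units.val_one, Int.cast_neg, Int.cast_one, neg_mul, one_mul]
          at hdd
        linear_combination -hdd +
          (Matrix.of fun r i => d i r : Matrix (Fin 6) (Fin 6) F).det * (∏ i, l i) * h2
    rcases mul_eq_zero.1 h3 with h | h
    · exact absurd h hPdet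
    · exact sub_eq_zero.1 h
  exact InR_perm σ l (co d x) (co d (g.1 *ᵥ x)) hdet hco hx

/-- E1: for `q = 2` a maximal subgroup of `SU_6(2)` does not stabilise a decomposition into six
pairwise orthogonal non-degenerate lines. -/
theorem E1 {q : ℕ} (hF : Fintype.card F = q ^ 2) (hq : q = 2) (H : Subgroup (GL (Fin 6) F))
    (hH : IsMaximalIn (Cfsg.GU 6 F q ⊓ specialLinear (Fin 6) F) H)
    (D : Fin 6 → Submodule F (Fin 6 → F))
    (hD : IsNondegenerateMDecomposition (Cfsg.hermForm 6 F q) 1 D)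
    (hle : H ≤ decompositionStabilizer D) : False := by
  subst hq
  have hF4 : Fintype.card F = 4 := by rw [hF]; norm_num
  have h2 : (2 : F) = 0 := two_eq_zero hF
  obtain ⟨d, hd, hdD, hspan⟩ := exists_frame hF D hD
  have hHS := hH.1.le
  have hHR : H ≤ stabR d := by
    intro g hg
    apply mem_stabR
    · exact fun x hx => mono hF D d hd hdD hspan g (hle hg) (hHS hg) x hx
    · exact fun x hx => mono hF D d hd hdD hspan g⁻¹ (hle (H.inv_mem hg))
        (hHS (H.inv_mem hg)) x hx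
  obtain ⟨t1, ht1S, ht1, ht1i⟩ := exists_T hF d hd (fun _ => (1 : F)) (by
    simp only [one_pow, mul_one, Finset.sum_const, Finset.card_univ, Fintype.card_fin,
      nsmul_eq_mul]
    push_cast
    linear_combination 3 * h2)
  obtain ⟨t2, ht2S, ht2, -⟩ := exists_T hF d hd
    (fun k : Fin 6 => if (k : ℕ) < 4 then (1 : F) else 0) (by
    simp [Fin.sum_univ_succ]
    linear_combination 2 * h2)
  have ht1R : t1 ∈ stabR d := by
    apply mem_stabR
    · intro x hx
      rw [ht1]
      have := K1 hF4 (co d x) hx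
      simpa using this
    · intro x hx
      rw [ht1i]
      have := K1 hF4 (co d x) hx
      simpa using this
  have ht2R : t2 ∉ stabR d := by
    intro h
    have hK := K2 (F := F) hF4
    have hx : co d (∑ k, (fun i : Fin 6 => if i = 0 ∨ i = 4 then (1 : F) else 0) k • d k) =
        fun i : Fin 6 => if i = 0 ∨ i = 4 then (1 : F) else 0 := co_comb d hd _
    have h5 := (h (∑ k, (fun i : Fin 6 => if i = 0 ∨ i = 4 then (1 : F) else 0) k • d k)).2
      (by rw [hx]; exact hK.1)
    rw [ht2, hx] at h5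
    exact hK.2 h5
  have ht1D : t1 ∉ decompositionStabilizer D := by
    rintro ⟨σ, hσ⟩
    have hmem : t1.1 *ᵥ d 0 ∈ D (σ 0) := by
      rw [← hσ 0]
      exact ⟨d 0, hdD 0, by rw [Matrix.toLin'_apply]⟩
    obtain ⟨c, hc⟩ := hspan (σ 0) _ hmem
    have hco1 := ht1 (d 0)
    rw [← hc] at hco1
    have e0 : ∀ i j, co d (d i) j = if i = j then 1 else 0 := fun i j => hd.orth i j
    have e1 : ∀ j, co d (c • d (σ 0)) j = c * (if σ 0 = j then 1 else 0) := by
      intro j
      show Cfsg.hermForm 6 F 2 (c • d (σ 0)) (d j) = _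
      rw [hf_smul_left, hd.orth]
    have h1 := congrFun hco1 1
    have h2' := congrFun hco1 2
    rw [e1] at h1 h2'
    simp only [e0] at h1 h2'
    simp at h1 h2'
    by_cases hs1 : σ 0 = 1
    · have hs2 : σ 0 ≠ 2 := by rw [hs1]; decide
      rw [if_neg hs2] at h2'
      simp at h2'
    · rw [if_neg hs1] at h1
      simp at h1
  rcases hH.2 (stabR d ⊓ (Cfsg.GU 6 F 2 ⊓ specialLinear (Fin 6) F)) (le_inf hHR hHS)
    inf_le_right with h | h
  · have h6 : t1 ∈ stabR d ⊓ (Cfsg.GU 6 F 2 ⊓ specialLinear (Fin 6) F) := ⟨ht1R, ht1S⟩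
    rw [h] at h6
    exact ht1D (hle h6)
  · have h6 : t2 ∈ stabR d ⊓ (Cfsg.GU 6 F 2 ⊓ specialLinear (Fin 6) F) := by
      rw [h]
      exact ht2S
    exact ht2R h6.1

end Cfsg.Agent.Lib.Helper65.SU6E1
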