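import Mathlib
import Cfsg.Prelude.Def_GeometricClasses

/-!
# Project FR5 (helper65): definitions and calculus

Monomial `4 × 4` matrices `mono σ c` (column `j` is `c j • e_{σ j}`), the translations `tr b`
(`j ↦ j ^^^ b`) of `Fin 4 = (Z/2)^2`, the characters `chi a`, and the standard group
`R0 F = 4 ∘ 2^{1+4}` of monomial matrices `mono (tr b) d` with `d = c • chi a`
(equivalently: all `d j ^ 2` equal to one `s ≠ 0`, and `∏ d = s ^ 2`).
-/

set_option autoImplicit false

namespace Cfsg.Agent.Lib.Helper65.FR5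

open Matrix Cfsg.Geo

variable {F : Type*} [Field F]

/-! ## Monomial matrices -/

/-- The monomial matrix with permutation `σ` and coefficients `c`: column `j` is `c j • e_{σ j}`. -/
def mono (σ : Equiv.Perm (Fin 4)) (c : Fin 4 → F) : Matrix (Fin 4) (Fin 4) F :=
  Matrix.of fun i j => if i = σ j then c j else 0

theorem mono_apply (σ : Equiv.Perm (Fin 4)) (c : Fin 4 → F) (i j : Fin 4) :
    mono σ c i j = if i = σ j then c j else 0 := rfl

theorem mono_mul (σ τ : Equiv.Perm (Fin 4)) (c d : Fin 4 → F) :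
    mono σ c * mono τ d = mono (σ * τ) (fun j => c (τ j) * d j) := by
  ext i j
  simp only [Matrix.mul_apply, mono_apply]
  rw [Finset.sum_eq_single (τ j)]
  · rw [if_pos rfl, Equiv.Perm.mul_apply]
    by_cases h : i = σ (τ j)
    · rw [if_pos h, if_pos h]
    · rw [if_neg h, if_neg h, zero_mul]
  · intro k _ hk
    rw [if_neg hk, mul_zero]
  · intro h
    exact absurd (Finset.mem_univ _) h

theorem mono_one : mono (1 : Equiv.Perm (Fin 4)) (fun _ => (1 : F)) = 1 := by
  ext i j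
  rw [mono_apply, Matrix.one_apply, Equiv.Perm.one_apply]

theorem mono_one_eq_diagonal (c : Fin 4 → F) : mono 1 c = Matrix.diagonal c := by
  ext i j
  simp only [mono_apply, Matrix.diagonal_apply, Equiv.Perm.one_apply]
  by_cases h : i = j
  · subst h; simp
  · simp [h]

theorem mono_smul (σ : Equiv.Perm (Fin 4)) (c : Fin 4 → F) (a : F) :
    a • mono σ c = mono σ (fun j => a * c j) := by
  ext i j
  simp [mono_apply]

theorem mono_mulVec (σ : Equiv.Perm (Fin 4)) (c : Fin 4 → F) (v : Fin 4 → F) (i : Fin 4) :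
    (mono σ c *ᵥ v) i = c (σ⁻¹ i) * v (σ⁻¹ i) := by
  simp only [Matrix.mulVec, dotProduct, mono_apply]
  rw [Finset.sum_eq_single (σ⁻¹ i)]
  · simp
  · intro k _ hk
    have : i ≠ σ k := by
      rintro rfl
      exact hk (by simp)
    simp [this]
  · simp

theorem mono_mulVec_single (σ : Equiv.Perm (Fin 4)) (c : Fin 4 → F) (j : Fin 4) :
    mono σ c *ᵥ Pi.single j 1 = c j • Pi.single (σ j) 1 := by
  ext i
  rw [mono_mulVec]
  by_cases h : i = σ j
  · subst h; simp
  · have h' : σ⁻¹ i ≠ j := by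
      rintro rfl
      exact h (by simp)
    rw [Pi.single_apply, if_neg h', mul_zero]
    simp [h]

theorem mono_injective {σ τ : Equiv.Perm (Fin 4)} {c d : Fin 4 → F} (hc : ∀ j, c j ≠ 0)
    (h : mono σ c = mono τ d) : σ = τ ∧ c = d := by
  have key : ∀ j, σ j = τ j ∧ c j = d j := by
    intro j
    have h1 := congrFun (congrFun h (σ j)) j
    simp only [mono_apply, if_true] at h1
    by_cases h2 : σ j = τ j
    · rw [if_pos h2] at h1
      exact ⟨h2, h1⟩
    · rw [if_neg h2] at h1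
      exact absurd h1 (hc j)
  exact ⟨Equiv.ext fun j => (key j).1, funext fun j => (key j).2⟩

theorem mono_inv_mul (σ : Equiv.Perm (Fin 4)) (c : Fin 4 → F) (hc : ∀ j, c j ≠ 0) :
    mono σ⁻¹ (fun j => (c (σ⁻¹ j))⁻¹) * mono σ c = 1 := by
  rw [mono_mul, ← mono_one]
  congr 1
  · simp
  · funext j
    simp [hc j]

theorem mono_mul_inv (σ : Equiv.Perm (Fin 4)) (c : Fin 4 → F) (hc : ∀ j, c j ≠ 0) :
    mono σ c * mono σ⁻¹ (fun j => (c (σ⁻¹ j))⁻¹) = 1 := by
  rw [mono_mul, ← mono_one]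
  congr 1
  · simp
  · funext j
    exact mul_inv_cancel₀ (hc _)

/-- The invertible monomial matrix. -/
def monoU (σ : Equiv.Perm (Fin 4)) (c : Fin 4 → F) (hc : ∀ j, c j ≠ 0) : GL (Fin 4) F :=
  ⟨mono σ c, mono σ⁻¹ (fun j => (c (σ⁻¹ j))⁻¹), mono_mul_inv σ c hc, mono_inv_mul σ c hc⟩

theorem monoU_val (σ : Equiv.Perm (Fin 4)) (c : Fin 4 → F) (hc : ∀ j, c j ≠ 0) :
    (monoU σ c hc).1 = mono σ c := rfl

/-- The inverse of an invertible matrix which is monomial. -/
theorem inv_val_of_mono {g : GL (Fin 4) F} {σ : Equiv.Perm (Fin 4)} {c : Fin 4 → F}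
    (hc : ∀ j, c j ≠ 0) (hg : g.1 = mono σ c) :
    (g⁻¹ : GL (Fin 4) F).1 = mono σ⁻¹ (fun j => (c (σ⁻¹ j))⁻¹) := by
  have h : g = monoU σ c hc := Units.ext hg
  rw [h]
  rfl

theorem det_mono (σ : Equiv.Perm (Fin 4)) (c : Fin 4 → F) :
    (mono σ c).det = ((Equiv.Perm.sign σ : ℤˣ) : ℤ) * ∏ j, c j := by
  have h : mono σ c = (σ⁻¹).permMatrix F * Matrix.diagonal c := by
    ext i j
    rw [Matrix.mul_diagonal, mono_apply, Equiv.Perm.permMatrix, PEquiv.toMatrix_apply]
    by_cases h : i = σ j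
    · subst h; simp
    · have h' : σ⁻¹ i ≠ j := by
        rintro rfl
        exact h (by simp)
      rw [if_neg h]
      have h'' : j ∉ (Equiv.toPEquiv σ⁻¹) i := by
        simpa [Equiv.toPEquiv_apply] using h'
      rw [if_neg h'', zero_mul]
  rw [h, Matrix.det_mul, Matrix.det_permutation, Matrix.det_diagonal, Equiv.Perm.sign_inv]

theorem det_mono_sq (σ : Equiv.Perm (Fin 4)) (c : Fin 4 → F) :
    (mono σ c).det ^ 2 = (∏ j, c j) ^ 2 := by
  rw [det_mono, mul_pow]
  rcases Int.units_eq_one_or (Equiv.Perm.sign σ) with h | h <;> simp [h]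

/-! ## Translations of `Fin 4 = (Z/2)^2` -/

/-- The translation `j ↦ j ^^^ b`. -/
def tr (b : Fin 4) : Equiv.Perm (Fin 4) where
  toFun j := j ^^^ b
  invFun j := j ^^^ b
  left_inv := by intro j; revert j b; decide
  right_inv := by intro j; revert j b; decide

theorem tr_apply (b j : Fin 4) : tr b j = j ^^^ b := rfl

theorem tr_zero : tr 0 = 1 := by
  ext j; revert j; decide

theorem tr_mul (b b' : Fin 4) : tr b * tr b' = tr (b ^^^ b') := by
  apply Equiv.ext
  intro j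
  simp only [Equiv.Perm.mul_apply, tr_apply]
  revert j b b'; decide

theorem tr_inv (b : Fin 4) : (tr b)⁻¹ = tr b := by
  rw [inv_eq_iff_mul_eq_one, tr_mul, ← tr_zero]
  congr 1
  revert b; decide

theorem tr_injective : Function.Injective tr := by
  intro b b' h
  have := congrArg (fun σ : Equiv.Perm (Fin 4) => σ 0) h
  simp only [tr_apply] at this
  revert this b b'; decide

theorem tr_eq_one_iff (b : Fin 4) : tr b = 1 ↔ b = 0 := by
  rw [← tr_zero]
  exact tr_injective.eq_iff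

/-- The translations form a normal subgroup of `S_4`. -/
theorem tr_conj (σ : Equiv.Perm (Fin 4)) (b : Fin 4) : ∃ b' : Fin 4, σ * tr b * σ⁻¹ = tr b' := by
  have h : ∀ (σ : Equiv.Perm (Fin 4)) (b : Fin 4), ∃ b' : Fin 4, ∀ j, σ (σ⁻¹ j ^^^ b) = j ^^^ b' := by
    decide
  obtain ⟨b', hb'⟩ := h σ b
  exact ⟨b', Equiv.ext fun j => by simpa [Equiv.Perm.mul_apply, tr_apply] using hb' j⟩

/-! ## Characters of `(Z/2)^2` -/

/-- The character table of `(Z/2)^2`, over `ℤ`. -/
def chiZ : Fin 4 → Fin 4 → ℤ := ![![1, 1, 1, 1], ![1, -1, 1, -1], ![1, 1, -1, -1], ![1, -1, -1, 1]]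

/-- The character `chi a` of `(Z/2)^2`, with values `±1` in `F`. -/
def chi (a j : Fin 4) : F := (chiZ a j : F)

theorem chiZ_sq : ∀ a j : Fin 4, chiZ a j * chiZ a j = 1 := by decide
theorem chiZ_xor : ∀ a j b : Fin 4, chiZ a (j ^^^ b) = chiZ a j * chiZ a b := by decide
theorem chiZ_xor' : ∀ a a' j : Fin 4, chiZ (a ^^^ a') j = chiZ a j * chiZ a' j := by decide
theorem chiZ_symm : ∀ a j : Fin 4, chiZ a j = chiZ j a := by decide
theorem chiZ_zero : ∀ j : Fin 4, chiZ 0 j = 1 := by decide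
theorem chiZ_zero' : ∀ a : Fin 4, chiZ a 0 = 1 := by decide
theorem chiZ_eq : ∀ a j : Fin 4, chiZ a j = 1 ∨ chiZ a j = -1 := by decide
theorem chiZ_prod : ∀ a : Fin 4, chiZ a 0 * chiZ a 1 * chiZ a 2 * chiZ a 3 = 1 := by decide
theorem chiZ_sum : ∀ a : Fin 4, a ≠ 0 → chiZ a 0 + chiZ a 1 + chiZ a 2 + chiZ a 3 = 0 := by decide
theorem chiZ_sum_zero : chiZ 0 0 + chiZ 0 1 + chiZ 0 2 + chiZ 0 3 = 4 := by decide
theorem chiZ_sep : ∀ i j : Fin 4, i ≠ j → ∃ a : Fin 4, chiZ a i = -chiZ a j := by decide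

theorem chi_mul_self (a j : Fin 4) : (chi a j : F) * chi a j = 1 := by
  unfold chi; rw [← Int.cast_mul, chiZ_sq, Int.cast_one]

theorem chi_sq (a j : Fin 4) : (chi a j : F) ^ 2 = 1 := by
  rw [sq, chi_mul_self]

theorem chi_ne_zero (a j : Fin 4) : (chi a j : F) ≠ 0 := by
  intro h
  have := chi_mul_self (F := F) a j
  rw [h, mul_zero] at this
  exact zero_ne_one this

theorem chi_xor (a j b : Fin 4) : (chi a (j ^^^ b) : F) = chi a j * chi a b := by
  unfold chi; rw [← Int.cast_mul, chiZ_xor]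

theorem chi_xor' (a a' j : Fin 4) : (chi (a ^^^ a') j : F) = chi a j * chi a' j := by
  unfold chi; rw [← Int.cast_mul, chiZ_xor']

theorem chi_symm (a j : Fin 4) : (chi a j : F) = chi j a := by
  unfold chi; rw [chiZ_symm]

theorem chi_zero (j : Fin 4) : (chi 0 j : F) = 1 := by
  unfold chi; rw [chiZ_zero, Int.cast_one]

theorem chi_zero' (a : Fin 4) : (chi a 0 : F) = 1 := by
  unfold chi; rw [chiZ_zero', Int.cast_one]

theorem chi_eq (a j : Fin 4) : (chi a j : F) = 1 ∨ (chi a j : F) = -1 := by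
  unfold chi
  rcases chiZ_eq a j with h | h <;> simp [h]

theorem chi_prod (a : Fin 4) : ∏ j, (chi a j : F) = 1 := by
  rw [Fin.prod_univ_four]
  unfold chi; rw [← Int.cast_mul, ← Int.cast_mul, ← Int.cast_mul, chiZ_prod, Int.cast_one]

theorem chi_sum (a : Fin 4) (ha : a ≠ 0) : ∑ j, (chi a j : F) = 0 := by
  rw [Fin.sum_univ_four]
  unfold chi; rw [← Int.cast_add, ← Int.cast_add, ← Int.cast_add, chiZ_sum a ha, Int.cast_zero]

theorem chi_sum_zero : ∑ j, (chi 0 j : F) = 4 := by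
  rw [Fin.sum_univ_four]
  unfold chi; rw [← Int.cast_add, ← Int.cast_add, ← Int.cast_add, chiZ_sum_zero]; norm_num

theorem chi_sep (i j : Fin 4) (hij : i ≠ j) : ∃ a : Fin 4, (chi a i : F) = -chi a j := by
  obtain ⟨a, ha⟩ := chiZ_sep i j hij
  exact ⟨a, by unfold chi; rw [ha, Int.cast_neg]⟩

/-! ## The group `R0 = 4 ∘ 2^{1+4}` -/

/-- The standard symplectic-type group `F^× ∘ 2^{1+4}` of monomial matrices. -/
def R0 (F : Type*) [Field F] : Subgroup (GL (Fin 4) F) where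
  carrier := {g | ∃ (b : Fin 4) (d : Fin 4 → F) (s : F), s ≠ 0 ∧ (∀ j, d j ^ 2 = s) ∧
    ∏ j, d j = s ^ 2 ∧ g.1 = mono (tr b) d}
  mul_mem' := by
    rintro g h ⟨b, d, s, hs, h1, h2, hg⟩ ⟨b', d', s', hs', h1', h2', hh⟩
    refine ⟨b ^^^ b', fun j => d (tr b' j) * d' j, s * s', mul_ne_zero hs hs', ?_, ?_, ?_⟩
    · intro j
      rw [mul_pow, h1, h1']
    · rw [Finset.prod_mul_distrib, Equiv.prod_comp (tr b') d, h2, h2', mul_pow]
    · rw [Units.val_mul, hg, hh, mono_mul, tr_mul]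
  one_mem' := ⟨0, fun _ => 1, 1, one_ne_zero, by simp, by simp, by rw [tr_zero, mono_one]; rfl⟩
  inv_mem' := by
    rintro g ⟨b, d, s, hs, h1, h2, hg⟩
    have hd : ∀ j, d j ≠ 0 := by
      intro j h
      have := h1 j
      rw [h] at this
      exact hs (by rw [← this]; simp)
    refine ⟨b, fun j => (d (tr b j))⁻¹, s⁻¹, inv_ne_zero hs, ?_, ?_, ?_⟩
    · intro j
      rw [inv_pow, h1]
    · rw [Finset.prod_inv_distrib, Equiv.prod_comp (tr b) d, h2, inv_pow]
    · rw [inv_val_of_mono hd hg, tr_inv]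

theorem mem_R0_iff (g : GL (Fin 4) F) : g ∈ R0 F ↔ ∃ (b : Fin 4) (d : Fin 4 → F) (s : F),
    s ≠ 0 ∧ (∀ j, d j ^ 2 = s) ∧ ∏ j, d j = s ^ 2 ∧ g.1 = mono (tr b) d := Iff.rfl

/-- Normal form of the coefficient vectors: a non-zero multiple of a character. -/
theorem nf (h2 : (2 : F) ≠ 0) (d : Fin 4 → F) (s : F) (hs : s ≠ 0) (h1 : ∀ j, d j ^ 2 = s)
    (hp : ∏ j, d j = s ^ 2) : ∃ a : Fin 4, ∀ j, d j = d 0 * chi a j := by
  have h0 : d 0 ≠ 0 := by
    intro h
    have := h1 0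
    rw [h] at this
    exact hs (by rw [← this]; simp)
  have hpm : ∀ j, d j = d 0 ∨ d j = -d 0 := fun j =>
    sq_eq_sq_iff_eq_or_eq_neg.mp ((h1 j).trans (h1 0).symm)
  rw [Fin.prod_univ_four, ← h1 0] at hp
  rcases hpm 1 with e1 | e1 <;> rcases hpm 2 with e2 | e2 <;> rcases hpm 3 with e3 | e3
  · refine ⟨0, fun j => ?_⟩
    fin_cases j <;> simp [chi, chiZ, e1, e2, e3]
  · exfalso
    rw [e1, e2, e3] at hp
    have : 2 * d 0 ^ 4 = 0 := by linear_combination -hp
    rcases mul_eq_zero.mp this with h | h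
    · exact h2 h
    · exact h0 (pow_eq_zero_iff (by norm_num) |>.mp h)
  · exfalso
    rw [e1, e2, e3] at hp
    have : 2 * d 0 ^ 4 = 0 := by linear_combination -hp
    rcases mul_eq_zero.mp this with h | h
    · exact h2 h
    · exact h0 (pow_eq_zero_iff (by norm_num) |>.mp h)
  · refine ⟨2, fun j => ?_⟩
    fin_cases j <;> simp [chi, chiZ, e1, e2, e3]
  · exfalso
    rw [e1, e2, e3] at hp
    have : 2 * d 0 ^ 4 = 0 := by linear_combination -hp
    rcases mul_eq_zero.mp this with h | h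
    · exact h2 h
    · exact h0 (pow_eq_zero_iff (by norm_num) |>.mp h)
  · refine ⟨1, fun j => ?_⟩
    fin_cases j <;> simp [chi, chiZ, e1, e2, e3]
  · refine ⟨3, fun j => ?_⟩
    fin_cases j <;> simp [chi, chiZ, e1, e2, e3]
  · exfalso
    rw [e1, e2, e3] at hp
    have : 2 * d 0 ^ 4 = 0 := by linear_combination -hp
    rcases mul_eq_zero.mp this with h | h
    · exact h2 h
    · exact h0 (pow_eq_zero_iff (by norm_num) |>.mp h)

/-- Elements in normal form belong to `R0`. -/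
theorem mem_R0_of_nf (g : GL (Fin 4) F) (a b : Fin 4) (c : F) (hc : c ≠ 0)
    (hg : g.1 = mono (tr b) (fun j => c * chi a j)) : g ∈ R0 F := by
  refine ⟨b, _, c ^ 2, pow_ne_zero 2 hc, ?_, ?_, hg⟩
  · intro j
    rw [mul_pow, chi_sq, mul_one]
  · rw [Finset.prod_mul_distrib, chi_prod, Finset.prod_const, Finset.card_univ, Fintype.card_fin]
    ring

/-- Every element of `R0` has the normal form `c • D_a P_b`. -/
theorem exists_nf (h2 : (2 : F) ≠ 0) {g : GL (Fin 4) F} (hg : g ∈ R0 F) :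
    ∃ (a b : Fin 4) (c : F), c ≠ 0 ∧ g.1 = mono (tr b) (fun j => c * chi a j) := by
  obtain ⟨b, d, s, hs, h1, hp, hg⟩ := hg
  obtain ⟨a, ha⟩ := nf h2 d s hs h1 hp
  have h0 : d 0 ≠ 0 := by
    intro h
    have := h1 0
    rw [h] at this
    exact hs (by rw [← this]; simp)
  exact ⟨a, b, d 0, h0, by rw [hg]; congr 1; funext j; exact ha j⟩

/-- The coefficients of an element of `R0` are non-zero. -/
theorem coeff_ne_zero {d : Fin 4 → F} {s : F} (hs : s ≠ 0) (h1 : ∀ j, d j ^ 2 = s) (j : Fin 4) :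
    d j ≠ 0 := by
  intro h
  have := h1 j
  rw [h] at this
  exact hs (by rw [← this]; simp)

/-- Scalar matrices belong to `R0`. -/
theorem scalar_mem_R0 (g : GL (Fin 4) F) (c : F) (hc : c ≠ 0) (hg : g.1 = c • (1 : Matrix (Fin 4) (Fin 4) F)) :
    g ∈ R0 F := by
  refine mem_R0_of_nf g 0 0 c hc ?_
  rw [hg, tr_zero, ← mono_one, mono_smul]
  congr 1
  funext j
  rw [chi_zero]

/-- Facts about the field with five elements. -/
theorem five_eq_zero [Fintype F] (hq : Fintype.card F = 5) : (5 : F) = 0 := by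
  have := Nat.cast_card_eq_zero F
  rw [hq] at this
  exact_mod_cast this

theorem two_ne_zero_of_card [Fintype F] (hq : Fintype.card F = 5) : (2 : F) ≠ 0 := by
  intro h
  have h5 := five_eq_zero hq
  have : (1 : F) = 0 := by linear_combination h5 - 2 * h
  exact one_ne_zero this

theorem pow_four_eq_one [Fintype F] (hq : Fintype.card F = 5) (c : F) (hc : c ≠ 0) : c ^ 4 = 1 := by
  have h := FiniteField.pow_card_sub_one_eq_one c hc
  rw [hq] at h
  simpa using h

theorem sq_eq_one_or [Fintype F] (hq : Fintype.card F = 5) (c : F) (hc : c ≠ 0) :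
    c ^ 2 = 1 ∨ c ^ 2 = -1 := by
  have h := pow_four_eq_one hq c hc
  have : (c ^ 2 - 1) * (c ^ 2 + 1) = 0 := by linear_combination h
  rcases mul_eq_zero.mp this with h | h
  · left; linear_combination h
  · right; linear_combination h

end Cfsg.Agent.Lib.Helper65.FR5
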