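import Mathlib
import Cfsg.Prelude.Def_GeometricClasses
import Cfsg.Agent.Lib.Helper65.FR5Defs


/-!
# Project FR5 (helper65), piece AI: R0 acts absolutely irreducibly
-/

set_option autoImplicit false

namespace Cfsg.Agent.Lib.Helper65.FR5

open Matrix Cfsg.Geo

variable {F : Type*} [Field F]

theorem AI_hc (a : Fin 4) : ∀ j : Fin 4, (1 : F) * chi a j ≠ 0 := by
  intro j
  rw [one_mul]
  exact chi_ne_zero a j

/-- the diagonal element `D_a` -/
theorem AI_D_mem (a : Fin 4) : monoU (1 : Equiv.Perm (Fin 4)) (fun j => (1 : F) * chi a j) (AI_hc a) ∈ R0 F := by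
  refine mem_R0_of_nf _ a 0 1 one_ne_zero ?_
  rw [monoU_val, tr_zero]

/-- the translation `P_b` -/
theorem AI_P_mem (b : Fin 4) : monoU (tr b) (fun j => (1 : F) * chi 0 j) (AI_hc 0) ∈ R0 F :=
  mem_R0_of_nf _ 0 b 1 one_ne_zero rfl

theorem AI_tr_zero (b : Fin 4) : tr b 0 = b := by
  rw [tr_apply]
  revert b; decide

theorem AI_tr_self (b : Fin 4) : tr b b = 0 := by
  rw [tr_apply]
  revert b; decide

theorem AI_tr_eq (b k : Fin 4) (h : b = tr b k) : k = 0 := by
  rw [tr_apply] at h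
  revert h b k; decide

theorem AI_sum_chi (j : Fin 4) : ∑ a, (chi a j : F) = if j = 0 then 4 else 0 := by
  have h1 : ∑ a, (chi a j : F) = ∑ a, (chi j a : F) :=
    Finset.sum_congr rfl fun a _ => chi_symm a j
  rw [h1]
  by_cases hj : j = 0
  · subst hj
    rw [if_pos rfl, chi_sum_zero]
  · rw [if_neg hj, chi_sum j hj]

theorem AI_irr (h2 : (2 : F) ≠ 0) : ActsIrreducibly (matrixSet (R0 F)) := by
  intro W hW
  have hinv : ∀ g : GL (Fin 4) F, g ∈ R0 F → ∀ v ∈ W, g.1 *ᵥ v ∈ W := by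
    intro g hg v hv
    have h1 := hW g.1 ⟨g, hg, rfl⟩ (Submodule.mem_map_of_mem hv)
    rwa [Matrix.toLin'_apply] at h1
  by_cases hbot : W = ⊥
  · exact Or.inl hbot
  right
  obtain ⟨v, hv, hv0⟩ := (Submodule.ne_bot_iff W).mp hbot
  obtain ⟨j₀, hj₀⟩ := Function.ne_iff.mp hv0
  have h4 : (4 : F) ≠ 0 := by
    have : (4 : F) = 2 * 2 := by norm_num
    rw [this]
    exact mul_ne_zero h2 h2
  -- move the non-zero coordinate to position 0
  set v' : Fin 4 → F := mono (tr j₀) (fun j => (1 : F) * chi 0 j) *ᵥ v with hv'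
  have hv'W : v' ∈ W := hinv _ (AI_P_mem j₀) v hv
  have hv'0 : v' 0 = v j₀ := by
    rw [hv', mono_mulVec, tr_inv, AI_tr_zero, chi_zero, one_mul, one_mul]
  -- project on the coordinate 0
  have hwW : (∑ a : Fin 4, mono (1 : Equiv.Perm (Fin 4)) (fun j => (1 : F) * chi a j) *ᵥ v') ∈ W :=
    Submodule.sum_mem _ fun a _ => hinv _ (AI_D_mem a) v' hv'W
  have hw : (∑ a : Fin 4, mono (1 : Equiv.Perm (Fin 4)) (fun j => (1 : F) * chi a j) *ᵥ v') =
      (4 * v' 0) • (Pi.single 0 1 : Fin 4 → F) := by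
    ext j
    rw [Finset.sum_apply]
    have h1 : ∀ a : Fin 4, (mono (1 : Equiv.Perm (Fin 4)) (fun j => (1 : F) * chi a j) *ᵥ v') j =
        chi a j * v' j := by
      intro a
      rw [mono_mulVec, inv_one, Equiv.Perm.one_apply, one_mul]
    rw [Finset.sum_congr rfl fun a _ => h1 a, ← Finset.sum_mul, AI_sum_chi]
    by_cases hj : j = 0
    · subst hj
      simp
    · simp [hj]
  rw [hw] at hwW
  have he0 : (Pi.single 0 1 : Fin 4 → F) ∈ W := by
    have hne : (4 * v' 0 : F) ≠ 0 := mul_ne_zero h4 (by rw [hv'0]; exact hj₀)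
    have := W.smul_mem (4 * v' 0)⁻¹ hwW
    rwa [smul_smul, inv_mul_cancel₀ hne, one_smul] at this
  have heb : ∀ b : Fin 4, (Pi.single b 1 : Fin 4 → F) ∈ W := by
    intro b
    have h1 := hinv _ (AI_P_mem b) _ he0
    rw [monoU_val, mono_mulVec_single, AI_tr_zero, chi_zero, one_mul, one_smul] at h1
    exact h1
  rw [Submodule.eq_top_iff']
  intro u
  have hu : u = ∑ j, u j • (Pi.single j 1 : Fin 4 → F) := by
    ext i
    simp [Finset.sum_apply, Pi.single_apply]
  rw [hu]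
  exact Submodule.sum_mem _ fun j _ => W.smul_mem _ (heb j)

theorem AI_comm (h2 : (2 : F) ≠ 0) (M : Matrix (Fin 4) (Fin 4) F)
    (hM : ∀ s ∈ matrixSet (R0 F), M * s = s * M) : ∃ c : F, M = c • (1 : Matrix (Fin 4) (Fin 4) F) := by
  have hoff : ∀ i j : Fin 4, i ≠ j → M i j = 0 := by
    intro i j hij
    obtain ⟨a, ha⟩ := chi_sep (F := F) i j hij
    have h1 : M * mono (1 : Equiv.Perm (Fin 4)) (fun j => (1 : F) * chi a j) =
        mono (1 : Equiv.Perm (Fin 4)) (fun j => (1 : F) * chi a j) * M :=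
      hM _ ⟨_, AI_D_mem a, rfl⟩
    rw [mono_one_eq_diagonal] at h1
    have h3 := congrFun (congrFun h1 i) j
    rw [Matrix.mul_diagonal, Matrix.diagonal_mul, one_mul, one_mul, ha] at h3
    have h4 : 2 * chi a j * M i j = 0 := by linear_combination h3
    rcases mul_eq_zero.mp h4 with h5 | h5
    · exact absurd h5 (mul_ne_zero h2 (chi_ne_zero a j))
    · exact h5
  have hdiag : ∀ b : Fin 4, M b b = M 0 0 := by
    intro b
    have h1 : M * mono (tr b) (fun j => (1 : F) * chi 0 j) =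
        mono (tr b) (fun j => (1 : F) * chi 0 j) * M :=
      hM _ ⟨_, AI_P_mem b, rfl⟩
    have h3 := congrFun (congrFun h1 b) 0
    rw [Matrix.mul_apply, Matrix.mul_apply] at h3
    rw [Finset.sum_eq_single (tr b 0), Finset.sum_eq_single (0 : Fin 4)] at h3
    · rw [mono_apply, if_pos rfl, mono_apply, if_pos (AI_tr_zero b).symm, chi_zero, one_mul,
        mul_one, one_mul, AI_tr_zero] at h3
      exact h3
    · intro k _ hk
      rw [mono_apply, if_neg, zero_mul]
      intro hb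
      exact hk (AI_tr_eq b k hb)
    · intro h
      exact absurd (Finset.mem_univ _) h
    · intro k _ hk
      rw [mono_apply, if_neg hk, mul_zero]
    · intro h
      exact absurd (Finset.mem_univ _) h
  refine ⟨M 0 0, ?_⟩
  ext i j
  rw [Matrix.smul_apply, Matrix.one_apply, smul_eq_mul]
  by_cases hij : i = j
  · subst hij
    rw [if_pos rfl, mul_one, hdiag]
  · rw [if_neg hij, mul_zero, hoff i j hij]

/-- AI -/
theorem AI (h2 : (2 : F) ≠ 0) : ActsAbsolutelyIrreducibly (matrixSet (R0 F)) := by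
  exact ⟨AI_irr h2, fun M hM => AI_comm h2 M hM⟩

end Cfsg.Agent.Lib.Helper65.FR5
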