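import Mathlib
import Cfsg.Prelude.Def_GeometricClasses
import Cfsg.Agent.Lib.Helper65.FR5Defs
import Cfsg.Agent.Lib.Helper65.FR5AI

/-!
# Project FR5 (helper65), piece CENTa: the centre of R0 consists of its scalar matrices
-/

set_option autoImplicit false

namespace Cfsg.Agent.Lib.Helper65.FR5

open Matrix Cfsg.Geo

variable {F : Type*} [Field F]

/-- CENTa -/
theorem CENTa (h2 : (2 : F) ≠ 0) (x : R0 F) :
    x ∈ Subgroup.center (R0 F) ↔ (x : GL (Fin 4) F) ∈ scalars (Fin 4) F := by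
  rw [mem_scalars_iff]
  constructor
  · intro hx
    rw [Subgroup.mem_center_iff] at hx
    obtain ⟨c, hc⟩ := (AI h2).2 ((x : GL (Fin 4) F) : Matrix (Fin 4) (Fin 4) F) (by
      rintro s ⟨y, hy, rfl⟩
      have h := hx ⟨y, hy⟩
      have h' := congrArg (fun z : R0 F => ((z : GL (Fin 4) F) : Matrix (Fin 4) (Fin 4) F)) h
      simp only [Subgroup.coe_mul, Units.val_mul] at h'
      exact h'.symm)
    have hc0 : c ≠ 0 := by
      rintro rfl
      have h1 : ((x : GL (Fin 4) F) : Matrix (Fin 4) (Fin 4) F) *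
          (((x : GL (Fin 4) F)⁻¹ : GL (Fin 4) F) : Matrix (Fin 4) (Fin 4) F) = 1 := by
        rw [← Units.val_mul, mul_inv_cancel, Units.val_one]
      rw [hc, zero_smul, Matrix.zero_mul] at h1
      exact zero_ne_one h1
    exact ⟨Units.mk0 c hc0, hc⟩
  · rintro ⟨c, hc⟩
    rw [Subgroup.mem_center_iff]
    intro y
    apply Subtype.ext
    apply Units.ext
    simp only [Subgroup.coe_mul, Units.val_mul]
    rw [hc, Matrix.smul_mul, Matrix.mul_smul, Matrix.one_mul, Matrix.mul_one]

end Cfsg.Agent.Lib.Helper65.FR5
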