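import Mathlib
import Cfsg.Prelude.Def_GeometricClasses
import Cfsg.Agent.Lib.Helper65.FR5Defs


/-!
# Project FR5 (helper65), piece CHPhi: the character-table matrix normalises R0 and moves diagonal non-scalar elements off the diagonal
-/

set_option autoImplicit false

namespace Cfsg.Agent.Lib.Helper65.FR5

open Matrix Cfsg.Geo

variable {F : Type*} [Field F]

/-- the character table of `(Z/2)^2` as a matrix -/
def CHPhi_M (F : Type*) [Field F] : Matrix (Fin 4) (Fin 4) F := Matrix.of fun i j => (chi i j : F)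

theorem CHPhi_M_apply (i j : Fin 4) : CHPhi_M F i j = chi i j := rfl

theorem CHPhi_mul_mono (M : Matrix (Fin 4) (Fin 4) F) (σ : Equiv.Perm (Fin 4)) (c : Fin 4 → F)
    (i j : Fin 4) : (M * mono σ c) i j = M i (σ j) * c j := by
  rw [Matrix.mul_apply, Finset.sum_eq_single (σ j)]
  · rw [mono_apply, if_pos rfl]
  · intro k _ hk
    rw [mono_apply, if_neg hk, mul_zero]
  · intro h
    exact absurd (Finset.mem_univ _) h

theorem CHPhi_mono_mul (M : Matrix (Fin 4) (Fin 4) F) (σ : Equiv.Perm (Fin 4)) (c : Fin 4 → F)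
    (i j : Fin 4) : (mono σ c * M) i j = c (σ⁻¹ i) * M (σ⁻¹ i) j := by
  rw [Matrix.mul_apply, Finset.sum_eq_single (σ⁻¹ i)]
  · rw [mono_apply, if_pos (by simp)]
  · intro k _ hk
    have hik : i ≠ σ k := by
      rintro rfl
      exact hk (by simp)
    rw [mono_apply, if_neg hik, zero_mul]
  · intro h
    exact absurd (Finset.mem_univ _) h

theorem CHPhi_sq : CHPhi_M F * CHPhi_M F = (4 : F) • (1 : Matrix (Fin 4) (Fin 4) F) := by
  ext i k
  rw [Matrix.mul_apply, Matrix.smul_apply, Matrix.one_apply, smul_eq_mul]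
  have h1 : ∀ j, CHPhi_M F i j * CHPhi_M F j k = chi (i ^^^ k) j := by
    intro j
    rw [CHPhi_M_apply, CHPhi_M_apply, chi_xor', chi_symm j k]
  rw [Finset.sum_congr rfl (fun j _ => h1 j)]
  have hall1 : ∀ i' : Fin 4, i' ^^^ i' = 0 := by decide
  have hall2 : ∀ i' k' : Fin 4, i' ≠ k' → i' ^^^ k' ≠ 0 := by decide
  by_cases hik : i = k
  · subst hik
    rw [hall1 i, chi_sum_zero, if_pos rfl, mul_one]
  · rw [chi_sum _ (hall2 i k hik), if_neg hik, mul_zero]

theorem CHPhi_conj (Φ : GL (Fin 4) F) (hΦ : Φ.1 = CHPhi_M F) (x : GL (Fin 4) F) (a b : Fin 4)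
    (c : F) (hx : x.1 = mono (tr b) (fun j => c * chi a j)) :
    (Φ * x * Φ⁻¹).1 = mono (tr a) (fun j => (c * chi b a) * chi b j) := by
  have h1 : Φ.1 * x.1 = mono (tr a) (fun j => (c * chi b a) * chi b j) * Φ.1 := by
    rw [hΦ, hx]
    ext i j
    rw [CHPhi_mul_mono, CHPhi_mono_mul, tr_inv, tr_apply, tr_apply, CHPhi_M_apply, CHPhi_M_apply,
      chi_xor, chi_xor, chi_xor']
    have h2 := chi_mul_self (F := F) b a
    rw [chi_symm i b]
    linear_combination (-(c * chi b i * chi i j * chi a j)) * h2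
  rw [Units.val_mul, Units.val_mul, h1, mul_assoc, ← Units.val_mul, mul_inv_cancel, Units.val_one,
    mul_one]

/-- CHPhi -/
theorem CHPhi [Fintype F] (hq : Fintype.card F = 5) :
    ∃ Φ ∈ Subgroup.normalizer ((R0 F : Subgroup (GL (Fin 4) F)) : Set (GL (Fin 4) F)),
      ∀ x ∈ R0 F, ∀ d : Fin 4 → F, x.1 = mono 1 d → x ∉ scalars (Fin 4) F →
        ∃ (b : Fin 4) (d' : Fin 4 → F), b ≠ 0 ∧ (∀ j, d' j ≠ 0) ∧
          (Φ * x * Φ⁻¹).1 = mono (tr b) d' := by
  classical
  have h2ne := two_ne_zero_of_card hq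
  have h4 : (4 : F) ≠ 0 := by
    intro h
    apply h2ne
    have h22 : (2 : F) * 2 = 0 := by linear_combination h
    exact mul_self_eq_zero.mp h22
  obtain ⟨Φ, hΦ⟩ : ∃ Φ : GL (Fin 4) F, Φ.1 = CHPhi_M F :=
    ⟨⟨CHPhi_M F, (4 : F)⁻¹ • CHPhi_M F,
      by rw [Matrix.mul_smul, CHPhi_sq, smul_smul, inv_mul_cancel₀ h4, one_smul],
      by rw [Matrix.smul_mul, CHPhi_sq, smul_smul, inv_mul_cancel₀ h4, one_smul]⟩, rfl⟩
  refine ⟨Φ, ?_, ?_⟩
  · apply Subgroup.mem_normalizer_fintype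
    intro n hn
    obtain ⟨a, b, c, hc, hx⟩ := exists_nf h2ne hn
    exact mem_R0_of_nf _ b a (c * chi b a) (mul_ne_zero hc (chi_ne_zero _ _))
      (CHPhi_conj Φ hΦ n a b c hx)
  · intro x hxR d hxd hxs
    obtain ⟨a, b, c, hc, hx⟩ := exists_nf h2ne hxR
    have hinj := mono_injective (fun j => mul_ne_zero hc (chi_ne_zero a j)) (hx.symm.trans hxd)
    have hb0 : b = 0 := (tr_eq_one_iff b).mp hinj.1
    have ha0 : a ≠ 0 := by
      intro ha
      apply hxs
      rw [mem_scalars_iff]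
      refine ⟨Units.mk0 c hc, ?_⟩
      rw [hx, hb0, ha, tr_zero, Units.val_mk0, ← mono_one, mono_smul]
      congr 1
      funext j
      rw [chi_zero]
    exact ⟨a, fun j => (c * chi b a) * chi b j, ha0,
      fun j => mul_ne_zero (mul_ne_zero hc (chi_ne_zero _ _)) (chi_ne_zero _ _),
      CHPhi_conj Φ hΦ x a b c hx⟩

end Cfsg.Agent.Lib.Helper65.FR5
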