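import Mathlib
import Cfsg.Prelude.Def_GeometricClasses
import Cfsg.Agent.Lib.Helper65.FR5Defs


/-!
# Project FR5 (helper65), piece COMM: commutators of R0 are central
-/

set_option autoImplicit false

namespace Cfsg.Agent.Lib.Helper65.FR5

open Matrix Cfsg.Geo

variable {F : Type*} [Field F]

theorem COMM_aux_xor : ∀ b b' : Fin 4, b ^^^ b' = b' ^^^ b := by decide

/-- COMM -/
theorem COMM (h2 : (2 : F) ≠ 0) :
    ∀ x y : R0 F, x * y * x⁻¹ * y⁻¹ ∈ Subgroup.center (R0 F) := by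
  intro x y
  obtain ⟨a, b, c, hc, hx⟩ := exists_nf h2 x.2
  obtain ⟨a', b', c', hc', hy⟩ := exists_nf h2 y.2
  have hε0 : (chi a b' * chi a' b : F) ≠ 0 := mul_ne_zero (chi_ne_zero _ _) (chi_ne_zero _ _)
  have hzG : (monoU 1 (fun _ => (chi a b' * chi a' b : F)) (fun _ => hε0)).1
      = (chi a b' * chi a' b : F) • (1 : Matrix (Fin 4) (Fin 4) F) := by
    rw [monoU_val, ← mono_one, mono_smul]
    congr 1
    funext j
    rw [mul_one]
  have hzmem : monoU 1 (fun _ => (chi a b' * chi a' b : F)) (fun _ => hε0) ∈ R0 F :=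
    scalar_mem_R0 _ _ hε0 hzG
  have hxy : x * y = ⟨monoU 1 (fun _ => (chi a b' * chi a' b : F)) (fun _ => hε0), hzmem⟩
      * (y * x) := by
    apply Subtype.ext
    apply Units.ext
    show x.1.1 * y.1.1 = (monoU 1 (fun _ => (chi a b' * chi a' b : F)) (fun _ => hε0)).1
      * (y.1.1 * x.1.1)
    rw [hzG, hx, hy, mono_mul, mono_mul, tr_mul, tr_mul, Matrix.smul_mul, Matrix.one_mul,
      mono_smul]
    have hb : b ^^^ b' = b' ^^^ b := COMM_aux_xor b b'
    rw [hb]
    congr 1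
    funext j
    simp only [tr_apply]
    rw [chi_xor, chi_xor]
    have h1 := chi_mul_self (F := F) a' b
    linear_combination (-(c * chi a j * chi a b' * c' * chi a' j)) * h1
  have hcomm : x * y * x⁻¹ * y⁻¹
      = ⟨monoU 1 (fun _ => (chi a b' * chi a' b : F)) (fun _ => hε0), hzmem⟩ := by
    rw [hxy]
    group
  rw [hcomm, Subgroup.mem_center_iff]
  intro g
  apply Subtype.ext
  apply Units.ext
  show g.1.1 * (monoU 1 (fun _ => (chi a b' * chi a' b : F)) (fun _ => hε0)).1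
    = (monoU 1 (fun _ => (chi a b' * chi a' b : F)) (fun _ => hε0)).1 * g.1.1
  rw [hzG, Matrix.mul_smul, Matrix.smul_mul, Matrix.mul_one, Matrix.one_mul]

end Cfsg.Agent.Lib.Helper65.FR5
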