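import Mathlib
import Cfsg.Prelude.Def_GeometricClasses
import Cfsg.Agent.Lib.Helper65.FR5Defs


/-!
# Project FR5 (helper65), piece T1b: absolute irreducibility is invariant under conjugation
-/

set_option autoImplicit false

namespace Cfsg.Agent.Lib.Helper65.FR5

open Matrix Cfsg.Geo

variable {F : Type*} [Field F]

private theorem t1b_aux1 {n : ℕ} (A B s : Matrix (Fin n) (Fin n) F) (hBA : B * A = 1) :
    (A * s * B) * A = A * s := by
  rw [Matrix.mul_assoc, hBA, Matrix.mul_one]

private theorem t1b_aux2 {n : ℕ} (A B s M : Matrix (Fin n) (Fin n) F) (hBA : B * A = 1)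
    (h : M * (A * s * B) = (A * s * B) * M) : (B * M * A) * s = s * (B * M * A) := by
  have e1 : B * (M * (A * s * B)) * A = B * M * A * s := by
    simp only [Matrix.mul_assoc]
    rw [hBA, Matrix.mul_one]
  have e2 : B * ((A * s * B) * M) * A = s * (B * M * A) := by
    simp only [Matrix.mul_assoc]
    rw [← Matrix.mul_assoc B A, hBA, Matrix.one_mul]
  calc B * M * A * s = B * (M * (A * s * B)) * A := e1.symm
    _ = B * ((A * s * B) * M) * A := by rw [h]
    _ = s * (B * M * A) := e2

private theorem t1b_aux3 {n : ℕ} (A B M : Matrix (Fin n) (Fin n) F) (hAB : A * B = 1) :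
    A * (B * M * A) * B = M := by
  simp only [Matrix.mul_assoc]
  rw [hAB, Matrix.mul_one, ← Matrix.mul_assoc, hAB, Matrix.one_mul]

/-- T1b -/
theorem T1b {n : ℕ} (R : Subgroup (GL (Fin n) F)) (P : GL (Fin n) F)
    (hR : ActsAbsolutelyIrreducibly (matrixSet R)) :
    ActsAbsolutelyIrreducibly (matrixSet (R.map (MulAut.conj P).toMonoidHom)) := by
  obtain ⟨A, hA⟩ : ∃ A : Matrix (Fin n) (Fin n) F, A = (P : Matrix (Fin n) (Fin n) F) := ⟨_, rfl⟩
  obtain ⟨B, hB⟩ : ∃ B : Matrix (Fin n) (Fin n) F,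
      B = ((P⁻¹ : GL (Fin n) F) : Matrix (Fin n) (Fin n) F) := ⟨_, rfl⟩
  have hAB : A * B = 1 := by
    rw [hA, hB, ← Units.val_mul, mul_inv_cancel]; rfl
  have hBA : B * A = 1 := by
    rw [hA, hB, ← Units.val_mul, inv_mul_cancel]; rfl
  have hmem : ∀ s ∈ matrixSet R,
      A * s * B ∈ matrixSet (R.map (MulAut.conj P).toMonoidHom) := by
    rintro s ⟨g, hg, rfl⟩
    refine ⟨P * g * P⁻¹, Subgroup.mem_map.mpr ⟨g, hg, ?_⟩, ?_⟩
    · simp [MulAut.conj_apply]
    · show ((P * g * P⁻¹ : GL (Fin n) F) : Matrix (Fin n) (Fin n) F) = A * (g : Matrix (Fin n) (Fin n) F) * B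
      rw [hA, hB, Units.val_mul, Units.val_mul]
  constructor
  · intro W' hW'
    have hW : ∀ s ∈ matrixSet R,
        (W'.comap (Matrix.toLin' A)).map (Matrix.toLin' s) ≤ W'.comap (Matrix.toLin' A) := by
      intro s hs
      rintro _ ⟨v, hv, rfl⟩
      rw [Submodule.mem_comap]
      have h1 := hW' _ (hmem s hs) (Submodule.mem_map_of_mem (Submodule.mem_comap.mp hv))
      have h2 : Matrix.toLin' (A * s * B) (Matrix.toLin' A v) =
          Matrix.toLin' A (Matrix.toLin' s v) := by
        simp only [Matrix.toLin'_apply, Matrix.mulVec_mulVec]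
        rw [t1b_aux1 A B s hBA]
      rwa [h2] at h1
    have hback : ∀ w : Fin n → F, Matrix.toLin' A (Matrix.toLin' B w) = w := by
      intro w
      simp only [Matrix.toLin'_apply, Matrix.mulVec_mulVec]
      rw [hAB, Matrix.one_mulVec]
    rcases hR.1 _ hW with h | h
    · left
      rw [eq_bot_iff]
      intro w hw
      have h1 : Matrix.toLin' B w ∈ W'.comap (Matrix.toLin' A) := by
        rw [Submodule.mem_comap, hback]; exact hw
      rw [h] at h1
      have h2 := hback w
      rw [(Submodule.mem_bot F).mp h1, map_zero] at h2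
      exact (Submodule.mem_bot F).mpr h2.symm
    · right
      rw [eq_top_iff]
      intro w _
      have h1 : Matrix.toLin' B w ∈ W'.comap (Matrix.toLin' A) := by
        rw [h]; exact Submodule.mem_top
      rw [Submodule.mem_comap, hback] at h1
      exact h1
  · intro M hM
    obtain ⟨c, hc⟩ := hR.2 (B * M * A)
      (fun s hs => t1b_aux2 A B s M hBA (hM _ (hmem s hs)))
    refine ⟨c, ?_⟩
    calc M = A * (B * M * A) * B := (t1b_aux3 A B M hAB).symm
      _ = c • 1 := by rw [hc, Matrix.mul_smul, Matrix.smul_mul, Matrix.mul_one, hAB]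

end Cfsg.Agent.Lib.Helper65.FR5
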