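import Mathlib
import Cfsg.Agent.Lib.Helper61.BlkDefs

/-!
# S5634 m ≥ 2, piece BLK-E (helper65)
-/

set_option autoImplicit false
set_option linter.unusedSectionVars false

namespace Cfsg.Agent.Lib.Helper61.Blk

open Matrix Cfsg.Agent.Lib.Helper97

section
variable {ι : Type} [Fintype ι] [DecidableEq ι] {F : Type*} [Field F] {t : ℕ}

theorem stepE_core (β : ι → Fin t) {X : Subgroup (GL ι F)} (hBT : BT β X)
    {c φ : ι → F} (h : TM X c φ) (l : Fin t) (u ψ : ι → F) (hu : InB β l u) (hψ : InB β l ψ)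
    (h1 : ψ ⬝ᵥ u = 0) (h2 : ψ ⬝ᵥ c = 0) (h3 : φ ⬝ᵥ u ≠ 0) (h4 : ψ ≠ 0) :
    ∃ ψ : ι → F, ψ ≠ 0 ∧ InB β l ψ ∧ TM X c ψ := by
  have hb : TM X u ψ := hBT l u ψ hu hψ h1
  have hc := TM_conj_tv h hb
  rw [h2, zero_smul, add_zero] at hc
  have hd := TM_sub h hc
  rw [sub_sub_cancel] at hd
  refine ⟨(φ ⬝ᵥ u) • ψ, ?_, ?_, hd⟩
  · intro h0
    apply h4
    funext j
    have := congrFun h0 j
    rw [Pi.smul_apply, smul_eq_mul, Pi.zero_apply] at this
    rcases mul_eq_zero.mp this with h5 | h5
    · exact absurd h5 h3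
    · exact h5
  · intro j hj
    rw [Pi.smul_apply, hψ j hj, smul_zero]

theorem stepE_inB_single (β : ι → Fin t) (j : ι) (a : F) : InB β (β j) (Pi.single j a) := by
  intro k hk
  have : k ≠ j := fun h => hk (by rw [h])
  rw [Pi.single_apply, if_neg this]

theorem stepE_dot_res (β : ι → Fin t) (l : Fin t) (φ c : ι → F) :
    φ ⬝ᵥ res β l c = bdot β l φ c := by
  unfold dotProduct bdot res
  apply Finset.sum_congr rfl
  intro j _
  by_cases hj : β j = l
  · rw [if_pos hj, if_pos hj]
  · rw [if_neg hj, if_neg hj, mul_zero]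

/-- E -/
theorem stepE (β : ι → Fin t) (hf : Fib2 β) {X : Subgroup (GL ι F)} (hBT : BT β X)
    {c φ : ι → F} (h : TM X c φ) (l : Fin t) (hc : Hit β l c) (hφ : Hit β l φ)
    (h3 : Fib3 β ∨ bdot β l φ c ≠ 0) :
    ∃ ψ : ι → F, ψ ≠ 0 ∧ InB β l ψ ∧ TM X c ψ := by
  by_cases hb : bdot β l φ c ≠ 0
  · obtain ⟨j1, hj1, hcj1⟩ := hc
    obtain ⟨j2, hj21, hj2⟩ := hf.other j1
    rw [hj1] at hj2
    set ψ : ι → F := Pi.single j2 (c j1) - Pi.single j1 (c j2) with hψ
    have hψB : InB β l ψ := by
      intro k hk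
      have hk1 : k ≠ j1 := fun h => hk (by rw [h, hj1])
      have hk2 : k ≠ j2 := fun h => hk (by rw [h, hj2])
      rw [hψ, Pi.sub_apply, Pi.single_apply, Pi.single_apply, if_neg hk1, if_neg hk2, sub_zero]
    have hu : InB β l (res β l c) := by
      intro k hk
      unfold res
      rw [if_neg hk]
    have h1 : ψ ⬝ᵥ res β l c = 0 := by
      rw [hψ, sub_dotProduct, single_dotProduct, single_dotProduct]
      unfold res
      rw [if_pos hj2, if_pos hj1]
      ring
    have h2 : ψ ⬝ᵥ c = 0 := by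
      rw [hψ, sub_dotProduct, single_dotProduct, single_dotProduct]
      ring
    have h3' : φ ⬝ᵥ res β l c ≠ 0 := by
      rw [stepE_dot_res]
      exact hb
    have h4 : ψ ≠ 0 := by
      intro h0
      have := congrFun h0 j2
      rw [hψ, Pi.sub_apply, Pi.single_apply, Pi.single_apply, if_pos rfl, if_neg hj21,
        sub_zero, Pi.zero_apply] at this
      exact hcj1 this
    exact stepE_core β hBT h l _ ψ hu hψB h1 h2 h3' h4
  · have hF3 : Fib3 β := by
      rcases h3 with h3 | h3
      · exact h3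
      · exact absurd h3 hb
    obtain ⟨j0, hj0, hφj0⟩ := hφ
    -- two further indices of the fibre
    obtain ⟨j1, j2, h12, h10, h20, hj1, hj2⟩ : ∃ j1 j2, j1 ≠ j2 ∧ j1 ≠ j0 ∧ j2 ≠ j0 ∧
        β j1 = l ∧ β j2 = l := by
      obtain ⟨a, b, d, hab, had, hbd, ha, hb', hd⟩ := hF3 l
      by_cases ha0 : a = j0
      · refine ⟨b, d, hbd, ?_, ?_, hb', hd⟩
        · rw [← ha0]; exact Ne.symm hab
        · rw [← ha0]; exact Ne.symm had
      · by_cases hb0 : b = j0
        · refine ⟨a, d, had, ha0, ?_, ha, hd⟩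
          rw [← hb0]; exact Ne.symm hbd
        · exact ⟨a, b, hab, ha0, hb0, ha, hb'⟩
    have hu : InB β l (Pi.single j0 (1 : F)) := by
      have := stepE_inB_single (F := F) β j0 1
      rw [hj0] at this
      exact this
    have h3' : φ ⬝ᵥ Pi.single j0 (1 : F) ≠ 0 := by
      rw [dotProduct_single, mul_one]
      exact hφj0
    by_cases hz : c j1 = 0 ∧ c j2 = 0
    · set ψ : ι → F := Pi.single j1 1 with hψ
      have hψB : InB β l ψ := by
        have := stepE_inB_single (F := F) β j1 1
        rw [hj1] at this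
        exact this
      have h1 : ψ ⬝ᵥ Pi.single j0 (1 : F) = 0 := by
        rw [hψ, dotProduct_single, mul_one, Pi.single_apply, if_neg (Ne.symm h10)]
      have h2 : ψ ⬝ᵥ c = 0 := by
        rw [hψ, single_dotProduct, one_mul, hz.1]
      have h4 : ψ ≠ 0 := by
        intro h0
        have := congrFun h0 j1
        rw [hψ, Pi.single_apply, if_pos rfl, Pi.zero_apply] at this
        exact one_ne_zero this
      exact stepE_core β hBT h l _ ψ hu hψB h1 h2 h3' h4
    · set ψ : ι → F := Pi.single j1 (c j2) - Pi.single j2 (c j1) with hψ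
      have hψB : InB β l ψ := by
        intro k hk
        have hk1 : k ≠ j1 := fun h => hk (by rw [h, hj1])
        have hk2 : k ≠ j2 := fun h => hk (by rw [h, hj2])
        rw [hψ, Pi.sub_apply, Pi.single_apply, Pi.single_apply, if_neg hk1, if_neg hk2, sub_zero]
      have h1 : ψ ⬝ᵥ Pi.single j0 (1 : F) = 0 := by
        rw [hψ, dotProduct_single, mul_one, Pi.sub_apply, Pi.single_apply, Pi.single_apply,
          if_neg (Ne.symm h10), if_neg (Ne.symm h20), sub_zero]
      have h2 : ψ ⬝ᵥ c = 0 := by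
        rw [hψ, sub_dotProduct, single_dotProduct, single_dotProduct]
        ring
      have h4 : ψ ≠ 0 := by
        intro h0
        apply hz
        constructor
        · have := congrFun h0 j2
          rw [hψ, Pi.sub_apply, Pi.single_apply, Pi.single_apply, if_neg (Ne.symm h12),
            if_pos rfl, zero_sub, Pi.zero_apply, neg_eq_zero] at this
          exact this
        · have := congrFun h0 j1
          rw [hψ, Pi.sub_apply, Pi.single_apply, Pi.single_apply, if_pos rfl, if_neg h12,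
            sub_zero, Pi.zero_apply] at this
          exact this
      exact stepE_core β hBT h l _ ψ hu hψB h1 h2 h3' h4

end

end Cfsg.Agent.Lib.Helper61.Blk
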