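import Mathlib
import Cfsg.Agent.Lib.Helper61.BlkDefs

/-!
# S5634 m ≥ 2, piece BLK-H2 (helper65)
-/

set_option autoImplicit false
set_option linter.unusedSectionVars false

namespace Cfsg.Agent.Lib.Helper61.Blk

open Matrix Cfsg.Agent.Lib.Helper97

section
variable {ι : Type} [Fintype ι] [DecidableEq ι] {F : Type*} [Field F] {t : ℕ}

theorem stepH2_col (x : Matrix ι ι F) (j i : ι) : (x *ᵥ Pi.single j (1 : F)) i = x i j := by
  rw [Matrix.mulVec, dotProduct, Finset.sum_eq_single j]
  · rw [Pi.single_apply, if_pos rfl, mul_one]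
  · intro k _ hk
    rw [Pi.single_apply, if_neg hk, mul_zero]
  · intro h
    exact absurd (Finset.mem_univ _) h

theorem stepH2_col_ne (x : GL ι F) (j : ι) : ∃ i, (x : Matrix ι ι F) i j ≠ 0 := by
  by_contra hcon
  push Not at hcon
  have h : ((x⁻¹ : GL ι F) : Matrix ι ι F) * (x : Matrix ι ι F) = 1 := by
    rw [← Units.val_mul, inv_mul_cancel, Units.val_one]
  have h2 := congrFun (congrFun h j) j
  rw [Matrix.mul_apply, Matrix.one_apply_eq] at h2
  rw [Finset.sum_eq_zero (fun k _ => by rw [hcon k, mul_zero])] at h2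
  exact zero_ne_one h2

theorem stepH2_row_ne (x : GL ι F) (r : ι) : ∃ j, (x : Matrix ι ι F) r j ≠ 0 := by
  by_contra hcon
  push Not at hcon
  have h : (x : Matrix ι ι F) * ((x⁻¹ : GL ι F) : Matrix ι ι F) = 1 := by
    rw [← Units.val_mul, mul_inv_cancel, Units.val_one]
  have h2 := congrFun (congrFun h r) r
  rw [Matrix.mul_apply, Matrix.one_apply_eq] at h2
  rw [Finset.sum_eq_zero (fun k _ => by rw [hcon k, zero_mul])] at h2
  exact zero_ne_one h2

/-- H2 -/
theorem stepH2 (β : ι → Fin t) (hf : Fib2 β) (x : GL ι F)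
    (h : ∀ (i : Fin t) (c : ι → F), InB β i c → ∃ l, InB β l ((x : Matrix ι ι F) *ᵥ c)) :
    ∃ σ : Equiv.Perm (Fin t), BMono β σ (x : Matrix ι ι F) := by
  classical
  have hsing : ∀ j : ι, InB β (β j) (Pi.single j (1 : F)) := by
    intro j k hk
    have : k ≠ j := fun h => hk (by rw [h])
    rw [Pi.single_apply, if_neg this]
  -- the block of column `j`
  have hcol : ∀ j : ι, ∃ l, ∀ i, (x : Matrix ι ι F) i j ≠ 0 → β i = l := by
    intro j
    obtain ⟨l, hl⟩ := h (β j) _ (hsing j)
    refine ⟨l, fun i hi => ?_⟩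
    by_contra hne
    apply hi
    have h2 := hl i hne
    rw [stepH2_col] at h2
    exact h2
  choose τ hτ using hcol
  -- `τ` is constant on fibres
  have hconst : ∀ j j', β j = β j' → τ j = τ j' := by
    intro j j' hjj
    by_contra hne
    have hB : InB β (β j) ((Pi.single j (1 : F) : ι → F) + (Pi.single j' (1 : F) : ι → F)) := by
      intro k hk
      have h1 : k ≠ j := fun h => hk (by rw [h])
      have h2 : k ≠ j' := fun h => hk (by rw [h, hjj])
      rw [Pi.add_apply, Pi.single_apply, Pi.single_apply, if_neg h1, if_neg h2, add_zero]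
    obtain ⟨l, hl⟩ := h (β j) _ hB
    have hent : ∀ i, ((x : Matrix ι ι F) *ᵥ
        ((Pi.single j (1 : F) : ι → F) + (Pi.single j' (1 : F) : ι → F))) i =
        (x : Matrix ι ι F) i j + (x : Matrix ι ι F) i j' := by
      intro i
      rw [Matrix.mulVec_add, Pi.add_apply, stepH2_col, stepH2_col]
    obtain ⟨r, hr⟩ := stepH2_col_ne x j
    obtain ⟨r', hr'⟩ := stepH2_col_ne x j'
    have hr0 : (x : Matrix ι ι F) r j' = 0 := by
      by_contra h0
      exact hne ((hτ j r hr).symm.trans (hτ j' r h0))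
    have hr0' : (x : Matrix ι ι F) r' j = 0 := by
      by_contra h0
      exact hne ((hτ j r' h0).symm.trans (hτ j' r' hr'))
    have e1 : β r = l := by
      by_contra hn
      have := hl r hn
      rw [hent, hr0, add_zero] at this
      exact hr this
    have e2 : β r' = l := by
      by_contra hn
      have := hl r' hn
      rw [hent, hr0', zero_add] at this
      exact hr' this
    exact hne ((hτ j r hr).symm.trans (e1.trans (e2.symm.trans (hτ j' r' hr'))))
  -- a representative of each fibre
  have hrep : ∀ l : Fin t, ∃ j, β j = l := fun l => by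
    obtain ⟨j₁, _, _, h1, _⟩ := hf l
    exact ⟨j₁, h1⟩
  choose rep hrep using hrep
  set s : Fin t → Fin t := fun l => τ (rep l) with hs
  have hτs : ∀ j, τ j = s (β j) := by
    intro j
    rw [hs]
    exact hconst j (rep (β j)) (hrep (β j)).symm
  have hsurj : Function.Surjective s := by
    intro k
    obtain ⟨j, hj⟩ := stepH2_row_ne x (rep k)
    refine ⟨β j, ?_⟩
    rw [← hτs j, ← hτ j (rep k) hj, hrep k]
  have hbij : Function.Bijective s := ⟨Finite.injective_iff_surjective.mpr hsurj, hsurj⟩
  refine ⟨Equiv.ofBijective s hbij, ?_⟩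
  intro i j hij
  rw [Equiv.ofBijective_apply, ← hτs j]
  exact hτ j i hij

end

end Cfsg.Agent.Lib.Helper61.Blk
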