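import Mathlib
import Cfsg.Prelude.Def_GeometricClasses
import Cfsg.Agent.Lib.Helper65.FR5Defs
import Cfsg.Agent.Lib.Helper65.FR5CENTa

/-!
# Project FR5 (helper65), piece CENTb: the centre of R0 is cyclic of order 4 (q = 5)
-/

set_option autoImplicit false

namespace Cfsg.Agent.Lib.Helper65.FR5

open Matrix Cfsg.Geo

variable {F : Type*} [Field F]

/-- the image of the centre of `R0` in `GL` is the group of scalars -/
theorem CENTb_aux1 (h2 : (2 : F) ≠ 0) :
    (Subgroup.center (R0 F)).map (R0 F).subtype = scalars (Fin 4) F := by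
  ext g
  constructor
  · rintro ⟨x, hx, rfl⟩
    exact (CENTa h2 x).1 hx
  · intro hg
    obtain ⟨c, hc⟩ := (mem_scalars_iff g).1 hg
    have hgR : g ∈ R0 F := scalar_mem_R0 g (c : F) c.ne_zero hc
    exact ⟨⟨g, hgR⟩, (CENTa h2 ⟨g, hgR⟩).2 hg, rfl⟩

theorem CENTb_aux2 :
    Function.Injective
      (Units.map (Matrix.scalar (Fin 4) : F →+* Matrix (Fin 4) (Fin 4) F).toMonoidHom) :=
  Units.map_injective (fun _ _ h => Matrix.scalar_inj.1 h)

/-- the centre of `R0` is isomorphic to `Fˣ` -/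
theorem CENTb_aux3 (h2 : (2 : F) ≠ 0) : Nonempty (↥(Subgroup.center (R0 F)) ≃* Fˣ) := by
  have e1 : Fˣ ≃* ↥(scalars (Fin 4) F) := MonoidHom.ofInjective CENTb_aux2
  have e2 : ↥(Subgroup.center (R0 F)) ≃* ↥((Subgroup.center (R0 F)).map (R0 F).subtype) :=
    Subgroup.equivMapOfInjective _ _ (Subgroup.subtype_injective _)
  have e3 : ↥((Subgroup.center (R0 F)).map (R0 F).subtype) ≃* ↥(scalars (Fin 4) F) :=
    MulEquiv.subgroupCongr (CENTb_aux1 h2)
  exact ⟨(e2.trans e3).trans e1.symm⟩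

/-- CENTb -/
theorem CENTb [Fintype F] (hq : Fintype.card F = 5) :
    Nat.card (Subgroup.center (R0 F)) = 4 ∧ IsCyclic (Subgroup.center (R0 F)) := by
  obtain ⟨e⟩ := CENTb_aux3 (F := F) (two_ne_zero_of_card hq)
  refine ⟨?_, ?_⟩
  · rw [Nat.card_congr e.toEquiv, Nat.card_units, Nat.card_eq_fintype_card, hq]
  · exact (MulEquiv.isCyclic e).2 inferInstance

end Cfsg.Agent.Lib.Helper65.FR5
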