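import Mathlib
import Cfsg.Prelude.Def_GeometricClasses
import Cfsg.Agent.Lib.Helper65.FR5Defs


/-!
# Project FR5 (helper65), piece CH0: abstract criterion for 'characteristic abelian subgroups are cyclic'
-/

set_option autoImplicit false

namespace Cfsg.Agent.Lib.Helper65.FR5

open Matrix Cfsg.Geo

variable {F : Type*} [Field F]

/-- conjugation by an element of the normaliser, as an automorphism of the subgroup -/
def ch0_conj {G : Type*} [Group G] (R : Subgroup G) (g : G)
    (hg : g ∈ Subgroup.normalizer (R : Set G)) : R ≃* R where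
  toFun x := ⟨g * x * g⁻¹, (Subgroup.mem_normalizer_iff.mp hg x).mp x.2⟩
  invFun x := ⟨g⁻¹ * x * g, (Subgroup.mem_normalizer_iff''.mp hg x).mp x.2⟩
  left_inv x := Subtype.ext (by
    show g⁻¹ * (g * (x : G) * g⁻¹) * g = x
    group)
  right_inv x := Subtype.ext (by
    show g * (g⁻¹ * (x : G) * g) * g⁻¹ = x
    group)
  map_mul' x y := Subtype.ext (by
    show g * ((x : G) * (y : G)) * g⁻¹ = g * (x : G) * g⁻¹ * (g * (y : G) * g⁻¹)
    group)

theorem ch0_conj_apply {G : Type*} [Group G] (R : Subgroup G) (g : G)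
    (hg : g ∈ Subgroup.normalizer (R : Set G)) (x : R) :
    ((ch0_conj R g hg x : R) : G) = g * x * g⁻¹ := rfl

/-- CH0 -/
theorem CH0 {G : Type*} [Group G] (R : Subgroup G) (hZ : IsCyclic (Subgroup.center R))
    (h : ∀ a ∈ R, (∃ b ∈ R, a * b ≠ b * a) →
      ∃ g ∈ Subgroup.normalizer (R : Set G), (g * a * g⁻¹) * a ≠ a * (g * a * g⁻¹)) :
    ∀ A : Subgroup R, A.Characteristic → IsMulCommutative A → IsCyclic A := by
  intro A hA hAc
  have hle : A ≤ Subgroup.center R := by
    intro a ha
    rw [Subgroup.mem_center_iff]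
    intro b
    by_contra hne
    have h1 : ∃ b' ∈ R, (a : G) * b' ≠ b' * a :=
      ⟨b, b.2, fun e => hne (Subtype.ext e.symm)⟩
    obtain ⟨g, hg, hga⟩ := h a a.2 h1
    have hfix := hA.fixed (ch0_conj R g hg)
    have hφa : ch0_conj R g hg a ∈ A := by
      rw [← hfix] at ha
      exact ha
    have hc : (⟨ch0_conj R g hg a, hφa⟩ : A) * ⟨a, ha⟩ = ⟨a, ha⟩ * ⟨ch0_conj R g hg a, hφa⟩ :=
      (isMulCommutative_iff.mp hAc) _ _
    apply hga
    have h2 := congrArg (fun x : A => ((x : R) : G)) hc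
    exact h2
  exact isCyclic_of_injective (Subgroup.inclusion hle) (Subgroup.inclusion_injective hle)

end Cfsg.Agent.Lib.Helper65.FR5
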