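import Mathlib
import Cfsg.Prelude.Def_GeometricClasses
import Cfsg.Agent.Lib.Helper65.FR5Defs


/-!
# Project FR5 (helper65), piece N: monomial matrices with (∏ c)^2 = 1 normalise R0 (q = 5)
-/

set_option autoImplicit false

namespace Cfsg.Agent.Lib.Helper65.FR5

open Matrix Cfsg.Geo

variable {F : Type*} [Field F]

/-- the squares of the coefficients transform by a sign under a translation -/
theorem N_aux1 [Fintype F] (hq : Fintype.card F = 5) (c : Fin 4 → F) (hc : ∀ j, c j ≠ 0)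
    (hprod : (∏ j, c j) ^ 2 = 1) (b : Fin 4) :
    ∃ w : F, w ≠ 0 ∧ w ^ 2 = 1 ∧ ∀ k, c (tr b k) ^ 2 = w * c k ^ 2 := by
  obtain ⟨a, ha⟩ := nf (two_ne_zero_of_card hq) (fun j => c j ^ 2) 1 one_ne_zero
    (fun j => by
      show (c j ^ 2) ^ 2 = 1
      rw [← pow_mul]; exact pow_four_eq_one hq (c j) (hc j))
    (by rw [Finset.prod_pow, hprod, one_pow])
  refine ⟨chi a b, chi_ne_zero a b, chi_sq a b, fun k => ?_⟩
  have h1 := ha (tr b k)
  have h2 := ha k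
  rw [h1, h2, tr_apply, chi_xor]
  ring

/-- conjugation by a monomial matrix with `(∏ c)^2 = 1` maps `R0` into itself -/
theorem N_aux2 [Fintype F] (hq : Fintype.card F = 5) (g : GL (Fin 4) F) (σ : Equiv.Perm (Fin 4))
    (c : Fin 4 → F) (hc : ∀ j, c j ≠ 0) (hg : g.1 = mono σ c) (hprod : (∏ j, c j) ^ 2 = 1)
    (x : GL (Fin 4) F) (hx : x ∈ R0 F) : g * x * g⁻¹ ∈ R0 F := by
  obtain ⟨b, d, s, hs, h1, hp, hxv⟩ := hx
  obtain ⟨b', hb'⟩ := tr_conj σ b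
  obtain ⟨w, hw0, hw2, hw⟩ := N_aux1 hq c hc hprod b
  have hP0 : ∏ j, c j ≠ 0 := by
    intro h
    rw [h] at hprod
    norm_num at hprod
  refine ⟨b', fun j => c (tr b (σ⁻¹ j)) * d (σ⁻¹ j) * (c (σ⁻¹ j))⁻¹, s * w,
    mul_ne_zero hs hw0, ?_, ?_, ?_⟩
  · intro j
    have hcj' : c (σ⁻¹ j) ≠ 0 := hc _
    have hcj : c (σ⁻¹ j) ^ 2 ≠ 0 := pow_ne_zero 2 (hc _)
    rw [mul_pow, mul_pow, inv_pow, hw, h1]
    field_simp
  · rw [Equiv.prod_comp σ⁻¹ (fun k => c (tr b k) * d k * (c k)⁻¹), Finset.prod_mul_distrib,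
      Finset.prod_mul_distrib, Finset.prod_inv_distrib, Equiv.prod_comp (tr b) c, hp, mul_pow, hw2]
    field_simp
  · rw [Units.val_mul, Units.val_mul, hg, hxv, inv_val_of_mono hc hg, mono_mul, mono_mul, hb']

/-- N -/
theorem N [Fintype F] (hq : Fintype.card F = 5) (g : GL (Fin 4) F) (σ : Equiv.Perm (Fin 4))
    (c : Fin 4 → F) (hc : ∀ j, c j ≠ 0) (hg : g.1 = mono σ c) (hprod : (∏ j, c j) ^ 2 = 1) :
    g ∈ Subgroup.normalizer ((R0 F : Subgroup (GL (Fin 4) F)) : Set (GL (Fin 4) F)) := by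
  rw [Subgroup.mem_normalizer_iff]
  intro x
  constructor
  · exact N_aux2 hq g σ c hc hg hprod x
  · intro hx
    have hprod' : (∏ j, (c (σ⁻¹ j))⁻¹) ^ 2 = 1 := by
      rw [Finset.prod_inv_distrib, Equiv.prod_comp σ⁻¹ c, inv_pow, hprod, inv_one]
    have h := N_aux2 hq g⁻¹ σ⁻¹ (fun j => (c (σ⁻¹ j))⁻¹) (fun j => inv_ne_zero (hc _))
      (inv_val_of_mono hc hg) hprod' (g * x * g⁻¹) hx
    have e : g⁻¹ * (g * x * g⁻¹) * g⁻¹⁻¹ = x := by group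
    rwa [e] at h

end Cfsg.Agent.Lib.Helper65.FR5
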