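import Mathlib
import Cfsg.Prelude.Def_GeometricClasses
import Cfsg.Agent.Lib.Helper65.FR5Defs
import Cfsg.Agent.Lib.Helper65.FR5N

/-!
# Project FR5 (helper65), piece CHt: a non-diagonal element of R0 does not commute with some normaliser-conjugate
-/

set_option autoImplicit false

namespace Cfsg.Agent.Lib.Helper65.FR5

open Matrix Cfsg.Geo

variable {F : Type*} [Field F]

theorem CHt_aux1 [Fintype F] (hq : Fintype.card F = 5) (x : GL (Fin 4) F) (b : Fin 4)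
    (d : Fin 4 → F) (hd : ∀ j, d j ≠ 0) (hx : x.1 = mono (tr b) d) (c : Fin 4 → F)
    (hc : ∀ j, c j ≠ 0) (hc0 : c 0 = 1) (hcb : c (tr b 0) = 2) (hprod : (∏ j, c j) ^ 2 = 1) :
    ∃ g ∈ Subgroup.normalizer ((R0 F : Subgroup (GL (Fin 4) F)) : Set (GL (Fin 4) F)),
      (g * x * g⁻¹) * x ≠ x * (g * x * g⁻¹) := by
  refine ⟨monoU 1 c hc, N hq _ 1 c hc (monoU_val 1 c hc) hprod, ?_⟩
  intro h
  have hginv : ((monoU 1 c hc)⁻¹ : GL (Fin 4) F).1 =
      mono (1 : Equiv.Perm (Fin 4))⁻¹ (fun j => (c ((1 : Equiv.Perm (Fin 4))⁻¹ j))⁻¹) :=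
    inv_val_of_mono hc (monoU_val 1 c hc)
  have hy : (monoU 1 c hc * x * (monoU 1 c hc)⁻¹).1 =
      mono (tr b) (fun j => c (tr b j) * d j * (c j)⁻¹) := by
    rw [Units.val_mul, Units.val_mul, hginv, monoU_val, hx, mono_mul, mono_mul]
    congr 1
  have h1 : (monoU 1 c hc * x * (monoU 1 c hc)⁻¹).1 * x.1 =
      x.1 * (monoU 1 c hc * x * (monoU 1 c hc)⁻¹).1 := by
    rw [← Units.val_mul, ← Units.val_mul, h]
  rw [hy, hx, mono_mul, mono_mul] at h1
  have h2 := (mono_injective (fun j => mul_ne_zero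
    (mul_ne_zero (mul_ne_zero (hc _) (hd _)) (inv_ne_zero (hc _))) (hd j)) h1).2
  have h3 := congrFun h2 0
  have hall : ∀ b' : Fin 4, (0 : Fin 4) ^^^ b' ^^^ b' = 0 := by decide
  have htt : tr b (tr b 0) = 0 := by
    simp only [tr_apply]
    exact hall b
  rw [htt, hcb, hc0] at h3
  have h2ne := two_ne_zero_of_card hq
  have h5 := five_eq_zero hq
  simp only [one_mul, inv_one, mul_one] at h3
  have h3' : d (tr b 0) * d 0 * (2 : F)⁻¹ = d (tr b 0) * d 0 * 2 := by linear_combination h3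
  have key : (2 : F)⁻¹ = 2 := mul_left_cancel₀ (mul_ne_zero (hd _) (hd _)) h3'
  have h4 : (2 : F) * 2 = 1 := by
    have h6 := mul_inv_cancel₀ h2ne
    rw [key] at h6
    exact h6
  exact h2ne (by linear_combination h5 - h4)

/-- CHt -/
theorem CHt [Fintype F] (hq : Fintype.card F = 5) (x : GL (Fin 4) F) (b : Fin 4) (d : Fin 4 → F)
    (hb : b ≠ 0) (hd : ∀ j, d j ≠ 0) (hx : x.1 = mono (tr b) d) :
    ∃ g ∈ Subgroup.normalizer ((R0 F : Subgroup (GL (Fin 4) F)) : Set (GL (Fin 4) F)),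
      (g * x * g⁻¹) * x ≠ x * (g * x * g⁻¹) := by
  have h2ne := two_ne_zero_of_card hq
  have h5 := five_eq_zero hq
  have hc1 : ∀ j : Fin 4, (![1, 2, 1, 2] : Fin 4 → F) j ≠ 0 := by
    intro j
    fin_cases j <;> simp [h2ne]
  have hc2 : ∀ j : Fin 4, (![1, 1, 2, 2] : Fin 4 → F) j ≠ 0 := by
    intro j
    fin_cases j <;> simp [h2ne]
  have hp1 : (∏ j, (![1, 2, 1, 2] : Fin 4 → F) j) ^ 2 = 1 := by
    rw [Fin.prod_univ_four]
    show ((1 : F) * 2 * 1 * 2) ^ 2 = 1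
    linear_combination (3 : F) * h5
  have hp2 : (∏ j, (![1, 1, 2, 2] : Fin 4 → F) j) ^ 2 = 1 := by
    rw [Fin.prod_univ_four]
    show ((1 : F) * 1 * 2 * 2) ^ 2 = 1
    linear_combination (3 : F) * h5
  by_cases hb2 : b = 2
  · exact CHt_aux1 hq x b d hd hx ![1, 1, 2, 2] hc2 (by simp) (by subst hb2; rfl) hp2
  · refine CHt_aux1 hq x b d hd hx ![1, 2, 1, 2] hc1 (by simp) ?_ hp1
    have hall : ∀ b' : Fin 4, b' ≠ 0 → b' ≠ 2 → b' = 1 ∨ b' = 3 := by decide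
    have hb13 : b = 1 ∨ b = 3 := hall b hb hb2
    rcases hb13 with rfl | rfl
    · rfl
    · rfl

end Cfsg.Agent.Lib.Helper65.FR5
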