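import Mathlib
import Cfsg.Prelude.Def_GeometricClasses
import Cfsg.Agent.Lib.Helper65.FR5Defs
import Cfsg.Agent.Lib.Helper65.FR5CENTb
import Cfsg.Agent.Lib.Helper65.FR5CH0
import Cfsg.Agent.Lib.Helper65.FR5CHt
import Cfsg.Agent.Lib.Helper65.FR5CHPhi

/-!
# Project FR5 (helper65), piece CH: characteristic abelian subgroups of R0 are cyclic (q = 5)
-/

set_option autoImplicit false

namespace Cfsg.Agent.Lib.Helper65.FR5

open Matrix Cfsg.Geo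

variable {F : Type*} [Field F]

/-- CH -/
theorem CH [Fintype F] (hq : Fintype.card F = 5) :
    ∀ A : Subgroup (R0 F), A.Characteristic → IsMulCommutative A → IsCyclic A := by
  refine CH0 (R0 F) (CENTb hq).2 ?_
  intro a ha hnc
  obtain ⟨y, hy, hay⟩ := hnc
  obtain ⟨β, d, s, hs, h1, hp, hx⟩ := ha
  have hd : ∀ j, d j ≠ 0 := coeff_ne_zero hs h1
  by_cases hβ : β = 0
  · subst hβ
    rw [tr_zero] at hx
    have hns : a ∉ scalars (Fin 4) F := by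
      intro hsc
      obtain ⟨c, hc⟩ := (mem_scalars_iff a).mp hsc
      apply hay
      apply Units.ext
      rw [Units.val_mul, Units.val_mul, hc, smul_mul_assoc, mul_smul_comm, one_mul, mul_one]
    obtain ⟨Φ, hΦ, hΦ2⟩ := CHPhi (F := F) hq
    obtain ⟨b', d', hb', hd', hx'⟩ := hΦ2 a ⟨0, d, s, hs, h1, hp, by rw [tr_zero]; exact hx⟩ d hx hns
    obtain ⟨g, hg, hne⟩ := CHt hq (Φ * a * Φ⁻¹) b' d' hb' hd' hx'
    refine ⟨Φ⁻¹ * g * Φ, mul_mem (mul_mem (inv_mem hΦ) hg) hΦ, ?_⟩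
    intro heq
    apply hne
    have e1 : g * (Φ * a * Φ⁻¹) * g⁻¹ * (Φ * a * Φ⁻¹) =
        Φ * ((Φ⁻¹ * g * Φ) * a * (Φ⁻¹ * g * Φ)⁻¹ * a) * Φ⁻¹ := by group
    have e2 : (Φ * a * Φ⁻¹) * (g * (Φ * a * Φ⁻¹) * g⁻¹) =
        Φ * (a * ((Φ⁻¹ * g * Φ) * a * (Φ⁻¹ * g * Φ)⁻¹)) * Φ⁻¹ := by group
    rw [e1, e2, heq]
  · exact CHt hq a β d hβ hd hx

end Cfsg.Agent.Lib.Helper65.FR5
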