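import Mathlib
import Cfsg.Prelude.Def_GeometricClasses
import Cfsg.Agent.Lib.Helper65.FR5Defs


/-!
# Project FR5 (helper65), piece EXP: R0 has exponent 4 and is a 2-group (q = 5)
-/

set_option autoImplicit false

namespace Cfsg.Agent.Lib.Helper65.FR5

open Matrix Cfsg.Geo

variable {F : Type*} [Field F]

theorem EXP_aux1 [Fintype F] (hq : Fintype.card F = 5) (g : GL (Fin 4) F) (hg : g ∈ R0 F) :
    g ^ 4 = 1 := by
  obtain ⟨b, d, s, hs, h1, hp, hg⟩ := hg
  have h4 : g ^ 4 = (g * g) * (g * g) := by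
    simp [pow_succ, mul_assoc]
  rw [h4]
  apply Units.ext
  have hbb : tr b * tr b = 1 := by
    rw [tr_mul, ← tr_zero]
    congr 1
    have hx : ∀ c : Fin 4, c ^^^ c = 0 := by decide
    exact hx b
  have h2 : (g * g).1 = mono 1 (fun j => d (tr b j) * d j) := by
    rw [Units.val_mul, hg, mono_mul, hbb]
  have hs2 : s ^ 2 = 1 := by
    have h0 : d 0 ≠ 0 := coeff_ne_zero hs h1 0
    have := pow_four_eq_one hq (d 0) h0
    rw [← h1 0, ← pow_mul]
    exact this
  rw [Units.val_mul, h2, mono_mul, Units.val_one, ← mono_one, one_mul]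
  congr 1
  funext j
  simp only [Equiv.Perm.one_apply]
  have e1 := h1 (tr b j)
  have e2 := h1 j
  calc d (tr b j) * d j * (d (tr b j) * d j) = d (tr b j) ^ 2 * d j ^ 2 := by ring
    _ = s ^ 2 := by rw [e1, e2]; ring
    _ = 1 := hs2

theorem EXP_aux2 [Fintype F] (hq : Fintype.card F = 5) :
    ∃ z : R0 F, z ^ 2 ≠ 1 := by
  have h2 : (2 : F) ≠ 0 := two_ne_zero_of_card hq
  have h5 : (5 : F) = 0 := five_eq_zero hq
  have hc : ∀ j : Fin 4, (fun _ : Fin 4 => (2 : F)) j ≠ 0 := fun _ => h2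
  have hz : monoU 1 (fun _ : Fin 4 => (2 : F)) hc ∈ R0 F := by
    refine scalar_mem_R0 _ 2 h2 ?_
    rw [monoU_val, ← mono_one, mono_smul]
    congr 1
    funext j
    ring
  refine ⟨⟨_, hz⟩, ?_⟩
  intro h
  have h' : (monoU 1 (fun _ : Fin 4 => (2 : F)) hc) ^ 2 = 1 := by
    have := congrArg Subtype.val h
    simpa using this
  have h'' : ((monoU 1 (fun _ : Fin 4 => (2 : F)) hc) ^ 2).1 = 1 := by rw [h']; rfl
  rw [sq, Units.val_mul, monoU_val, mono_mul, ← mono_one] at h''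
  have h4 : ∀ j : Fin 4, (fun j : Fin 4 => (fun _ : Fin 4 => (2 : F)) ((1 : Equiv.Perm (Fin 4)) j) *
      (fun _ : Fin 4 => (2 : F)) j) j ≠ 0 := fun j => mul_ne_zero h2 h2
  have := (mono_injective h4 h'').2
  have h41 := congrFun this 0
  simp only at h41
  apply h2
  linear_combination h5 - h41

/-- EXP -/
theorem EXP [Fintype F] (hq : Fintype.card F = 5) :
    Monoid.exponent (R0 F) = 4 ∧ IsPGroup 2 (R0 F) := by
  have ha : ∀ x : R0 F, x ^ 4 = 1 := by
    intro x
    apply Subtype.ext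
    have := EXP_aux1 hq x.1 x.2
    simpa using this
  refine ⟨?_, ?_⟩
  · have hd : Monoid.exponent (R0 F) ∣ 4 := Monoid.exponent_dvd_of_forall_pow_eq_one ha
    obtain ⟨z, hz⟩ := EXP_aux2 hq
    have hd' : Monoid.exponent (R0 F) ∣ 2 ^ 2 := by simpa using hd
    obtain ⟨k, hk, hk'⟩ := (Nat.dvd_prime_pow Nat.prime_two).mp hd'
    have hk2 : k = 2 := by
      by_contra hne
      have hk1 : k ≤ 1 := by omega
      have : Monoid.exponent (R0 F) ∣ 2 := by
        rw [hk']
        calc 2 ^ k ∣ 2 ^ 1 := pow_dvd_pow 2 hk1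
          _ = 2 := by norm_num
      exact hz (Monoid.exponent_dvd_iff_forall_pow_eq_one.mp this z)
    rw [hk', hk2]
    norm_num
  · intro g
    exact ⟨2, by simpa using ha g⟩

end Cfsg.Agent.Lib.Helper65.FR5
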