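import Mathlib
import Cfsg.Prelude.Def_GeometricClasses
import Cfsg.Agent.Lib.Helper65.FR5Defs


/-!
# Project FR5 (helper65), piece T1a: the symplectic-type property is invariant under isomorphism
-/

set_option autoImplicit false

namespace Cfsg.Agent.Lib.Helper65.FR5

open Matrix Cfsg.Geo

variable {F : Type*} [Field F]

/-- T1a -/
theorem T1a {n : ℕ} (r : ℕ) (R R' : Subgroup (GL (Fin n) F)) (e : R ≃* R')
    (hR : IsSymplecticTypeGroup r R) : IsSymplecticTypeGroup r R' := by
  refine ⟨hR.prime, hR.pGroup.of_equiv e, ?_, ?_⟩
  · intro A' hchar hcomm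
    have hAchar : (A'.comap e.toMonoidHom).Characteristic := by
      rw [Subgroup.characteristic_iff_comap_le]
      intro φ x hx
      rw [Subgroup.mem_comap] at hx ⊢
      have h1 := hchar.fixed (e.symm.trans (φ.trans e))
      have h2 : e.toMonoidHom x ∈ A'.comap (e.symm.trans (φ.trans e)).toMonoidHom := by
        rw [Subgroup.mem_comap]
        simpa using hx
      rwa [h1] at h2
    have hAcomm : IsMulCommutative (A'.comap e.toMonoidHom) := by
      refine ⟨⟨fun a b => ?_⟩⟩
      apply Subtype.ext
      apply e.injective
      have h3 := hcomm.is_comm.comm (⟨e a.1, a.2⟩ : A') ⟨e b.1, b.2⟩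
      have h4 : e a.1 * e b.1 = e b.1 * e a.1 := congrArg Subtype.val h3
      rw [Subgroup.coe_mul, Subgroup.coe_mul, map_mul, map_mul]
      exact h4
    have hcyc := hR.cyclic_of_characteristic _ hAchar hAcomm
    let f : (A'.comap e.toMonoidHom) →* A' :=
      { toFun := fun x => ⟨e x.1, x.2⟩
        map_one' := by
          apply Subtype.ext
          simp
        map_mul' := by
          intro x y
          apply Subtype.ext
          exact map_mul e x.1 y.1 }
    have hf : Function.Surjective f := by
      intro y
      refine ⟨⟨e.symm y.1, ?_⟩, ?_⟩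
      · rw [Subgroup.mem_comap]
        simp
      · apply Subtype.ext
        exact e.apply_symm_apply y.1
    exact isCyclic_of_surjective f hf
  · rw [← hR.exponent_eq]
    exact (Monoid.exponent_eq_of_mulEquiv e).symm

end Cfsg.Agent.Lib.Helper65.FR5
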