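import Mathlib
import Cfsg.Prelude.Def_GeometricClasses
import Cfsg.Agent.Lib.Helper71.Asch0
import Cfsg.Agent.Lib.Helper71.SLP0
import Cfsg.Agent.Lib.Helper71.AschMain
import Cfsg.Agent.Lib.Helper35.SLPN1
import Cfsg.Agent.Lib.Helper75.SLPN2
import Cfsg.Agent.Lib.Helper64.SLPN3
import Cfsg.Agent.Lib.Helper64.SLPN5
import Cfsg.Agent.Lib.Helper36.SLPN6
import Cfsg.Agent.Lib.Helper36.SLPN8u
import Cfsg.Agent.Lib.Helper8.SLPN8q
import Cfsg.Agent.Lib.Helper73.SLPC2
import Cfsg.Agent.Lib.Helper16.SLPC3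
import Cfsg.Agent.Lib.Helper31.SLPC6
import Cfsg.Agent.Lib.Helper31.SLPFR0
import Cfsg.Agent.Lib.Helper79.SLPFR2
import Cfsg.Agent.Lib.Helper79.SLPFR3
import Cfsg.Agent.Lib.Helper29.SLPFR4
import Cfsg.Agent.Lib.Helper65.SLCN47
import Cfsg.Agent.Lib.Helper31.SLCN8s

/-!
# Project SLC (helper65): generic assembly for the maximal subgroups of `SL_n(F)`

From Aschbacher's theorem for `GL_n(F)` (helper71, `AschMain.main`) and the pieces of the projects
SLP (helper71) and SLC (helper65): a maximal subgroup of `SL_n(F)` is `M ⊓ SL_n(F)` for a member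
`M` of one of the geometric classes (with dimension bookkeeping), or lies in the residual class.
-/

set_option autoImplicit false

namespace Cfsg.Agent.Lib.Helper65.SLCGen

open Matrix Cfsg.Geo Cfsg.Agent.Lib.Helper71.Asch Cfsg.Agent.Lib.Helper71.SLP

variable {n : ℕ} {F : Type*} [Field F] [Fintype F]

theorem PN8s (hn : 3 ≤ n) (f : (Fin n → F) → (Fin n → F) → F) (hf : IsSymplecticForm f) :
    ¬ specialLinear (Fin n) F ≤ similarityGroup f :=
  Cfsg.Agent.Lib.Helper31.SLCN8s.N8s hn f hf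

/-! ## Arithmetic -/

theorem A3 (p e : ℕ) (hp : 0 < p) (he : Odd e) (hdvd : 3 ∣ p ^ e - 1)
    (hmin : ∀ d : ℕ, 0 < d → d < e → ¬ 3 ∣ p ^ d - 1) : e = 1 ∧ p % 3 = 1 := by
  obtain ⟨k, rfl⟩ := he
  have h3 : p % 3 = 1 := by
    have hpos : 0 < p ^ (2 * k + 1) := Nat.pow_pos hp
    have h1 : p ^ (2 * k + 1) % 3 = 1 := by omega
    rw [Nat.pow_mod] at h1
    rcases (by omega : p % 3 = 0 ∨ p % 3 = 1 ∨ p % 3 = 2) with h | h | h
    · rw [h] at h1
      simp at h1
    · exact h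
    · exfalso
      rw [h] at h1
      have h2 : 2 ^ (2 * k + 1) % 3 = 2 := by
        clear h1 hmin hdvd hpos
        induction k with
        | zero => rfl
        | succ j ih =>
          rw [show 2 * (j + 1) + 1 = 2 * j + 1 + 2 by ring, pow_add, Nat.mul_mod, ih]
          norm_num
      omega
  refine ⟨?_, h3⟩
  by_contra hne
  apply hmin 1 (by norm_num) (by omega)
  rw [pow_one]
  omega

theorem prime_pow_eq {a r k n : ℕ} (ha : a.Prime) (hr : r.Prime) (h : n = r ^ k) (hd : a ∣ n) :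
    r = a := by
  rw [h] at hd
  exact ((Nat.prime_dvd_prime_iff_eq ha hr).mp (ha.dvd_of_dvd_pow hd)).symm

/-! ## The generic normal form -/

/-- GEN2: a maximal subgroup of `SL_n(F)`, `n ≥ 3`, is `M ⊓ SL_n(F)` for a class member `M`, or
lies in the residual class. -/
theorem gen2 (hn : 3 ≤ n) (H : Subgroup (GL (Fin n) F))
    (hH : IsMaximalIn (specialLinear (Fin n) F) H) :
    (∃ W : Submodule F (Fin n → F), W ≠ ⊥ ∧ W ≠ ⊤ ∧
      H = subspaceStabilizer W ⊓ specialLinear (Fin n) F) ∨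
    (∃ (t m : ℕ) (D : Fin t → Submodule F (Fin n → F)), IsMDecomposition m D ∧ t * m = n ∧
      H = decompositionStabilizer D ⊓ specialLinear (Fin n) F) ∨
    (∃ (r : ℕ) (K : Subalgebra F (Matrix (Fin n) (Fin n) F)), r.Prime ∧ r ∣ n ∧
      IsFieldSubalgebra r K ∧ H = subalgebraNormalizer K ⊓ specialLinear (Fin n) F) ∨
    (∃ (n₁ n₂ : ℕ) (e : Fin n ≃ Fin n₁ × Fin n₂) (P : GL (Fin n) F), 2 ≤ n₁ ∧ n₁ < n₂ ∧
      n₁ * n₂ = n ∧ H = tensorProductSubgroup n₁ n₂ e P ⊓ specialLinear (Fin n) F) ∨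
    (∃ (F₀ : Subfield F) (r : ℕ) (P : GL (Fin n) F), r.Prime ∧
      Fintype.card F = Nat.card F₀ ^ r ∧ H = subfieldSubgroup F₀ P ⊓ specialLinear (Fin n) F) ∨
    (∃ (r : ℕ) (R : Subgroup (GL (Fin n) F)), IsLinearSymplecticTypeData r R ∧
      r ∣ n ∧ H = subgroupNormalizer R ⊓ specialLinear (Fin n) F) ∨
    (∃ (m t : ℕ) (e : Fin n ≃ (Fin t → Fin m)) (P : GL (Fin n) F), 3 ≤ m ∧ 2 ≤ t ∧
      m ^ t = n ∧ H = tensorWreathSubgroup m t e P ⊓ specialLinear (Fin n) F) ∨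
    (∃ f : (Fin n → F) → (Fin n → F) → F, IsSymplecticForm f ∧ Even n ∧
      H = similarityGroup f ⊓ specialLinear (Fin n) F) ∨
    (∃ (σ : F ≃+* F) (f : (Fin n → F) → (Fin n → F) → F), IsUnitaryForm σ f ∧
      H = similarityGroup f ⊓ specialLinear (Fin n) F) ∨
    (∃ Q : (Fin n → F) → F, IsNondegenerateQuadraticForm Q ∧ Odd (Fintype.card F) ∧
      H = quadSimilarityGroup Q ⊓ specialLinear (Fin n) F) ∨
    InLinearResidualClass H := by
  rcases Cfsg.Agent.Lib.Helper71.AschMain.main hn H with ⟨M, hM, hHM⟩ | hres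
  · rcases hM with ⟨W, h0, h1, rfl⟩ | ⟨W, U, h0, hWU, -, rfl⟩ | ⟨W, U, h0, hd, hs, hlt, rfl⟩ |
      ⟨t, m, D, hD, rfl⟩ | ⟨r, K, hr, hK, rfl⟩ | ⟨n₁, n₂, e, P, h2, hlt, rfl⟩ |
      ⟨F₀, r, P, hr, hcard, rfl⟩ | ⟨r, R, hR, rfl⟩ | ⟨m, t, e, P, hm, ht, rfl⟩ |
      ⟨f, hf, hev, -, rfl⟩ | ⟨σ, f, hf, -, rfl⟩ | ⟨Q, hQ, hoddq, -, rfl⟩
    · left
      exact ⟨W, h0, h1, eq_inf_of_maximal hH hHM
        (Cfsg.Agent.Lib.Helper35.SLPN1.N1 (by omega) W h0 h1)⟩
    · have h1 : W ≠ ⊤ := by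
        rintro rfl
        exact not_top_lt hWU
      left
      exact ⟨W, h0, h1, eq_inf_of_maximal hH (hHM.trans inf_le_left)
        (Cfsg.Agent.Lib.Helper35.SLPN1.N1 (by omega) W h0 h1)⟩
    · have h1 : W ≠ ⊤ := by
        rintro rfl
        have hU : U = ⊥ := by simpa using hd
        subst hU
        simp at hlt
      left
      exact ⟨W, h0, h1, eq_inf_of_maximal hH (hHM.trans inf_le_left)
        (Cfsg.Agent.Lib.Helper35.SLPN1.N1 (by omega) W h0 h1)⟩
    · right; left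
      exact ⟨t, m, D, hD, Cfsg.Agent.Lib.Helper73.SLPC2.C2 D hD, eq_inf_of_maximal hH hHM
        (Cfsg.Agent.Lib.Helper75.SLPN2.N2 (by omega) D hD)⟩
    · right; right; left
      exact ⟨r, K, hr, Cfsg.Agent.Lib.Helper16.SLPC3.C3 (by omega) r K hK, hK,
        eq_inf_of_maximal hH hHM (Cfsg.Agent.Lib.Helper64.SLPN3.N3 hn r hr K hK)⟩
    · right; right; right; left
      have hc : n = n₁ * n₂ := by simpa using Fintype.card_congr e
      exact ⟨n₁, n₂, e, P, h2, hlt, hc.symm, eq_inf_of_maximal hH hHM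
        (Cfsg.Agent.Lib.Helper65.SLCN47.N4 n₁ n₂ h2 (by omega) e P)⟩
    · have hF₀ : F₀ ≠ ⊤ := by
        rintro rfl
        have h1 : Nat.card (⊤ : Subfield F) = Fintype.card F := by
          rw [← Nat.card_eq_fintype_card]
          exact Nat.card_congr (Subfield.topEquiv (K := F)).toEquiv
        rw [h1] at hcard
        have h2 : 1 < Fintype.card F := Fintype.one_lt_card
        have h3 : Fintype.card F ^ 1 < Fintype.card F ^ r :=
          Nat.pow_lt_pow_right h2 hr.one_lt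
        rw [pow_one] at h3
        omega
      right; right; right; right; left
      exact ⟨F₀, r, P, hr, hcard, eq_inf_of_maximal hH hHM
        (Cfsg.Agent.Lib.Helper64.SLPN5.N5 (by omega) F₀ hF₀ P)⟩
    · right; right; right; right; right; left
      exact ⟨r, R, hR, Cfsg.Agent.Lib.Helper31.SLPC6.C6 hn r R hR, eq_inf_of_maximal hH hHM
        (Cfsg.Agent.Lib.Helper36.SLPN6.N6 hn r R hR)⟩
    · right; right; right; right; right; right; left
      have hc : n = m ^ t := by simpa using Fintype.card_congr e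
      exact ⟨m, t, e, P, hm, ht, hc.symm, eq_inf_of_maximal hH hHM
        (Cfsg.Agent.Lib.Helper65.SLCN47.N7 m t (by omega) ht e P)⟩
    · right; right; right; right; right; right; right; left
      exact ⟨f, hf, hev, eq_inf_of_maximal hH hHM (PN8s hn f hf)⟩
    · right; right; right; right; right; right; right; right; left
      exact ⟨σ, f, hf, eq_inf_of_maximal hH hHM
        (Cfsg.Agent.Lib.Helper36.SLPN8u.N8u hn σ f hf)⟩
    · right; right; right; right; right; right; right; right; right; left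
      exact ⟨Q, hQ, hoddq, eq_inf_of_maximal hH hHM
        (Cfsg.Agent.Lib.Helper8.SLPN8q.N8q hn Q hQ)⟩
  · right; right; right; right; right; right; right; right; right; right
    exact hres

/-! ## Small fields -/

/-- Frame stabilisers over fields with fewer than 5 elements. -/
theorem lines (hn : 3 ≤ n) (H : Subgroup (GL (Fin n) F))
    (hH : IsMaximalIn (specialLinear (Fin n) F) H) (D : Fin n → Submodule F (Fin n → F))
    (hD : IsMDecomposition 1 D) (hHD : H ≤ decompositionStabilizer D)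
    (hq : Fintype.card F < 5) :
    (∃ W : Submodule F (Fin n → F), W ≠ ⊥ ∧ W ≠ ⊤ ∧
      H = subspaceStabilizer W ⊓ specialLinear (Fin n) F) ∨
    (Odd (Fintype.card F) ∧ ∃ Q : (Fin n → F) → F, IsNondegenerateQuadraticForm Q ∧
      H = quadSimilarityGroup Q ⊓ specialLinear (Fin n) F) ∨
    (∃ (σ : F ≃+* F) (f : (Fin n → F) → (Fin n → F) → F), IsUnitaryForm σ f ∧
      H = similarityGroup f ⊓ specialLinear (Fin n) F) := by
  obtain ⟨P, hP⟩ := Cfsg.Agent.Lib.Helper31.SLPFR0.FR0 D hD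
  have hq2 : 1 < Fintype.card F := Fintype.one_lt_card
  have h234 : Fintype.card F = 2 ∨ Fintype.card F = 3 ∨ Fintype.card F = 4 := by omega
  rcases h234 with h2 | h3 | h4
  · obtain ⟨W, h0, h1, hle⟩ := Cfsg.Agent.Lib.Helper79.SLPFR2.FR2 (by omega) h2 P _ hP
    left
    exact ⟨W, h0, h1, eq_inf_of_maximal hH (hHD.trans hle)
      (Cfsg.Agent.Lib.Helper35.SLPN1.N1 (by omega) W h0 h1)⟩
  · obtain ⟨Q, hQ, hle⟩ := Cfsg.Agent.Lib.Helper79.SLPFR3.FR3 h3 P _ hP
    right; left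
    exact ⟨by rw [h3]; decide, Q, hQ, eq_inf_of_maximal hH (hHD.trans hle)
      (Cfsg.Agent.Lib.Helper8.SLPN8q.N8q hn Q hQ)⟩
  · obtain ⟨σ, f, hf, hle⟩ := Cfsg.Agent.Lib.Helper29.SLPFR4.FR4 h4 P _ hP
    right; right
    exact ⟨σ, f, hf, eq_inf_of_maximal hH (hHD.trans hle)
      (Cfsg.Agent.Lib.Helper36.SLPN8u.N8u hn σ f hf)⟩

end Cfsg.Agent.Lib.Helper65.SLCGen
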