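import Mathlib
import Cfsg.Prelude.Def_GeometricClasses
import Cfsg.Agent.Lib.Helper65.SLCGen
import Cfsg.Agent.Lib.Helper68.SLCD2q2
import Cfsg.Agent.Lib.Helper6.SLCT2q2
import Cfsg.Agent.Lib.Helper29.SLCC6ab
import Cfsg.Agent.Lib.Helper29.SLCC6dim

/-!
# Project SLC (helper65): second part of the generic assembly (pieces D2q2, T2q2, C6ab, C6dim)
-/

set_option autoImplicit false

namespace Cfsg.Agent.Lib.Helper65.SLCGen

open Matrix Cfsg.Geo Cfsg.Agent.Lib.Helper71.Asch Cfsg.Agent.Lib.Helper71.SLP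

variable {n : ℕ} {F : Type*} [Field F] [Fintype F]

/-! ## Pieces -/

theorem PD2q2 (hq : Fintype.card F = 2) {t : ℕ} (D : Fin t → Submodule F (Fin n → F))
    (hD : IsMDecomposition 2 D) :
    ∃ f : (Fin n → F) → (Fin n → F) → F, IsSymplecticForm f ∧
      decompositionStabilizer D ≤ similarityGroup f :=
  Cfsg.Agent.Lib.Helper68.SLCD2q2.D2q2 hq D hD

theorem PT2q2 (hn : 0 < n) (hq : Fintype.card F = 2) (n₂ : ℕ) (e : Fin n ≃ Fin 2 × Fin n₂)
    (P : GL (Fin n) F) :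
    ∃ K : Subalgebra F (Matrix (Fin n) (Fin n) F), IsFieldSubalgebra 2 K ∧
      tensorProductSubgroup 2 n₂ e P ≤ subalgebraNormalizer K :=
  Cfsg.Agent.Lib.Helper6.SLCT2q2.T2q2 hn hq n₂ e P

theorem PC6ab {G : Type*} [Group G] [Finite G] (r : ℕ) (hr : r.Prime) (hG : IsPGroup r G)
    (hcyc : ∀ A : Subgroup G, A.Characteristic → IsMulCommutative A → IsCyclic A)
    (hexp : Nat.card (Subgroup.center G) = Monoid.exponent G) :
    ∀ x y : G, x * y * x⁻¹ * y⁻¹ ∈ Subgroup.center G :=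
  Cfsg.Agent.Lib.Helper29.SLCC6ab.C6ab r hr hG hcyc hexp

theorem PC6dim (hn : 0 < n) (R : Subgroup (GL (Fin n) F))
    (habs : ActsAbsolutelyIrreducibly (matrixSet R))
    (hab : ∀ x y : R, x * y * x⁻¹ * y⁻¹ ∈ Subgroup.center R) :
    n ^ 2 * Nat.card (Subgroup.center R) = Nat.card R :=
  Cfsg.Agent.Lib.Helper29.SLCC6dim.C6dim hn R habs hab

/-! ## `C6pow` -/

/-- A symplectic-type class-6 group lives in prime-power dimension. -/
theorem C6pow (hn : 3 ≤ n) (r : ℕ) (R : Subgroup (GL (Fin n) F))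
    (hR : IsLinearSymplecticTypeData r R) : ∃ k : ℕ, n = r ^ k := by
  have hst := hR.symplecticType
  have hrp := hst.prime
  obtain ⟨p, e, hrp', hmin, hcase⟩ := hR.field
  have hexp := hst.exponent_eq
  rcases hcase with ⟨hodd, -, hc, m, -, hcard⟩ | ⟨h2, -, hc, -, m, hcard⟩ | ⟨-, -, h2, -⟩
  · have hg : Nat.gcd 2 r = 1 := by
      rw [Nat.coprime_primes Nat.prime_two hrp |>.mpr (by rintro rfl; exact (by decide : ¬ Odd 2) hodd)]
    rw [hg, mul_one] at hexp
    have hab := PC6ab r hrp hst.pGroup hst.cyclic_of_characteristic (by rw [hc, hexp])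
    have hdim := PC6dim (by omega) R hR.absIrred hab
    rw [hc, hcard] at hdim
    refine ⟨m, ?_⟩
    have h1 : n ^ 2 * r = (r ^ m) ^ 2 * r := by rw [hdim]; ring
    have h2 : n ^ 2 = (r ^ m) ^ 2 := Nat.eq_of_mul_eq_mul_right hrp.pos h1
    exact Nat.pow_left_injective (by norm_num : 2 ≠ 0) h2
  · subst h2
    have hg : Nat.gcd 2 2 = 2 := rfl
    rw [hg] at hexp
    have hab := PC6ab 2 hrp hst.pGroup hst.cyclic_of_characteristic (by rw [hc, hexp])
    have hdim := PC6dim (by omega) R hR.absIrred hab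
    rw [hc, hcard] at hdim
    refine ⟨m, ?_⟩
    have h1 : n ^ 2 * 4 = (2 ^ m) ^ 2 * 4 := by rw [hdim]; ring
    have h2 : n ^ 2 = (2 ^ m) ^ 2 := Nat.eq_of_mul_eq_mul_right (by norm_num) h1
    exact Nat.pow_left_injective (by norm_num : 2 ≠ 0) h2
  · simp at h2
    omega

/-- Decompositions into planes over `F_2`. -/
theorem planes2 (hn : 3 ≤ n) (H : Subgroup (GL (Fin n) F))
    (hH : IsMaximalIn (specialLinear (Fin n) F) H) {t : ℕ} (D : Fin t → Submodule F (Fin n → F))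
    (hD : IsMDecomposition 2 D) (hHD : H ≤ decompositionStabilizer D)
    (hq : Fintype.card F = 2) :
    ∃ f : (Fin n → F) → (Fin n → F) → F, IsSymplecticForm f ∧
      H = similarityGroup f ⊓ specialLinear (Fin n) F := by
  obtain ⟨f, hf, hle⟩ := PD2q2 hq D hD
  exact ⟨f, hf, eq_inf_of_maximal hH (hHD.trans hle) (PN8s hn f hf)⟩

/-- Tensor decompositions `2 ⊗ k` over `F_2`. -/
theorem tens2 (hn : 3 ≤ n) (H : Subgroup (GL (Fin n) F))
    (hH : IsMaximalIn (specialLinear (Fin n) F) H) (n₂ : ℕ) (e : Fin n ≃ Fin 2 × Fin n₂)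
    (P : GL (Fin n) F) (hHT : H ≤ tensorProductSubgroup 2 n₂ e P) (hq : Fintype.card F = 2) :
    ∃ K : Subalgebra F (Matrix (Fin n) (Fin n) F), IsFieldSubalgebra 2 K ∧
      H = subalgebraNormalizer K ⊓ specialLinear (Fin n) F := by
  obtain ⟨K, hK, hle⟩ := PT2q2 (by omega) hq n₂ e P
  exact ⟨K, hK, eq_inf_of_maximal hH (hHT.trans hle)
    (Cfsg.Agent.Lib.Helper64.SLPN3.N3 hn 2 Nat.prime_two K hK)⟩

end Cfsg.Agent.Lib.Helper65.SLCGen
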