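import Mathlib
import Cfsg.Prelude.Def_GeometricClasses
import Cfsg.Agent.Lib.Helper65.FR5Defs
import Cfsg.Agent.Lib.Helper65.FR5N
import Cfsg.Agent.Lib.Helper65.FR5AI
import Cfsg.Agent.Lib.Helper65.FR5CENTb
import Cfsg.Agent.Lib.Helper65.FR5EXP
import Cfsg.Agent.Lib.Helper65.FR5COMM
import Cfsg.Agent.Lib.Helper65.FR5CH
import Cfsg.Agent.Lib.Helper65.FR5T1a
import Cfsg.Agent.Lib.Helper65.FR5T1b
import Cfsg.Agent.Lib.Helper65.SLCGen2

/-!
# Project FR5 (helper65): the frame stabiliser of `SL_4(5)` lies in the normaliser of `4 ∘ 2^{1+4}`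
-/

set_option autoImplicit false

namespace Cfsg.Agent.Lib.Helper65.FR5

open Matrix Cfsg.Geo

variable {F : Type*} [Field F] [Fintype F]

/-- The standard group `R0` is a class-6 datum over the field with five elements. -/
theorem R0_data (hq : Fintype.card F = 5) (P : GL (Fin 4) F) :
    IsLinearSymplecticTypeData 2 ((R0 F).map (MulAut.conj P).toMonoidHom) := by
  have h2 : (2 : F) ≠ 0 := two_ne_zero_of_card hq
  have e : R0 F ≃* (R0 F).map (MulAut.conj P).toMonoidHom := (MulAut.conj P).subgroupMap (R0 F)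
  obtain ⟨hexp, hpg⟩ := EXP (F := F) hq
  obtain ⟨hcen, hcyc⟩ := CENTb (F := F) hq
  have hst : IsSymplecticTypeGroup 2 (R0 F) := ⟨Nat.prime_two, hpg, CH hq, by rw [hexp]; rfl⟩
  have hcard : Nat.card (R0 F) = 64 := by
    have h := Cfsg.Agent.Lib.Helper65.SLCGen.PC6dim (by norm_num : 0 < 4) (R0 F) (AI h2) (COMM h2)
    rw [hcen] at h
    rw [← h]
    norm_num
  have hcen' : Nat.card (Subgroup.center ((R0 F).map (MulAut.conj P).toMonoidHom)) = 4 := by
    exact (Nat.card_congr (Subgroup.centerCongr e).symm.toEquiv).trans hcen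
  have hcard' : Nat.card ((R0 F).map (MulAut.conj P).toMonoidHom) = 64 := by
    exact (Nat.card_congr e.symm.toEquiv).trans hcard
  haveI : Fact (Nat.Prime 5) := ⟨Nat.prime_five⟩
  have hchar : CharP F 5 := charP_of_card_eq_prime hq
  refine ⟨T1a 2 _ _ e hst, T1b _ P (AI h2), 5, 1, by norm_num, ?_, ?_⟩
  · refine ⟨Nat.prime_five, hchar, by rw [hq]; norm_num, by rw [hcen']; norm_num, ?_⟩
    intro d hd hd1
    omega
  · right; left
    exact ⟨rfl, rfl, hcen', by simp, 2, by rw [hcard']; norm_num⟩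

/-- FR5: over the field with five elements, the determinant-one part of a frame stabiliser of
`GL_4` normalises a symplectic-type group `4 ∘ 2^{1+4}`. -/
theorem FR5 (hq : Fintype.card F = 5) (P : GL (Fin 4) F) (G : Subgroup (GL (Fin 4) F))
    (hG : ∀ g ∈ G, ∃ (σ : Equiv.Perm (Fin 4)) (c : Fin 4 → F), (∀ j, c j ≠ 0) ∧
      (P⁻¹ : GL (Fin 4) F).1 * g.1 * P.1 = Matrix.of fun i j => if i = σ j then c j else 0) :
    ∃ R : Subgroup (GL (Fin 4) F), IsLinearSymplecticTypeData 2 R ∧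
      G ⊓ specialLinear (Fin 4) F ≤ subgroupNormalizer R := by
  refine ⟨(R0 F).map (MulAut.conj P).toMonoidHom, R0_data hq P, ?_⟩
  rintro g ⟨hgG, hgS⟩
  obtain ⟨σ, c, hc, hmat⟩ := hG g hgG
  have hdet : g.1.det = 1 := by
    have h := (MonoidHom.mem_ker).mp hgS
    have h' := congrArg (fun u : Fˣ => (u : F)) h
    simpa using h'
  have hprod : (∏ j, c j) ^ 2 = 1 := by
    rw [← det_mono_sq σ c]
    have h1 : (mono σ c).det = 1 := by
      have h2 : mono σ c = (P⁻¹ : GL (Fin 4) F).1 * g.1 * P.1 := hmat.symm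
      rw [h2, Matrix.det_mul, Matrix.det_mul, hdet, mul_one, ← Matrix.det_mul, ← Units.val_mul,
        inv_mul_cancel, Units.val_one, Matrix.det_one]
    rw [h1, one_pow]
  have hN : P⁻¹ * g * P ∈ Subgroup.normalizer ((R0 F : Subgroup (GL (Fin 4) F)) : Set (GL (Fin 4) F)) :=
    N hq (P⁻¹ * g * P) σ c hc (by rw [Units.val_mul, Units.val_mul]; exact hmat) hprod
  unfold subgroupNormalizer
  rw [← Subgroup.map_equiv_normalizer_eq]
  refine ⟨P⁻¹ * g * P, hN, ?_⟩
  show P * (P⁻¹ * g * P) * P⁻¹ = g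
  group

end Cfsg.Agent.Lib.Helper65.FR5
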