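import Mathlib
import Cfsg.Agent.Lib.Helper96.OrthFull

/-!
Overgroups of the unitary group `GU_{n/2}(q)` inside `Ω_n(q)`, part A.

A quadratic extension `K = F[θ]` acts on the quadratic space and `Q` is a norm form for it
(`GUData`).  The unitary transvections are the Eichler transformations `ρ_{u, c θ u}`.  For a
subgroup `M` containing all of them, `Line Q M a w` says that the root group `{ρ_{a, c w}}` lies in
`M`; the main result `GUData.ga` shows that one extra line `Line a b` with `b` in the `K`-orthogonal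
of `a` but outside `K a` forces `Line a x` for all `x` in the `K`-orthogonal of `a`.
-/

set_option autoImplicit false
set_option linter.unusedSectionVars false
set_option linter.unusedVariables false

namespace Cfsg.Agent.Lib.Helper65

open Module QuadraticMap
open scoped Matrix
open Cfsg.Agent.Lib.Helper51 Cfsg.Agent.Lib.Helper52 Cfsg.Agent.Lib.Helper96

section GU

variable {ι : Type} [Fintype ι] [DecidableEq ι] {F : Type*} [Field F]

/-- A quadratic field `F[θ]` (with `θ² = τ θ - ν`, no root in `F`) acting on the quadratic space,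
with adjoint `τ - θ` and `Q` multiplied by the norm. -/
structure GUData (Q : QuadraticForm F (ι → F)) (θ : Matrix ι ι F) (τ ν : F) : Prop where
  sq : ∀ x : ι → F, θ *ᵥ (θ *ᵥ x) = τ • θ *ᵥ x - ν • x
  adj : ∀ u v : ι → F, polar ⇑Q (θ *ᵥ u) v = τ * polar ⇑Q u v - polar ⇑Q u (θ *ᵥ v)
  norm : ∀ v : ι → F, Q (θ *ᵥ v) = ν * Q v
  self : ∀ v : ι → F, polar ⇑Q v (θ *ᵥ v) = τ * Q v
  irr : ∀ c : F, c * c - τ * c + ν ≠ 0

/-- The `K`-line of `a`: the span of `a` and `θ a`. -/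
def KS (θ : Matrix ι ι F) (a : ι → F) : Submodule F (ι → F) := Submodule.span F {a, θ *ᵥ a}

/-- A subspace stable under `θ`. -/
def ThStab (θ : Matrix ι ι F) (S : Submodule F (ι → F)) : Prop := ∀ x ∈ S, θ *ᵥ x ∈ S

/-- `x` is `K`-orthogonal to `a`. -/
def KO (Q : QuadraticForm F (ι → F)) (θ : Matrix ι ι F) (a x : ι → F) : Prop :=
  polar ⇑Q a x = 0 ∧ polar ⇑Q (θ *ᵥ a) x = 0

variable {Q : QuadraticForm F (ι → F)} {θ : Matrix ι ι F} {τ ν : F}

theorem mem_KS {a x : ι → F} : x ∈ KS θ a ↔ ∃ α β : F, α • a + β • θ *ᵥ a = x :=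
  Submodule.mem_span_pair

theorem self_mem_KS (a : ι → F) : a ∈ KS θ a := Submodule.subset_span (by simp)

theorem theta_mem_KS (a : ι → F) : θ *ᵥ a ∈ KS θ a := Submodule.subset_span (by simp)

theorem finrank_KS_le (a : ι → F) : finrank F (KS θ a) ≤ 2 := finrank_span_pair_le _ _

theorem ThStab.sup {S T : Submodule F (ι → F)} (hS : ThStab θ S) (hT : ThStab θ T) :
    ThStab θ (S ⊔ T) := by
  intro x hx
  obtain ⟨s, hs, t, ht, rfl⟩ := Submodule.mem_sup.mp hx
  rw [Matrix.mulVec_add]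
  exact Submodule.add_mem_sup (hS s hs) (hT t ht)

theorem thStab_bot : ThStab θ (⊥ : Submodule F (ι → F)) := by
  intro x hx
  rw [Submodule.mem_bot] at hx
  rw [hx, Matrix.mulVec_zero]
  exact Submodule.zero_mem _

theorem KS_le {S : Submodule F (ι → F)} (hS : ThStab θ S) {x : ι → F} (hx : x ∈ S) :
    KS θ x ≤ S := by
  rw [KS, Submodule.span_le]
  intro y hy
  rcases hy with rfl | rfl
  · exact hx
  · exact hS _ hx

namespace GUData

variable (kd : GUData Q θ τ ν)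
include kd

theorem adj' (u v : ι → F) :
    polar ⇑Q u (θ *ᵥ v) = τ * polar ⇑Q u v - polar ⇑Q (θ *ᵥ u) v := by
  rw [kd.adj]; ring

theorem polar_tt (u v : ι → F) : polar ⇑Q (θ *ᵥ u) (θ *ᵥ v) = ν * polar ⇑Q u v := by
  rw [kd.adj, kd.sq, polar_sub_right, polar_smul_right, polar_smul_right]
  simp only [smul_eq_mul]
  ring

theorem thStab_KS (a : ι → F) : ThStab θ (KS θ a) := by
  intro x hx
  obtain ⟨α, β, rfl⟩ := mem_KS.mp hx
  rw [Matrix.mulVec_add, Matrix.mulVec_smul, Matrix.mulVec_smul, kd.sq]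
  refine mem_KS.mpr ⟨-(β * ν), α + β * τ, ?_⟩
  module

theorem mem_of_sub_mem {S : Submodule F (ι → F)} (hS : ThStab θ S) (c : F) {x : ι → F}
    (h : θ *ᵥ x - c • x ∈ S) : x ∈ S := by
  have hN := kd.irr c
  have e : x = (c * c - τ * c + ν)⁻¹ •
      ((τ - c) • (θ *ᵥ x - c • x) - θ *ᵥ (θ *ᵥ x - c • x)) := by
    rw [Matrix.mulVec_sub, Matrix.mulVec_smul, kd.sq]
    have : (τ - c) • (θ *ᵥ x - c • x) - (τ • θ *ᵥ x - ν • x - c • θ *ᵥ x)
        = (c * c - τ * c + ν) • x := by module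
    rw [this, smul_smul, inv_mul_cancel₀ hN, one_smul]
  rw [e]
  exact S.smul_mem _ (S.sub_mem (S.smul_mem _ h) (hS _ h))

theorem theta_ne_smul {a : ι → F} (ha : a ≠ 0) (c : F) : θ *ᵥ a ≠ c • a := by
  intro h
  apply ha
  have := kd.mem_of_sub_mem thStab_bot c (x := a) (by rw [h, sub_self]; exact Submodule.zero_mem _)
  rwa [Submodule.mem_bot] at this

theorem coeff_zero {a : ι → F} (ha : a ≠ 0) {c₁ c₂ : F} (h : c₁ • a + c₂ • θ *ᵥ a = 0) :
    c₁ = 0 ∧ c₂ = 0 := by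
  by_cases h2 : c₂ = 0
  · subst h2
    rw [zero_smul, add_zero] at h
    exact ⟨(smul_eq_zero.mp h).resolve_right ha, rfl⟩
  · exfalso
    apply kd.theta_ne_smul ha (-(c₂⁻¹ * c₁))
    have : θ *ᵥ a = c₂⁻¹ • (c₁ • a + c₂ • θ *ᵥ a) - (c₂⁻¹ * c₁) • a := by
      rw [smul_add, smul_smul, smul_smul, inv_mul_cancel₀ h2, one_smul]
      abel
    rw [this, h, smul_zero, zero_sub, neg_smul]

theorem mem_KS_symm {a x : ι → F} (hx : x ∈ KS θ a) (hx0 : x ≠ 0) : a ∈ KS θ x := by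
  obtain ⟨α, β, rfl⟩ := mem_KS.mp hx
  have hN : α * α + α * β * τ + β * β * ν ≠ 0 := by
    by_cases hβ : β = 0
    · subst hβ
      have hα : α ≠ 0 := by
        rintro rfl
        apply hx0
        simp
      simpa using hα
    · have h1 := kd.irr (-(α / β))
      intro h0
      apply h1
      field_simp
      linear_combination h0
  have e : a = (α * α + α * β * τ + β * β * ν)⁻¹ •
      ((α + β * τ) • (α • a + β • θ *ᵥ a) - β • θ *ᵥ (α • a + β • θ *ᵥ a)) := by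
    rw [Matrix.mulVec_add, Matrix.mulVec_smul, Matrix.mulVec_smul, kd.sq]
    have : (α + β * τ) • (α • a + β • θ *ᵥ a) - β • (α • θ *ᵥ a + β • (τ • θ *ᵥ a - ν • a))
        = (α * α + α * β * τ + β * β * ν) • a := by module
    rw [this, smul_smul, inv_mul_cancel₀ hN, one_smul]
  have hmem : (α * α + α * β * τ + β * β * ν)⁻¹ •
      ((α + β * τ) • (α • a + β • θ *ᵥ a) - β • θ *ᵥ (α • a + β • θ *ᵥ a))
        ∈ KS θ (α • a + β • θ *ᵥ a) :=
    Submodule.smul_mem _ _ (Submodule.sub_mem _ (Submodule.smul_mem _ _ (self_mem_KS _))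
      (Submodule.smul_mem _ _ (theta_mem_KS _)))
  rwa [← e] at hmem

theorem Q_theta {a : ι → F} (ha : Q a = 0) : Q (θ *ᵥ a) = 0 := by
  rw [kd.norm, ha, mul_zero]

theorem polar_self_theta {a : ι → F} (ha : Q a = 0) : polar ⇑Q a (θ *ᵥ a) = 0 := by
  rw [kd.self, ha, mul_zero]

theorem Q_of_mem_KS {a x : ι → F} (ha : Q a = 0) (hx : x ∈ KS θ a) : Q x = 0 :=
  Q_span_pair_eq_zero Q a (θ *ᵥ a) ha (kd.Q_theta ha) (kd.polar_self_theta ha) x hx

theorem KO_symm {a x : ι → F} (h : KO Q θ a x) : KO Q θ x a := by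
  refine ⟨by rw [polar_comm]; exact h.1, ?_⟩
  rw [kd.adj, polar_comm ⇑Q x a, h.1, polar_comm ⇑Q x (θ *ᵥ a), h.2]
  ring

theorem KO_theta {a x : ι → F} (h : KO Q θ a x) : KO Q θ a (θ *ᵥ x) := by
  refine ⟨?_, ?_⟩
  · rw [kd.adj', h.1, h.2]; ring
  · rw [kd.polar_tt, h.1, mul_zero]

theorem KO_self {a : ι → F} (ha : Q a = 0) : KO Q θ a a := by
  refine ⟨?_, ?_⟩
  · rw [Cfsg.Agent.Lib.Helper51.polar_self, ha, mul_zero]
  · rw [polar_comm, kd.self, ha, mul_zero]

omit kd in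
theorem KO_add {a x y : ι → F} (hx : KO Q θ a x) (hy : KO Q θ a y) : KO Q θ a (x + y) :=
  ⟨by rw [polar_add_right, hx.1, hy.1, add_zero], by rw [polar_add_right, hx.2, hy.2, add_zero]⟩

omit kd in
theorem KO_smul {a x : ι → F} (hx : KO Q θ a x) (c : F) : KO Q θ a (c • x) :=
  ⟨by rw [polar_smul_right, hx.1, smul_zero], by rw [polar_smul_right, hx.2, smul_zero]⟩

omit kd in
theorem KO_sub {a x y : ι → F} (hx : KO Q θ a x) (hy : KO Q θ a y) : KO Q θ a (x - y) :=
  ⟨by rw [polar_sub_right, hx.1, hy.1, sub_zero], by rw [polar_sub_right, hx.2, hy.2, sub_zero]⟩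

theorem KO_of_mem {a x y : ι → F} (h : KO Q θ a x) (hy : y ∈ KS θ x) : KO Q θ a y := by
  obtain ⟨α, β, rfl⟩ := mem_KS.mp hy
  exact KO_add (KO_smul h α) (KO_smul (kd.KO_theta h) β)

theorem KO_left_of_mem {a x a' : ι → F} (h : KO Q θ a x) (ha' : a' ∈ KS θ a) : KO Q θ a' x :=
  kd.KO_symm (kd.KO_of_mem (kd.KO_symm h) ha')

end GUData

/-! ### Geometry -/

/-- A vector orthogonal to a subspace and to neither of two vectors outside it. -/
theorem exists_orth_two_ne (hQ : (polarBilin Q).Nondegenerate) (p : Submodule F (ι → F))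
    (r₁ r₂ : ι → F) (h₁ : r₁ ∉ p) (h₂ : r₂ ∉ p) :
    ∃ v, (∀ w ∈ p, polar ⇑Q v w = 0) ∧ polar ⇑Q v r₁ ≠ 0 ∧ polar ⇑Q v r₂ ≠ 0 := by
  obtain ⟨x₀, hx₀, hx₀p⟩ := exists_polar_sep Q hQ p r₁ h₁
  obtain ⟨x₁, hx₁, hx₁p⟩ := exists_polar_sep Q hQ p r₂ h₂
  by_cases h1 : polar ⇑Q x₀ r₂ = 0
  · by_cases h2 : polar ⇑Q x₁ r₁ = 0
    · refine ⟨x₀ + x₁, fun w hw => ?_, ?_, ?_⟩
      · rw [polar_add_left, hx₀p w hw, hx₁p w hw, add_zero]
      · rw [polar_add_left, hx₀, h2, add_zero]; exact one_ne_zero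
      · rw [polar_add_left, hx₁, h1, zero_add]; exact one_ne_zero
    · exact ⟨x₁, hx₁p, h2, by rw [hx₁]; exact one_ne_zero⟩
  · exact ⟨x₀, hx₀p, by rw [hx₀]; exact one_ne_zero, h1⟩

/-- A singular vector in `U` outside `A`, when `U` is at least three dimensions larger. -/
theorem exists_singular_mem_not_mem [Fintype F] (Q : QuadraticForm F (ι → F))
    (A U : Submodule F (ι → F)) (h : finrank F A + 3 ≤ finrank F U) :
    ∃ z ∈ U, z ∉ A ∧ Q z = 0 := by
  obtain ⟨C, hC⟩ := Submodule.exists_isCompl (A ⊓ U)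
  have hU : U = (A ⊓ U) ⊔ (C ⊓ U) := by
    have := sup_inf_assoc_of_le C (inf_le_right : A ⊓ U ≤ U)
    rw [hC.sup_eq_top, top_inf_eq] at this
    exact this
  have h1 : finrank F U ≤ finrank F ↥(A ⊓ U) + finrank F ↥(C ⊓ U) := by
    conv_lhs => rw [hU]
    exact Submodule.finrank_add_le_finrank_add_finrank _ _
  have h2 : finrank F ↥(A ⊓ U) ≤ finrank F A := Submodule.finrank_mono inf_le_left
  obtain ⟨z, hz, hz0, hQz⟩ := exists_singular_of_finrank Q (C ⊓ U) (by omega)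
  refine ⟨z, hz.2, fun hzA => hz0 ?_, hQz⟩
  have : z ∈ (A ⊓ U) ⊓ C := ⟨⟨hzA, hz.2⟩, hz.1⟩
  rw [hC.inf_eq_bot, Submodule.mem_bot] at this
  exact this

/-! ### Root groups in `M` -/

/-- The root group `{ρ_{a, c w}}` lies in `M`. -/
def Line (Q : QuadraticForm F (ι → F)) (M : Subgroup ↥(Cfsg.isometryGroup F ⇑Q))
    (a w : ι → F) : Prop := ∀ c : F, InM Q M a (c • w)

variable {M : Subgroup ↥(Cfsg.isometryGroup F ⇑Q)}

local notation "mt(" g ")" => ((g : Matrix.GeneralLinearGroup ι F) : Matrix ι ι F)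

theorem Line.inM {a w : ι → F} (h : Line Q M a w) : InM Q M a w := by
  simpa using h 1

theorem Line.add {a w w' : ι → F} (h : Line Q M a w) (h' : Line Q M a w') :
    Line Q M a (w + w') := by
  intro c
  rw [smul_add]
  exact (h c).add (h' c)

theorem Line.smul {a w : ι → F} (h : Line Q M a w) (d : F) : Line Q M a (d • w) := by
  intro c
  rw [smul_smul]
  exact h (c * d)

theorem Line.sub {a w w' : ι → F} (h : Line Q M a w) (h' : Line Q M a w') :
    Line Q M a (w - w') := by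
  intro c
  rw [smul_sub]
  exact (h c).sub (h' c)

theorem Line.swap {a w : ι → F} (h : Line Q M a w) (hw : Q w = 0) : Line Q M w a := by
  intro c
  have h1 := (h c).swap (by rw [QuadraticMap.map_smul, hw, smul_zero])
  have h2 := (h1.smul_left hw).neg
  rwa [smul_neg, neg_neg] at h2

theorem Line.conj {a w : ι → F} (h : Line Q M a w) {g : ↥(Cfsg.isometryGroup F ⇑Q)}
    (hg : g ∈ M) : Line Q M (mt(g) *ᵥ a) (mt(g) *ᵥ w) := by
  intro c
  have := (h c).conj hg
  rwa [Matrix.mulVec_smul] at this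

theorem Line.self {a : ι → F} (ha : Q a = 0) : Line Q M a a := by
  intro c
  have hp : polar ⇑Q a (c • a) = 0 := by
    rw [polar_smul_right, Cfsg.Agent.Lib.Helper51.polar_self, ha, mul_zero, smul_zero]
  refine ⟨ha, hp, ?_⟩
  rw [eich_eq_one_of_mem_span Q a (c • a) ha hp
    (Submodule.smul_mem _ _ (Submodule.mem_span_singleton_self a))]
  exact M.one_mem

theorem Line.of_full {a w : ι → F} (h : Full Q M a) (hw : polar ⇑Q a w = 0) : Line Q M a w := by
  intro c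
  exact h.2 _ (by rw [polar_smul_right, hw, smul_zero])

namespace GUData

variable (kd : GUData Q θ τ ν)
include kd

/-- Conjugating by the unitary transvection at `y`. -/
theorem line_delta (hM : ∀ u : ι → F, Q u = 0 → Line Q M u (θ *ᵥ u)) {a w y : ι → F}
    (hL : Line Q M a w) (hy : Q y = 0) (hay : KO Q θ a y) :
    Line Q M a (polar ⇑Q (θ *ᵥ y) w • y - polar ⇑Q y w • θ *ᵥ y) := by
  intro c
  have hθy : Q (θ *ᵥ y) = 0 := kd.Q_theta hy
  obtain ⟨hy', hyθ, hT⟩ := (hM y hy).inM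
  have h1 := (hL c).conj hT
  rw [coe_eich, eichMat_mulVec, eichMat_mulVec] at h1
  have hya : polar ⇑Q y a = 0 := by rw [polar_comm]; exact hay.1
  have hθya : polar ⇑Q (θ *ᵥ y) a = 0 := (kd.KO_symm hay).2
  have e1 : a + polar ⇑Q (θ *ᵥ y) a • y - polar ⇑Q y a • θ *ᵥ y
      - (Q (θ *ᵥ y) * polar ⇑Q y a) • y = a := by
    rw [hya, hθya]; simp
  have e2 : c • w + polar ⇑Q (θ *ᵥ y) (c • w) • y - polar ⇑Q y (c • w) • θ *ᵥ y
      - (Q (θ *ᵥ y) * polar ⇑Q y (c • w)) • y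
      = c • w + c • (polar ⇑Q (θ *ᵥ y) w • y - polar ⇑Q y w • θ *ᵥ y) := by
    rw [hθy, polar_smul_right, polar_smul_right]
    simp only [smul_eq_mul, zero_mul, zero_smul, sub_zero]
    module
  rw [e1, e2] at h1
  have h2 := h1.sub (hL c)
  rwa [add_sub_cancel_left] at h2

theorem line_step (hM : ∀ u : ι → F, Q u = 0 → Line Q M u (θ *ᵥ u)) {a w z : ι → F}
    (hL : Line Q M a w) (hz : Q z = 0) (haz : KO Q θ a z)
    (hzw : polar ⇑Q z w = 0) (hθzw : polar ⇑Q (θ *ᵥ z) w ≠ 0) : Line Q M a z := by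
  have h := kd.line_delta hM hL hz haz
  rw [hzw, zero_smul, sub_zero] at h
  have h2 := h.smul (polar ⇑Q (θ *ᵥ z) w)⁻¹
  rwa [smul_smul, inv_mul_cancel₀ hθzw, one_smul] at h2

end GUData

end GU

end Cfsg.Agent.Lib.Helper65
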