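import Mathlib
import Cfsg.Agent.Lib.Helper65.GUMaxA

/-!
Overgroups of the unitary group `GU_{n/2}(q)` inside `Ω_n(q)`, part B: a subgroup `M` containing
the unitary transvections and an isometry which does not normalise `F[θ]` contains `Ω`.
-/

set_option autoImplicit false
set_option linter.unusedSectionVars false
set_option linter.unusedVariables false

namespace Cfsg.Agent.Lib.Helper65

open Module QuadraticMap
open scoped Matrix
open Cfsg.Agent.Lib.Helper51 Cfsg.Agent.Lib.Helper52 Cfsg.Agent.Lib.Helper96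

section GUB

variable {ι : Type} [Fintype ι] [DecidableEq ι] {F : Type*} [Field F] [Fintype F]
variable {Q : QuadraticForm F (ι → F)} {θ : Matrix ι ι F} {τ ν : F}
variable {M : Subgroup ↥(Cfsg.isometryGroup F ⇑Q)}

local notation "mt(" g ")" => ((g : Matrix.GeneralLinearGroup ι F) : Matrix ι ι F)

/-- A singular vector orthogonal to the finite set `S` and outside the subspace `A`. -/
theorem exists_singular_orth_not_mem (hQ : (polarBilin Q).Nondegenerate) (S : Finset (ι → F))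
    (A : Submodule F (ι → F)) (h : finrank F A + S.card + 3 ≤ Fintype.card ι) :
    ∃ z, (∀ s ∈ S, polar ⇑Q s z = 0) ∧ z ∉ A ∧ Q z = 0 := by
  have h1 := finrank_orth_span_ge Q hQ S
  obtain ⟨z, hzU, hzA, hQz⟩ := exists_singular_mem_not_mem Q A
    (LinearMap.BilinForm.orthogonal (polarBilin Q) (Submodule.span F (S : Set (ι → F))))
    (by omega)
  exact ⟨z, fun s hs => (mem_orth_span Q _ z).mp hzU s (by exact_mod_cast hs), hzA, hQz⟩

namespace GUData

variable (kd : GUData Q θ τ ν)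
include kd

theorem ga_step (hQ : (polarBilin Q).Nondegenerate)
    (hM : ∀ u : ι → F, Q u = 0 → Line Q M u (θ *ᵥ u)) {a w z : ι → F}
    (ha : Q a = 0) (hw : Q w = 0) (hz : Q z = 0) (haw : KO Q θ a w) (haz : KO Q θ a z)
    (hwz : KO Q θ w z) (hwK : w ∉ KS θ a) (hzK : z ∉ KS θ a ⊔ KS θ w) (hL : Line Q M a w) :
    Line Q M a z := by
  have hstab : ThStab θ (KS θ a ⊔ KS θ w) := (kd.thStab_KS a).sup (kd.thStab_KS w)
  have h1 : τ • w - θ *ᵥ w ∉ KS θ a ⊔ Submodule.span F {w, z} := by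
    intro hmem
    have hwp : w ∈ KS θ a ⊔ Submodule.span F {w, z} :=
      Submodule.mem_sup_right (Submodule.subset_span (by simp))
    have hθw : θ *ᵥ w ∈ KS θ a ⊔ Submodule.span F {w, z} := by
      have := Submodule.sub_mem _ (Submodule.smul_mem _ τ hwp) hmem
      rwa [sub_sub_cancel] at this
    obtain ⟨s, hs, t, ht, hst⟩ := Submodule.mem_sup.mp hθw
    obtain ⟨c₃, c₄, rfl⟩ := Submodule.mem_span_pair.mp ht
    by_cases hc : c₄ = 0
    · subst hc
      apply hwK
      apply kd.mem_of_sub_mem (kd.thStab_KS a) c₃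
      have : θ *ᵥ w - c₃ • w = s := by rw [← hst]; module
      rw [this]; exact hs
    · apply hzK
      have : z = c₄⁻¹ • (θ *ᵥ w - s - c₃ • w) := by
        rw [← hst]
        have : s + (c₃ • w + c₄ • z) - s - c₃ • w = c₄ • z := by abel
        rw [this, smul_smul, inv_mul_cancel₀ hc, one_smul]
      rw [this]
      refine Submodule.smul_mem _ _ (Submodule.sub_mem _ (Submodule.sub_mem _ ?_ ?_) ?_)
      · exact Submodule.mem_sup_right (theta_mem_KS w)
      · exact Submodule.mem_sup_left hs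
      · exact Submodule.mem_sup_right (Submodule.smul_mem _ _ (self_mem_KS w))
  have h2 : θ *ᵥ z ∉ KS θ a ⊔ Submodule.span F {w, z} := by
    intro hmem
    obtain ⟨s, hs, t, ht, hst⟩ := Submodule.mem_sup.mp hmem
    obtain ⟨c₃, c₄, rfl⟩ := Submodule.mem_span_pair.mp ht
    apply hzK
    apply kd.mem_of_sub_mem hstab c₄
    have : θ *ᵥ z - c₄ • z = s + c₃ • w := by rw [← hst]; abel
    rw [this]
    exact Submodule.add_mem_sup hs (Submodule.smul_mem _ _ (self_mem_KS w))
  obtain ⟨v, hvp, hv1, hv2⟩ := exists_orth_two_ne hQ _ _ _ h1 h2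
  have hva : polar ⇑Q v a = 0 := hvp a (Submodule.mem_sup_left (self_mem_KS a))
  have hvθa : polar ⇑Q v (θ *ᵥ a) = 0 := hvp _ (Submodule.mem_sup_left (theta_mem_KS a))
  have hvw : polar ⇑Q v w = 0 :=
    hvp w (Submodule.mem_sup_right (Submodule.subset_span (by simp)))
  have hvz : polar ⇑Q v z = 0 :=
    hvp z (Submodule.mem_sup_right (Submodule.subset_span (by simp)))
  have hr₁K : τ • w - θ *ᵥ w ∈ KS θ w :=
    Submodule.sub_mem _ (Submodule.smul_mem _ _ (self_mem_KS w)) (theta_mem_KS w)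
  generalize hr₁ : τ • w - θ *ᵥ w = r₁ at hv1 hr₁K
  have hQr₁ : Q r₁ = 0 := kd.Q_of_mem_KS hw hr₁K
  have har₁ : KO Q θ a r₁ := kd.KO_of_mem haw hr₁K
  have hwr₁ : KO Q θ w r₁ := kd.KO_of_mem (kd.KO_self hw) hr₁K
  have hzr₁ : KO Q θ z r₁ := kd.KO_of_mem (kd.KO_symm hwz) hr₁K
  have hβ : polar ⇑Q r₁ v ≠ 0 := by rw [polar_comm]; exact hv1
  have hQx : Q (v - (Q v / polar ⇑Q r₁ v) • r₁) = 0 := by
    rw [Q_sub_smul', hQr₁]
    field_simp
    ring
  generalize hx : v - (Q v / polar ⇑Q r₁ v) • r₁ = x at hQx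
  have hxa : polar ⇑Q a x = 0 := by
    rw [← hx, polar_sub_right, polar_smul_right, har₁.1, smul_zero, sub_zero, polar_comm]
    exact hva
  have hxθa : polar ⇑Q (θ *ᵥ a) x = 0 := by
    rw [← hx, polar_sub_right, polar_smul_right, har₁.2, smul_zero, sub_zero, polar_comm]
    exact hvθa
  have hxw : polar ⇑Q x w = 0 := by
    rw [polar_comm, ← hx, polar_sub_right, polar_smul_right, hwr₁.1, smul_zero, sub_zero,
      polar_comm]
    exact hvw
  have hxz : polar ⇑Q z x = 0 := by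
    rw [← hx, polar_sub_right, polar_smul_right, hzr₁.1, smul_zero, sub_zero, polar_comm]
    exact hvz
  have hxr₁ : polar ⇑Q x r₁ ≠ 0 := by
    rw [polar_comm, ← hx, polar_sub_right, polar_smul_right,
      Cfsg.Agent.Lib.Helper51.polar_self, hQr₁, mul_zero, smul_zero, sub_zero]
    exact hβ
  have hxθz : polar ⇑Q (θ *ᵥ z) x ≠ 0 := by
    rw [← hx, polar_sub_right, polar_smul_right, hzr₁.2, smul_zero, sub_zero, polar_comm]
    exact hv2
  have hθxw : polar ⇑Q (θ *ᵥ x) w = polar ⇑Q x r₁ := by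
    rw [kd.adj, ← hr₁, polar_sub_right, polar_smul_right, smul_eq_mul]
  have hLx : Line Q M a x :=
    kd.line_step hM hL hQx ⟨hxa, hxθa⟩ hxw (by rw [hθxw]; exact hxr₁)
  exact kd.line_step hM hLx hz haz hxz hxθz

theorem ga_sing (hQ : (polarBilin Q).Nondegenerate) (hn : 14 ≤ Fintype.card ι)
    (hM : ∀ u : ι → F, Q u = 0 → Line Q M u (θ *ᵥ u)) {a b : ι → F}
    (ha : Q a = 0) (hb : Q b = 0) (hab : KO Q θ a b) (hbK : b ∉ KS θ a) (hL : Line Q M a b)
    (z : ι → F) (hz : Q z = 0) (haz : KO Q θ a z) : Line Q M a z := by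
  classical
  have hSa := kd.thStab_KS a
  have hSb := kd.thStab_KS b
  by_cases hzKa : z ∈ KS θ a
  · obtain ⟨α, β, rfl⟩ := mem_KS.mp hzKa
    exact ((Line.self ha).smul α).add ((hM a ha).smul β)
  by_cases hzAB : z ∈ KS θ a ⊔ KS θ b
  · have hfA : finrank F ↥(KS θ a ⊔ KS θ b) ≤ 4 := by
      have h1 := Submodule.finrank_add_le_finrank_add_finrank (KS θ a) (KS θ b)
      have h2 := finrank_KS_le (θ := θ) a
      have h3 := finrank_KS_le (θ := θ) b
      omega
    obtain ⟨z', hz'S, hz'A, hQz'⟩ := exists_singular_orth_not_mem hQ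
      {a, θ *ᵥ a, b, θ *ᵥ b} (KS θ a ⊔ KS θ b)
      (by have := Finset.card_le_four (a := a) (b := θ *ᵥ a) (c := b) (d := θ *ᵥ b); omega)
    have haz' : KO Q θ a z' := ⟨hz'S a (by simp), hz'S _ (by simp)⟩
    have hbz' : KO Q θ b z' := ⟨hz'S b (by simp), hz'S _ (by simp)⟩
    have hL' : Line Q M a z' := kd.ga_step hQ hM ha hb hQz' hab haz' hbz' hbK hz'A hL
    have hz'z : KO Q θ z' z := by
      obtain ⟨s, hs, t, ht, rfl⟩ := Submodule.mem_sup.mp hzAB
      exact KO_add (kd.KO_of_mem (kd.KO_symm haz') hs) (kd.KO_of_mem (kd.KO_symm hbz') ht)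
    have hz'Ka : z' ∉ KS θ a := fun h => hz'A (Submodule.mem_sup_left h)
    have hzK' : z ∉ KS θ a ⊔ KS θ z' := by
      intro hmem
      obtain ⟨s, hs, t, ht, hst⟩ := Submodule.mem_sup.mp hmem
      by_cases ht0 : t = 0
      · apply hzKa; rw [← hst, ht0, add_zero]; exact hs
      · apply hz'A
        have h1 : z' ∈ KS θ t := kd.mem_KS_symm ht ht0
        have h2 : t ∈ KS θ a ⊔ KS θ b := by
          have : t = z - s := by rw [← hst]; abel
          rw [this]
          exact Submodule.sub_mem _ hzAB (Submodule.mem_sup_left hs)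
        exact KS_le (hSa.sup hSb) h2 h1
    exact kd.ga_step hQ hM ha hQz' hz haz' haz hz'z hz'Ka hzK' hL'
  by_cases hbz : KO Q θ b z
  · exact kd.ga_step hQ hM ha hb hz hab haz hbz hbK hzAB hL
  · obtain ⟨z', hz'S, hz'A, hQz'⟩ := exists_singular_orth_not_mem hQ
      {a, θ *ᵥ a, b, θ *ᵥ b, z, θ *ᵥ z} (KS θ a)
      (by
        have := Finset.card_le_six (a := a) (b := θ *ᵥ a) (c := b) (d := θ *ᵥ b) (e := z)
          (f := θ *ᵥ z)
        have := finrank_KS_le (θ := θ) a
        omega)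
    have haz' : KO Q θ a z' := ⟨hz'S a (by simp), hz'S _ (by simp)⟩
    have hbz' : KO Q θ b z' := ⟨hz'S b (by simp), hz'S _ (by simp)⟩
    have hzz' : KO Q θ z z' := ⟨hz'S z (by simp), hz'S _ (by simp)⟩
    have hz'AB : z' ∉ KS θ a ⊔ KS θ b := by
      intro hmem
      obtain ⟨s, hs, t, ht, hst⟩ := Submodule.mem_sup.mp hmem
      by_cases ht0 : t = 0
      · apply hz'A; rw [← hst, ht0, add_zero]; exact hs
      · apply hbz
        have h1 : b ∈ KS θ t := kd.mem_KS_symm ht ht0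
        have h2 : KO Q θ z t := by
          have : t = z' - s := by rw [← hst]; abel
          rw [this]
          exact KO_sub hzz' (kd.KO_of_mem (kd.KO_symm haz) hs)
        exact kd.KO_symm (kd.KO_of_mem h2 h1)
    have hL' : Line Q M a z' := kd.ga_step hQ hM ha hb hQz' hab haz' hbz' hbK hz'AB hL
    have hzK' : z ∉ KS θ a ⊔ KS θ z' := by
      intro hmem
      obtain ⟨s, hs, t, ht, hst⟩ := Submodule.mem_sup.mp hmem
      apply hbz
      rw [← hst]
      exact KO_add (kd.KO_of_mem (kd.KO_symm hab) hs) (kd.KO_of_mem hbz' ht)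
    exact kd.ga_step hQ hM ha hQz' hz haz' haz (kd.KO_symm hzz') hz'A hzK' hL'

/-- One extra line at `a` inside the `K`-orthogonal of `a` gives the whole `K`-orthogonal. -/
theorem ga (hQ : (polarBilin Q).Nondegenerate) (hn : 14 ≤ Fintype.card ι)
    (hM : ∀ u : ι → F, Q u = 0 → Line Q M u (θ *ᵥ u)) {a b : ι → F}
    (ha : Q a = 0) (hb : Q b = 0) (hab : KO Q θ a b) (hbK : b ∉ KS θ a) (hL : Line Q M a b)
    (x : ι → F) (hax : KO Q θ a x) : Line Q M a x := by
  by_cases hx : Q x = 0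
  · exact kd.ga_sing hQ hn hM ha hb hab hbK hL x hx hax
  have hxK : x ∉ KS θ a := fun h => hx (kd.Q_of_mem_KS ha h)
  obtain ⟨p, hp, hap, hpx⟩ : ∃ p, Q p = 0 ∧ KO Q θ a p ∧ polar ⇑Q p x ≠ 0 := by
    by_cases hbx : polar ⇑Q b x = 0
    · obtain ⟨v, hvp, hv1, hv2⟩ := exists_orth_two_ne hQ (KS θ a) b x hbK hxK
      have hβ : polar ⇑Q b v ≠ 0 := by rw [polar_comm]; exact hv1
      refine ⟨v - (Q v / polar ⇑Q b v) • b, ?_, ⟨?_, ?_⟩, ?_⟩
      · rw [Q_sub_smul', hb]; field_simp; ring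
      · rw [polar_sub_right, polar_smul_right, hab.1, smul_zero, sub_zero, polar_comm]
        exact hvp a (self_mem_KS a)
      · rw [polar_sub_right, polar_smul_right, hab.2, smul_zero, sub_zero, polar_comm]
        exact hvp _ (theta_mem_KS a)
      · rw [polar_sub_left, polar_smul_left, hbx, smul_zero, sub_zero]; exact hv2
    · exact ⟨b, hb, hab, hbx⟩
  have hx' : Q (x - (Q x / polar ⇑Q p x) • p) = 0 := by
    rw [Q_sub_smul', hp]; field_simp; ring
  have h1 := kd.ga_sing hQ hn hM ha hb hab hbK hL _ hx' (KO_sub hax (KO_smul hap _))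
  have h2 := kd.ga_sing hQ hn hM ha hb hab hbK hL p hp hap
  have := h1.add (h2.smul (Q x / polar ⇑Q p x))
  rwa [sub_add_cancel] at this

end GUData

end GUB

end Cfsg.Agent.Lib.Helper65
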