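import Mathlib
import Cfsg.Agent.Lib.Helper65.GUMaxB

/-!
Overgroups of the unitary group `GU_{n/2}(q)` inside `Ω_n(q)`, part C: full root groups, and the
main theorems `GUData.omega_le_of_moved` and `GUData.exists_coeff_of_forall`.
-/

set_option autoImplicit false
set_option linter.unusedSectionVars false
set_option linter.unusedVariables false

namespace Cfsg.Agent.Lib.Helper65

open Module QuadraticMap
open scoped Matrix
open Cfsg.Agent.Lib.Helper51 Cfsg.Agent.Lib.Helper52 Cfsg.Agent.Lib.Helper96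

section GUC

variable {ι : Type} [Fintype ι] [DecidableEq ι] {F : Type*} [Field F] [Fintype F]
variable {Q : QuadraticForm F (ι → F)} {θ : Matrix ι ι F} {τ ν : F}
variable {M : Subgroup ↥(Cfsg.isometryGroup F ⇑Q)}

local notation "mt(" g ")" => ((g : Matrix.GeneralLinearGroup ι F) : Matrix ι ι F)

namespace GUData

variable (kd : GUData Q θ τ ν)
include kd

/-- A line at `a` towards a `K`-orthogonal vector outside `K a` makes `a` a full point. -/
theorem full_of_pair (hQ : (polarBilin Q).Nondegenerate) (hn : 14 ≤ Fintype.card ι)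
    (hM : ∀ u : ι → F, Q u = 0 → Line Q M u (θ *ᵥ u)) {a b : ι → F} (ha0 : a ≠ 0)
    (ha : Q a = 0) (hb : Q b = 0) (hab : KO Q θ a b) (hbK : b ∉ KS θ a) (hL : Line Q M a b) :
    Full Q M a := by
  classical
  have hb0 : b ≠ 0 := by rintro rfl; exact hbK (Submodule.zero_mem _)
  have haK : a ∉ KS θ b := fun h => hbK (kd.mem_KS_symm h ha0)
  have hba : KO Q θ b a := kd.KO_symm hab
  have g1 := kd.ga hQ hn hM ha hb hab hbK hL
  have g2 := kd.ga hQ hn hM hb ha hba haK (hL.swap hb)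
  have hθa : θ *ᵥ a ∉ KS θ b ⊔ Submodule.span F {a} := by
    intro hmem
    obtain ⟨t, ht, s, hs, hts⟩ := Submodule.mem_sup.mp hmem
    obtain ⟨c, rfl⟩ := Submodule.mem_span_singleton.mp hs
    apply haK
    apply kd.mem_of_sub_mem (kd.thStab_KS b) c
    have : θ *ᵥ a - c • a = t := by rw [← hts]; abel
    rw [this]; exact ht
  obtain ⟨y, hy1, hyp⟩ := exists_polar_sep Q hQ _ _ hθa
  have hyb : polar ⇑Q y b = 0 := hyp b (Submodule.mem_sup_left (self_mem_KS b))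
  have hyθb : polar ⇑Q y (θ *ᵥ b) = 0 := hyp _ (Submodule.mem_sup_left (theta_mem_KS b))
  have hya : polar ⇑Q y a = 0 :=
    hyp a (Submodule.mem_sup_right (Submodule.mem_span_singleton_self a))
  have hθaQ : Q (θ *ᵥ a) = 0 := kd.Q_theta ha
  have hQu' : Q (y - Q y • θ *ᵥ a) = 0 := by
    rw [Q_sub_smul', hθaQ, polar_comm, hy1]; ring
  have hau' : polar ⇑Q a (y - Q y • θ *ᵥ a) = 0 := by
    rw [polar_sub_right, polar_smul_right, kd.polar_self_theta ha, smul_zero, sub_zero,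
      polar_comm]
    exact hya
  have hθau' : polar ⇑Q (θ *ᵥ a) (y - Q y • θ *ᵥ a) = 1 := by
    rw [polar_sub_right, polar_smul_right, Cfsg.Agent.Lib.Helper51.polar_self, hθaQ, mul_zero,
      smul_zero, sub_zero, polar_comm]
    exact hy1
  have hbθa : KO Q θ b (θ *ᵥ a) := kd.KO_theta hba
  have hbu' : KO Q θ b (y - Q y • θ *ᵥ a) := by
    refine ⟨?_, ?_⟩
    · rw [polar_sub_right, polar_smul_right, hbθa.1, smul_zero, sub_zero, polar_comm]
      exact hyb
    · rw [polar_sub_right, polar_smul_right, hbθa.2, smul_zero, sub_zero, polar_comm]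
      exact hyθb
  generalize y - Q y • θ *ᵥ a = u' at hQu' hau' hθau' hbu'
  have hLu : Line Q M u' b := (g2 u' hbu').swap hQu'
  have hbKu : b ∉ KS θ u' := by
    intro h
    have h1 : u' ∈ KS θ b := kd.mem_KS_symm h hb0
    have h2 := (kd.KO_of_mem hab h1).2
    rw [hθau'] at h2
    exact one_ne_zero h2
  have g3 := kd.ga hQ hn hM hQu' hb (kd.KO_symm hbu') hbKu hLu
  have hfA : finrank F ↥(Submodule.span F
      ((({a, θ *ᵥ a, u'} : Finset (ι → F)) : Set (ι → F)))) ≤ 3 :=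
    (finrank_span_finset_le_card (R := F) ({a, θ *ᵥ a, u'} : Finset (ι → F))).trans
      Finset.card_le_three
  obtain ⟨w', hw'S, hw'A, -⟩ := exists_singular_orth_not_mem hQ {u', θ *ᵥ u', a}
    (Submodule.span F ((({a, θ *ᵥ a, u'} : Finset (ι → F)) : Set (ι → F))))
    (by have := Finset.card_le_three (a := u') (b := θ *ᵥ u') (c := a); omega)
  have hu'w' : KO Q θ u' w' := ⟨hw'S u' (by simp), hw'S _ (by simp)⟩
  have haw' : polar ⇑Q a w' = 0 := hw'S a (by simp)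
  obtain ⟨hu1, hu2, hs⟩ := (g3 w' hu'w').inM
  obtain ⟨x, hx1, hxp⟩ := exists_polar_sep Q hQ _ w' hw'A
  have hxa : polar ⇑Q x a = 0 := hxp a (Submodule.subset_span (by simp))
  have hxθa : polar ⇑Q x (θ *ᵥ a) = 0 := hxp _ (Submodule.subset_span (by simp))
  have hxu' : polar ⇑Q x u' = 0 := hxp u' (Submodule.subset_span (by simp))
  have hLx : Line Q M a x :=
    g1 x ⟨by rw [polar_comm]; exact hxa, by rw [polar_comm]; exact hxθa⟩
  have hLau : Line Q M a u' := by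
    intro c
    have h1 := (hLx c).conj hs
    rw [coe_eich, eichMat_mulVec, eichMat_mulVec] at h1
    have e1 : a + polar ⇑Q w' a • u' - polar ⇑Q u' a • w' - (Q w' * polar ⇑Q u' a) • u' = a := by
      rw [polar_comm ⇑Q w' a, haw', polar_comm ⇑Q u' a, hau']; simp
    have e2 : c • x + polar ⇑Q w' (c • x) • u' - polar ⇑Q u' (c • x) • w'
        - (Q w' * polar ⇑Q u' (c • x)) • u' = c • x + c • u' := by
      rw [polar_smul_right, polar_smul_right, polar_comm ⇑Q w' x, hx1, polar_comm ⇑Q u' x, hxu']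
      simp
    rw [e1, e2] at h1
    have h2 := h1.sub (hLx c)
    rwa [add_sub_cancel_left] at h2
  refine ⟨ha, fun w hw => ?_⟩
  have hx₀ : KO Q θ a (w - polar ⇑Q (θ *ᵥ a) w • u') := by
    refine ⟨?_, ?_⟩
    · rw [polar_sub_right, polar_smul_right, hau', smul_zero, sub_zero]; exact hw
    · rw [polar_sub_right, polar_smul_right, hθau', smul_eq_mul, mul_one, sub_self]
  have := (g1 _ hx₀).inM.add (hLau (polar ⇑Q (θ *ᵥ a) w))
  rwa [sub_add_cancel] at this

/-- A line at `a` towards a `K`-orthogonal vector outside `K a` forces `Ω ≤ M`. -/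
theorem omega_le_of_pair (hQ : (polarBilin Q).Nondegenerate) (hn : 14 ≤ Fintype.card ι)
    (hM : ∀ u : ι → F, Q u = 0 → Line Q M u (θ *ᵥ u)) {a b : ι → F} (ha0 : a ≠ 0)
    (ha : Q a = 0) (hb : Q b = 0) (hab : KO Q θ a b) (hbK : b ∉ KS θ a) (hL : Line Q M a b) :
    commutator ↥(Cfsg.isometryGroup F ⇑Q) ≤ M := by
  have hb0 : b ≠ 0 := by rintro rfl; exact hbK (Submodule.zero_mem _)
  have haK : a ∉ KS θ b := fun h => hbK (kd.mem_KS_symm h ha0)
  have hba : KO Q θ b a := kd.KO_symm hab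
  have Fa := kd.full_of_pair hQ hn hM ha0 ha hb hab hbK hL
  have Fb := kd.full_of_pair hQ hn hM hb0 hb ha hba haK (hL.swap hb)
  obtain ⟨y, hy1, hyp⟩ := exists_polar_sep Q hQ _ a haK
  have hyb : polar ⇑Q y b = 0 := hyp b (self_mem_KS b)
  have hyθb : polar ⇑Q y (θ *ᵥ b) = 0 := hyp _ (theta_mem_KS b)
  have hQw' : Q (y - Q y • a) = 0 := by rw [Q_sub_smul', ha, polar_comm, hy1]; ring
  have haw' : polar ⇑Q a (y - Q y • a) = 1 := by
    rw [polar_sub_right, polar_smul_right, Cfsg.Agent.Lib.Helper51.polar_self, ha, mul_zero,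
      smul_zero, sub_zero, polar_comm]
    exact hy1
  have hbw' : KO Q θ b (y - Q y • a) := by
    refine ⟨?_, ?_⟩
    · rw [polar_sub_right, polar_smul_right, hba.1, smul_zero, sub_zero, polar_comm]
      exact hyb
    · rw [polar_sub_right, polar_smul_right, hba.2, smul_zero, sub_zero, polar_comm]
      exact hyθb
  generalize y - Q y • a = w' at hQw' haw' hbw'
  have hw'0 : w' ≠ 0 := by
    intro h
    rw [h] at haw'
    have h0 : polar ⇑Q a (0 : ι → F) = 0 := polar_zero_right _ _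
    rw [h0] at haw'
    exact zero_ne_one haw'
  have hLw : Line Q M w' b := (Line.of_full Fb hbw'.1).swap hQw'
  have hbKw : b ∉ KS θ w' := by
    intro h
    have h1 : w' ∈ KS θ b := kd.mem_KS_symm h hb0
    have h2 := (kd.KO_of_mem hab h1).1
    rw [haw'] at h2
    exact one_ne_zero h2
  have Fw := kd.full_of_pair hQ hn hM hw'0 hQw' hb (kd.KO_symm hbw') hbKw hLw
  exact omega_le_of_full_pair hQ (by omega) Fa Fw (by rw [haw']; exact one_ne_zero)

/-- A subgroup containing the unitary transvections and an isometry moving some singular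
`K`-point off the `K`-points contains `Ω`. -/
theorem omega_le_of_moved (hQ : (polarBilin Q).Nondegenerate) (hn : 14 ≤ Fintype.card ι)
    (hM : ∀ u : ι → F, Q u = 0 → Line Q M u (θ *ᵥ u)) {g : ↥(Cfsg.isometryGroup F ⇑Q)}
    (hg : g ∈ M) {u : ι → F} (hu : Q u = 0)
    (hgu : mt(g) *ᵥ (θ *ᵥ u) ∉ KS θ (mt(g) *ᵥ u)) :
    commutator ↥(Cfsg.isometryGroup F ⇑Q) ≤ M := by
  classical
  have ha : Q (mt(g) *ᵥ u) = 0 := by rw [isometry_apply, hu]
  have hb : Q (mt(g) *ᵥ (θ *ᵥ u)) = 0 := by rw [isometry_apply, kd.Q_theta hu]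
  have hab1 : polar ⇑Q (mt(g) *ᵥ u) (mt(g) *ᵥ (θ *ᵥ u)) = 0 := by
    rw [isometry_polar, kd.polar_self_theta hu]
  have hL : Line Q M (mt(g) *ᵥ u) (mt(g) *ᵥ (θ *ᵥ u)) := (hM u hu).conj hg
  have ha0 : mt(g) *ᵥ u ≠ 0 := by
    intro h
    apply hgu
    have hu0 : u = 0 := by
      have := coe_inv_mulVec' Q g u
      rw [h, Matrix.mulVec_zero] at this
      exact this.symm
    rw [hu0]
    simp
  generalize mt(g) *ᵥ u = a at ha hab1 hL ha0 hgu
  generalize mt(g) *ᵥ (θ *ᵥ u) = b at hb hab1 hL hgu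
  by_cases h2 : polar ⇑Q (θ *ᵥ a) b = 0
  · exact kd.omega_le_of_pair hQ hn hM ha0 ha hb ⟨hab1, h2⟩ hgu hL
  · obtain ⟨z, hz0, hQz, hzS⟩ := exists_singular_orth Q hQ {a, θ *ᵥ a, b, θ *ᵥ b}
      (by have := Finset.card_le_four (a := a) (b := θ *ᵥ a) (c := b) (d := θ *ᵥ b); omega)
    have haz : polar ⇑Q a z = 0 := hzS a (by simp)
    have hθaz : polar ⇑Q (θ *ᵥ a) z = 0 := hzS _ (by simp)
    have hbz : polar ⇑Q b z = 0 := hzS b (by simp)
    have hθbz : polar ⇑Q (θ *ᵥ b) z = 0 := hzS _ (by simp)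
    have hzK : z ∉ KS θ a := by
      intro h
      obtain ⟨α, β, rfl⟩ := mem_KS.mp h
      have e1 := hbz
      rw [polar_add_right, polar_smul_right, polar_smul_right, polar_comm ⇑Q b a, hab1,
        polar_comm ⇑Q b (θ *ᵥ a), smul_zero, zero_add, smul_eq_mul] at e1
      have hβ : β = 0 := (mul_eq_zero.mp e1).resolve_right h2
      subst hβ
      have e2 := hθbz
      rw [zero_smul, add_zero, polar_smul_right, kd.adj, polar_comm ⇑Q b a, hab1,
        polar_comm ⇑Q b (θ *ᵥ a), smul_eq_mul, mul_zero, zero_sub, mul_neg, neg_eq_zero] at e2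
      have hα : α = 0 := (mul_eq_zero.mp e2).resolve_right h2
      subst hα
      apply hz0
      simp
    have hQy : Q (a + z) = 0 := by
      rw [QuadraticMap.map_add (⇑Q) a z, ha, hQz, haz]; simp
    have hy0 : a + z ≠ 0 := by
      intro h
      apply hzK
      have : z = -a := eq_neg_of_add_eq_zero_right h
      rw [this]
      exact Submodule.neg_mem _ (self_mem_KS a)
    have hya : KO Q θ (a + z) a := by
      refine ⟨?_, ?_⟩
      · rw [polar_add_left, Cfsg.Agent.Lib.Helper51.polar_self, ha, polar_comm ⇑Q z a, haz]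
        simp
      · rw [Matrix.mulVec_add, polar_add_left, polar_comm ⇑Q (θ *ᵥ a) a,
          kd.polar_self_theta ha, kd.adj, polar_comm ⇑Q z a, haz, polar_comm ⇑Q z (θ *ᵥ a), hθaz]
        simp
    have hyb : polar ⇑Q b (a + z) = 0 := by
      rw [polar_add_right, polar_comm ⇑Q b a, hab1, hbz, add_zero]
    have hθyb : polar ⇑Q b (θ *ᵥ (a + z)) = polar ⇑Q (θ *ᵥ a) b := by
      rw [Matrix.mulVec_add, polar_add_right, polar_comm ⇑Q b (θ *ᵥ a), kd.adj' b z, hbz, hθbz]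
      ring
    have haθy : polar ⇑Q a (θ *ᵥ (a + z)) = 0 := by
      rw [Matrix.mulVec_add, polar_add_right, kd.polar_self_theta ha, kd.adj' a z, haz, hθaz]
      ring
    have haKy : a ∉ KS θ (a + z) := by
      intro h
      apply hzK
      have h1 : a + z ∈ KS θ a := kd.mem_KS_symm h ha0
      have : z = (a + z) - a := by abel
      rw [this]
      exact Submodule.sub_mem _ h1 (self_mem_KS a)
    have hLya : Line Q M (a + z) a := by
      intro c
      obtain ⟨h1', h2', hs⟩ := hL (c / polar ⇑Q (θ *ᵥ a) b)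
      have hT := (hM _ hQy).inM
      have h3 := hT.conj hs
      rw [coe_eich, eichMat_mulVec, eichMat_mulVec] at h3
      have e1 : (a + z) + polar ⇑Q ((c / polar ⇑Q (θ *ᵥ a) b) • b) (a + z) • a
          - polar ⇑Q a (a + z) • (c / polar ⇑Q (θ *ᵥ a) b) • b
          - (Q ((c / polar ⇑Q (θ *ᵥ a) b) • b) * polar ⇑Q a (a + z)) • a = a + z := by
        rw [polar_smul_left, hyb, polar_add_right, Cfsg.Agent.Lib.Helper51.polar_self, ha, haz]
        simp
      have e2 : θ *ᵥ (a + z) + polar ⇑Q ((c / polar ⇑Q (θ *ᵥ a) b) • b) (θ *ᵥ (a + z)) • a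
          - polar ⇑Q a (θ *ᵥ (a + z)) • (c / polar ⇑Q (θ *ᵥ a) b) • b
          - (Q ((c / polar ⇑Q (θ *ᵥ a) b) • b) * polar ⇑Q a (θ *ᵥ (a + z))) • a
          = θ *ᵥ (a + z) + c • a := by
        rw [polar_smul_left, hθyb, haθy, smul_eq_mul, div_mul_cancel₀ c h2]
        simp
      rw [e1, e2] at h3
      have h4 := h3.sub hT
      rwa [add_sub_cancel_left] at h4
    exact kd.omega_le_of_pair hQ hn hM hy0 hQy ha hya haKy hLya

/-- An isometry mapping every singular `K`-point to a `K`-point is `K`-semilinear: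
`g θ g⁻¹ = α + β θ`. -/
theorem exists_coeff_of_forall (hQ : (polarBilin Q).Nondegenerate) (hn : 14 ≤ Fintype.card ι)
    (g : ↥(Cfsg.isometryGroup F ⇑Q))
    (hall : ∀ u : ι → F, Q u = 0 → mt(g) *ᵥ (θ *ᵥ u) ∈ KS θ (mt(g) *ᵥ u)) :
    ∃ α β : F, ∀ x : ι → F,
      mt(g) *ᵥ (θ *ᵥ x) = α • mt(g) *ᵥ x + β • θ *ᵥ (mt(g) *ᵥ x) := by
  classical
  have hinj : ∀ u : ι → F, mt(g) *ᵥ u = 0 → u = 0 := by
    intro u h
    have := coe_inv_mulVec' Q g u
    rw [h, Matrix.mulVec_zero] at this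
    exact this.symm
  have pw : ∀ (u u' : ι → F) (α β α' β' : F), Q u = 0 → Q u' = 0 → polar ⇑Q u u' = 0 → u ≠ 0 →
      mt(g) *ᵥ u' ∉ KS θ (mt(g) *ᵥ u) →
      mt(g) *ᵥ (θ *ᵥ u) = α • mt(g) *ᵥ u + β • θ *ᵥ (mt(g) *ᵥ u) →
      mt(g) *ᵥ (θ *ᵥ u') = α' • mt(g) *ᵥ u' + β' • θ *ᵥ (mt(g) *ᵥ u') → α = α' ∧ β = β' := by
    intro u u' α β α' β' hu hu' huu' hu0 hnot e e'
    have hgu0 : mt(g) *ᵥ u ≠ 0 := fun h => hu0 (hinj u h)
    have hgu'0 : mt(g) *ᵥ u' ≠ 0 := by
      intro h; apply hnot; rw [h]; exact Submodule.zero_mem _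
    have hsum : Q (u + u') = 0 := by rw [QuadraticMap.map_add (⇑Q) u u', hu, hu', huu']; simp
    obtain ⟨α'', β'', e''⟩ := mem_KS.mp (hall _ hsum)
    rw [Matrix.mulVec_add, Matrix.mulVec_add, Matrix.mulVec_add, Matrix.mulVec_add, e, e'] at e''
    generalize mt(g) *ᵥ u = x at *
    generalize mt(g) *ᵥ u' = x' at *
    have ht : (α'' - α) • x + (β'' - β) • θ *ᵥ x = (α' - α'') • x' + (β' - β'') • θ *ᵥ x' := by
      linear_combination (norm := module) e''
    by_cases ht0 : (α'' - α) • x + (β'' - β) • θ *ᵥ x = 0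
    · have c1 := kd.coeff_zero hgu0 ht0
      rw [ht0] at ht
      have c2 := kd.coeff_zero hgu'0 ht.symm
      constructor
      · linear_combination -c1.1 - c2.1
      · linear_combination -c1.2 - c2.2
    · exfalso
      apply hnot
      have h1 : (α'' - α) • x + (β'' - β) • θ *ᵥ x ∈ KS θ x := mem_KS.mpr ⟨_, _, rfl⟩
      have h2 : (α'' - α) • x + (β'' - β) • θ *ᵥ x ∈ KS θ x' := by
        rw [ht]; exact mem_KS.mpr ⟨_, _, rfl⟩
      exact KS_le (kd.thStab_KS x) h1 (kd.mem_KS_symm h2 ht0)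
  have hn3 : 3 ≤ finrank F (⊤ : Submodule F (ι → F)) := by
    rw [finrank_top, Module.finrank_fintype_fun_eq_card]; omega
  obtain ⟨u₀, -, hu₀0, hQu₀⟩ := exists_singular_of_finrank Q ⊤ hn3
  obtain ⟨α₀, β₀, e₀⟩ := mem_KS.mp (hall u₀ hQu₀)
  refine ⟨α₀, β₀, ?_⟩
  have key : ∀ u : ι → F, Q u = 0 →
      mt(g) *ᵥ (θ *ᵥ u) = α₀ • mt(g) *ᵥ u + β₀ • θ *ᵥ (mt(g) *ᵥ u) := by
    intro u hu
    by_cases hu0 : u = 0
    · subst hu0; simp
    obtain ⟨α, β, e⟩ := mem_KS.mp (hall u hu)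
    have hfA : finrank F ↥(KS θ (mt(g) *ᵥ u₀) ⊔ KS θ (mt(g) *ᵥ u)) ≤ 4 := by
      have h1 := Submodule.finrank_add_le_finrank_add_finrank (KS θ (mt(g) *ᵥ u₀))
        (KS θ (mt(g) *ᵥ u))
      have h2 := finrank_KS_le (θ := θ) (mt(g) *ᵥ u₀)
      have h3 := finrank_KS_le (θ := θ) (mt(g) *ᵥ u)
      omega
    obtain ⟨x₃, hx₃S, hx₃A, hQx₃⟩ := exists_singular_orth_not_mem hQ
      {mt(g) *ᵥ u₀, mt(g) *ᵥ u} (KS θ (mt(g) *ᵥ u₀) ⊔ KS θ (mt(g) *ᵥ u))
      (by have := Finset.card_le_two (a := mt(g) *ᵥ u₀) (b := mt(g) *ᵥ u); omega)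
    have hgu₃ : mt(g) *ᵥ (mt((g⁻¹ : ↥(Cfsg.isometryGroup F ⇑Q))) *ᵥ x₃) = x₃ :=
      coe_inv_mulVec Q g x₃
    have hQu₃ : Q (mt((g⁻¹ : ↥(Cfsg.isometryGroup F ⇑Q))) *ᵥ x₃) = 0 := by
      rw [isometry_apply]; exact hQx₃
    generalize mt((g⁻¹ : ↥(Cfsg.isometryGroup F ⇑Q))) *ᵥ x₃ = u₃ at hgu₃ hQu₃
    have h03 : polar ⇑Q u₀ u₃ = 0 := by
      rw [← isometry_polar Q g, hgu₃]; exact hx₃S _ (by simp)
    have hu3 : polar ⇑Q u u₃ = 0 := by
      rw [← isometry_polar Q g, hgu₃]; exact hx₃S _ (by simp)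
    obtain ⟨α₃, β₃, e₃⟩ := mem_KS.mp (hall u₃ hQu₃)
    have p1 := pw u₀ u₃ α₀ β₀ α₃ β₃ hQu₀ hQu₃ h03 hu₀0
      (by rw [hgu₃]; exact fun h => hx₃A (Submodule.mem_sup_left h)) e₀.symm e₃.symm
    have p2 := pw u u₃ α β α₃ β₃ hu hQu₃ hu3 hu0
      (by rw [hgu₃]; exact fun h => hx₃A (Submodule.mem_sup_right h)) e.symm e₃.symm
    rw [← e, p2.1, p2.2, ← p1.1, ← p1.2]
  intro x
  by_cases hx : Q x = 0
  · exact key x hx
  · have hxs : x ∉ Submodule.span F ({u₀} : Set (ι → F)) := by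
      intro h
      obtain ⟨c, rfl⟩ := Submodule.mem_span_singleton.mp h
      apply hx
      rw [QuadraticMap.map_smul, hQu₀, smul_zero]
    obtain ⟨d, hQd, -, hxd⟩ := exists_singular_orth_not_orth Q hQ (by omega) u₀ x hu₀0 hxs
    have hdx : polar ⇑Q d x ≠ 0 := by rw [polar_comm]; exact hxd
    have hx' : Q (x - (Q x / polar ⇑Q d x) • d) = 0 := by
      rw [Q_sub_smul', hQd]; field_simp; ring
    have k1 := key _ hx'
    have k2 := key d hQd
    generalize Q x / polar ⇑Q d x = c at k1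
    have ex : x = (x - c • d) + c • d := (sub_add_cancel x (c • d)).symm
    calc mt(g) *ᵥ (θ *ᵥ x)
        = mt(g) *ᵥ (θ *ᵥ (x - c • d)) + c • mt(g) *ᵥ (θ *ᵥ d) := by
          conv_lhs => rw [ex]
          rw [Matrix.mulVec_add, Matrix.mulVec_add, Matrix.mulVec_smul, Matrix.mulVec_smul]
      _ = α₀ • mt(g) *ᵥ (x - c • d) + β₀ • θ *ᵥ (mt(g) *ᵥ (x - c • d))
            + c • (α₀ • mt(g) *ᵥ d + β₀ • θ *ᵥ (mt(g) *ᵥ d)) := by rw [k1, k2]
      _ = α₀ • mt(g) *ᵥ x + β₀ • θ *ᵥ (mt(g) *ᵥ x) := by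
          simp only [Matrix.mulVec_sub, Matrix.mulVec_smul]
          module

end GUData

end GUC

end Cfsg.Agent.Lib.Helper65
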