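import Mathlib
import Cfsg.Agent.Lib.Helper65.GUMaxC

/-!
Overgroups of the unitary group `GU_{n/2}(q)` inside `Ω_n(q)`, part D: from a quadratic field
subalgebra `K` of the matrix algebra (closed under adjoints, not self-adjoint, rescaling `Q`) to
the data `GUData`, and the normaliser of `K`.
-/

set_option autoImplicit false
set_option linter.unusedSectionVars false
set_option linter.unusedVariables false

namespace Cfsg.Agent.Lib.Helper65

open Module QuadraticMap
open scoped Matrix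
open Cfsg.Agent.Lib.Helper51 Cfsg.Agent.Lib.Helper52 Cfsg.Agent.Lib.Helper96

section GUD

variable {ι : Type} [Fintype ι] [DecidableEq ι] {F : Type*} [Field F]

/-- A two-dimensional subalgebra is spanned by `1` and some non-scalar `θ`. -/
theorem exists_theta (K : Subalgebra F (Matrix ι ι F)) (hfr : finrank F K = 2) :
    ∃ θ ∈ K, (∀ c : F, θ ≠ c • (1 : Matrix ι ι F)) ∧
      ∀ k ∈ K, ∃ α β : F, k = α • (1 : Matrix ι ι F) + β • θ := by
  have h1 : (1 : K) ≠ 0 := by
    intro h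
    have hsub : Subsingleton K :=
      ⟨fun x y => by rw [← mul_one x, ← mul_one y, h, mul_zero, mul_zero]⟩
    have : finrank F K = 0 := finrank_zero_of_subsingleton
    omega
  obtain ⟨y, hy⟩ := exists_linearIndependent_pair_of_one_lt_finrank
    (by omega : 1 < finrank F K) h1
  have hspan := hy.span_eq_top_of_card_eq_finrank' (by simp [hfr])
  refine ⟨(y : Matrix ι ι F), y.2, ?_, ?_⟩
  · intro c hc
    have hyc : y = c • (1 : K) := Subtype.ext (by simpa using hc)
    have hdep := LinearIndependent.pair_iff.mp hy c (-1) (by rw [hyc]; simp)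
    exact absurd hdep.2 (by norm_num)
  · intro k hk
    have hmem : (⟨k, hk⟩ : K) ∈ Submodule.span F (Set.range ![(1 : K), y]) := by
      rw [hspan]; trivial
    rw [Matrix.range_cons_cons_empty] at hmem
    obtain ⟨a, b, hab⟩ := Submodule.mem_span_pair.mp hmem
    refine ⟨a, b, ?_⟩
    have := congrArg Subtype.val hab
    simpa using this.symm

/-- The data `GUData` of a quadratic field subalgebra closed under adjoints, not self-adjoint,
whose elements rescale `Q`. -/
theorem exists_guData (Q : QuadraticForm F (ι → F)) (hQ : (polarBilin Q).Nondegenerate)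
    (hne : ∃ u : ι → F, u ≠ 0) (K : Subalgebra F (Matrix ι ι F))
    (hK : Cfsg.Geo.IsFieldSubalgebra 2 K) (hac : Cfsg.Geo.IsAdjointClosedFor (polar ⇑Q) K)
    (hnsa : ¬ Cfsg.Geo.IsSelfAdjointFor (polar ⇑Q) K)
    (hsc : ∀ k ∈ K, ∃ c : F, ∀ v : ι → F, Q (k *ᵥ v) = c * Q v) :
    ∃ (θ : Matrix ι ι F) (τ ν : F), θ ∈ K ∧
      (∀ k ∈ K, ∃ α β : F, k = α • (1 : Matrix ι ι F) + β • θ) ∧
      (∀ c : F, θ ≠ c • (1 : Matrix ι ι F)) ∧ GUData Q θ τ ν := by
  obtain ⟨θ, hθK, hθ1, hspan⟩ := exists_theta K hK.finrank_eq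
  obtain ⟨α₀, τ, hθθ⟩ := hspan (θ * θ) (K.mul_mem hθK hθK)
  have hsq : ∀ x : ι → F, θ *ᵥ (θ *ᵥ x) = τ • θ *ᵥ x - (-α₀) • x := by
    intro x
    rw [Matrix.mulVec_mulVec, hθθ, Matrix.add_mulVec, Matrix.smul_mulVec, Matrix.smul_mulVec,
      Matrix.one_mulVec]
    module
  have hnd : ∀ w : ι → F, (∀ u, polar ⇑Q u w = 0) → w = 0 := by
    intro w hw
    by_contra hw0
    obtain ⟨y, hy⟩ := exists_polar_ne_zero Q hQ w hw0
    exact hy (by rw [polar_comm]; exact hw y)
  have hdom : ∀ x ∈ K, ∀ y ∈ K, x ≠ 0 → x * y = 0 → y = 0 := by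
    intro x hx y hy hx0 hxy
    obtain ⟨x', hx', hxx'⟩ := hK.inv x hx hx0
    calc y = (x * x') * y := by rw [hxx', one_mul]
      _ = x' * (x * y) := by rw [hK.comm x hx x' hx', mul_assoc]
      _ = 0 := by rw [hxy, mul_zero]
  have hθc : ∀ c : F, θ - c • (1 : Matrix ι ι F) ≠ 0 := fun c h => hθ1 c (sub_eq_zero.mp h)
  have hmemc : ∀ c : F, θ - c • (1 : Matrix ι ι F) ∈ K :=
    fun c => K.sub_mem hθK (K.smul_mem K.one_mem c)
  have hirr : ∀ c : F, c * c - τ * c + (-α₀) ≠ 0 := by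
    intro c h0
    have hprod : (θ - c • (1 : Matrix ι ι F)) * (θ - (τ - c) • (1 : Matrix ι ι F)) = 0 := by
      have e1 : (θ - c • (1 : Matrix ι ι F)) * (θ - (τ - c) • (1 : Matrix ι ι F))
          = θ * θ - τ • θ + (c * (τ - c)) • (1 : Matrix ι ι F) := by
        simp only [sub_mul, mul_sub, smul_mul_assoc, mul_smul_comm, one_mul, mul_one]
        module
      have e2 : α₀ + c * (τ - c) = 0 := by linear_combination -h0
      have e3 : α₀ • (1 : Matrix ι ι F) + τ • θ - τ • θ + (c * (τ - c)) • (1 : Matrix ι ι F)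
          = (α₀ + c * (τ - c)) • (1 : Matrix ι ι F) := by module
      rw [e1, hθθ, e3, e2, zero_smul]
    exact hθc (τ - c) (hdom _ (hmemc c) _ (hmemc (τ - c)) (hθc c) hprod)
  obtain ⟨θ', hθ'K, hadj⟩ := hac θ hθK
  have hsq' : θ' * θ' = τ • θ' - (-α₀) • (1 : Matrix ι ι F) := by
    apply matrix_ext_mulVec
    intro v
    have : θ' *ᵥ (θ' *ᵥ v) - (τ • θ' *ᵥ v - (-α₀) • v) = 0 := by
      apply hnd
      intro u
      rw [polar_sub_right, polar_sub_right, polar_smul_right, polar_smul_right, ← hadj, ← hadj,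
        hsq, polar_sub_left, polar_smul_left, polar_smul_left, hadj]
      simp only [smul_eq_mul]
      ring
    rw [← Matrix.mulVec_mulVec, Matrix.sub_mulVec, Matrix.smul_mulVec, Matrix.smul_mulVec,
      Matrix.one_mulVec]
    exact sub_eq_zero.mp this
  have hθ'ne : θ' ≠ θ := by
    intro h
    apply hnsa
    intro k hk u v
    obtain ⟨a, b, rfl⟩ := hspan k hk
    rw [Matrix.add_mulVec, Matrix.add_mulVec, Matrix.smul_mulVec, Matrix.smul_mulVec,
      Matrix.smul_mulVec, Matrix.smul_mulVec, Matrix.one_mulVec, Matrix.one_mulVec,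
      polar_add_left, polar_add_right, polar_smul_left, polar_smul_left, polar_smul_right,
      polar_smul_right, hadj, h]
  have hθ' : θ' = τ • (1 : Matrix ι ι F) - θ := by
    have hprod : (θ' - θ) * (θ' - (τ • (1 : Matrix ι ι F) - θ)) = 0 := by
      have hc := hK.comm θ hθK θ' hθ'K
      have e1 : (θ' - θ) * (θ' - (τ • (1 : Matrix ι ι F) - θ))
          = θ' * θ' - τ • θ' - (θ * θ - τ • θ) + (θ' * θ - θ * θ') := by
        simp only [sub_mul, mul_sub, mul_smul_comm, mul_one]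
        module
      rw [e1, hsq', hθθ, hc, sub_self]
      module
    have := hdom _ (K.sub_mem hθ'K hθK) _
      (K.sub_mem hθ'K (K.sub_mem (K.smul_mem K.one_mem τ) hθK)) (sub_ne_zero.mpr hθ'ne) hprod
    exact sub_eq_zero.mp this
  have hadjF : ∀ u v : ι → F,
      polar ⇑Q (θ *ᵥ u) v = τ * polar ⇑Q u v - polar ⇑Q u (θ *ᵥ v) := by
    intro u v
    rw [hadj, hθ', Matrix.sub_mulVec, Matrix.smul_mulVec, Matrix.one_mulVec, polar_sub_right,
      polar_smul_right, smul_eq_mul]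
  have htt : ∀ u v : ι → F, polar ⇑Q (θ *ᵥ u) (θ *ᵥ v) = (-α₀) * polar ⇑Q u v := by
    intro u v
    rw [hadjF, hsq, polar_sub_right, polar_smul_right, polar_smul_right]
    simp only [smul_eq_mul]
    ring
  obtain ⟨u₀, hu₀⟩ := hne
  obtain ⟨v₀, hv₀⟩ := exists_polar_ne_zero Q hQ u₀ hu₀
  obtain ⟨c, hc⟩ := hsc θ hθK
  have hcν : c = -α₀ := by
    have h1 : polar ⇑Q (θ *ᵥ u₀) (θ *ᵥ v₀) = c * polar ⇑Q u₀ v₀ := by
      simp only [polar, ← Matrix.mulVec_add, hc]
      ring
    rw [htt] at h1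
    have : (c - (-α₀)) * polar ⇑Q u₀ v₀ = 0 := by linear_combination -h1
    exact sub_eq_zero.mp ((mul_eq_zero.mp this).resolve_right hv₀)
  obtain ⟨c', hc'⟩ := hsc (1 + θ) (K.add_mem K.one_mem hθK)
  have hself0 : ∀ v : ι → F, polar ⇑Q v (θ *ᵥ v) = (c' - 1 - c) * Q v := by
    intro v
    have h1 := hc' v
    rw [Matrix.add_mulVec, Matrix.one_mulVec, QuadraticMap.map_add (⇑Q) v (θ *ᵥ v), hc] at h1
    linear_combination h1
  have hκ : c' - 1 - c = τ := by
    have h1 := hself0 (u₀ + v₀)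
    rw [Matrix.mulVec_add, polar_add_left, polar_add_right, polar_add_right, hself0 u₀,
      hself0 v₀, QuadraticMap.map_add (⇑Q) u₀ v₀] at h1
    have h2 : polar ⇑Q v₀ (θ *ᵥ u₀) = τ * polar ⇑Q u₀ v₀ - polar ⇑Q u₀ (θ *ᵥ v₀) := by
      rw [polar_comm, hadjF]
    rw [h2] at h1
    have : (c' - 1 - c - τ) * polar ⇑Q u₀ v₀ = 0 := by linear_combination -h1
    exact sub_eq_zero.mp ((mul_eq_zero.mp this).resolve_right hv₀)
  exact ⟨θ, τ, -α₀, hθK, hspan, hθ1,
    ⟨hsq, hadjF, fun v => by rw [hc, hcν], fun v => by rw [hself0, hκ], hirr⟩⟩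

/-- The unitary transvections commute with `θ`. -/
theorem GUData.eichMat_mul_comm {Q : QuadraticForm F (ι → F)} {θ : Matrix ι ι F} {τ ν : F}
    (kd : GUData Q θ τ ν) {u : ι → F} (hu : Q u = 0) (c : F) :
    eichMat Q u (c • θ *ᵥ u) * θ = θ * eichMat Q u (c • θ *ᵥ u) := by
  apply matrix_ext_mulVec
  intro x
  rw [← Matrix.mulVec_mulVec, ← Matrix.mulVec_mulVec, eichMat_mulVec, eichMat_mulVec]
  have hQ0 : Q (c • θ *ᵥ u) = 0 := by rw [QuadraticMap.map_smul, kd.Q_theta hu, smul_zero]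
  rw [hQ0, polar_smul_left, polar_smul_left, kd.polar_tt, kd.adj u x]
  simp only [Matrix.mulVec_add, Matrix.mulVec_sub, Matrix.mulVec_smul, kd.sq, smul_eq_mul,
    zero_mul, zero_smul, sub_zero]
  module

theorem coe_mul_coe_inv (g : Matrix.GeneralLinearGroup ι F) :
    (g : Matrix ι ι F) * ((g⁻¹ : Matrix.GeneralLinearGroup ι F) : Matrix ι ι F) = 1 := by
  rw [← Units.val_mul, mul_inv_cancel]; rfl

theorem coe_inv_mul_coe (g : Matrix.GeneralLinearGroup ι F) :
    ((g⁻¹ : Matrix.GeneralLinearGroup ι F) : Matrix ι ι F) * (g : Matrix ι ι F) = 1 := by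
  rw [← Units.val_mul, inv_mul_cancel]; rfl

/-- An invertible matrix commuting with `K` normalises `K`. -/
theorem mem_normalizer_of_commute (K : Subalgebra F (Matrix ι ι F))
    (g : Matrix.GeneralLinearGroup ι F)
    (h : ∀ k ∈ K, (g : Matrix ι ι F) * k = k * (g : Matrix ι ι F)) :
    g ∈ Cfsg.Geo.subalgebraNormalizer K := by
  show ∀ k : Matrix ι ι F, k ∈ K ↔
    (g : Matrix ι ι F) * k * ((g⁻¹ : Matrix.GeneralLinearGroup ι F) : Matrix ι ι F) ∈ K
  intro k
  constructor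
  · intro hk
    rw [h k hk, mul_assoc, coe_mul_coe_inv, mul_one]
    exact hk
  · intro hk
    have h1 := h _ hk
    have h2 : (g : Matrix ι ι F) * ((g : Matrix ι ι F) * k *
        ((g⁻¹ : Matrix.GeneralLinearGroup ι F) : Matrix ι ι F)) = (g : Matrix ι ι F) * k := by
      rw [h1, mul_assoc, mul_assoc, coe_inv_mul_coe, mul_one]
    have e : (g : Matrix ι ι F) * k * ((g⁻¹ : Matrix.GeneralLinearGroup ι F) : Matrix ι ι F)
        = k := by
      calc (g : Matrix ι ι F) * k * ((g⁻¹ : Matrix.GeneralLinearGroup ι F) : Matrix ι ι F)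
          = ((g⁻¹ : Matrix.GeneralLinearGroup ι F) : Matrix ι ι F) * ((g : Matrix ι ι F) *
            ((g : Matrix ι ι F) * k *
              ((g⁻¹ : Matrix.GeneralLinearGroup ι F) : Matrix ι ι F))) := by
            rw [← mul_assoc ((g⁻¹ : Matrix.GeneralLinearGroup ι F) : Matrix ι ι F),
              coe_inv_mul_coe, one_mul]
        _ = k := by rw [h2, ← mul_assoc, coe_inv_mul_coe, one_mul]
    rw [e] at hk
    exact hk

/-- An invertible matrix with `g θ = (α + β θ) g` normalises `K = F[θ]`. -/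
theorem mem_normalizer_of_coeff (K : Subalgebra F (Matrix ι ι F)) (θ : Matrix ι ι F)
    (hθK : θ ∈ K) (hspan : ∀ k ∈ K, ∃ α β : F, k = α • (1 : Matrix ι ι F) + β • θ)
    (hθ1 : ∀ c : F, θ ≠ c • (1 : Matrix ι ι F)) (g : Matrix.GeneralLinearGroup ι F) (α β : F)
    (h : ∀ x : ι → F, (g : Matrix ι ι F) *ᵥ (θ *ᵥ x)
      = α • (g : Matrix ι ι F) *ᵥ x + β • θ *ᵥ ((g : Matrix ι ι F) *ᵥ x)) :
    g ∈ Cfsg.Geo.subalgebraNormalizer K := by
  have hGθ : (g : Matrix ι ι F) * θ = (α • (1 : Matrix ι ι F) + β • θ) * (g : Matrix ι ι F) := by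
    apply matrix_ext_mulVec
    intro x
    rw [← Matrix.mulVec_mulVec, h, ← Matrix.mulVec_mulVec, Matrix.add_mulVec, Matrix.smul_mulVec,
      Matrix.one_mulVec, Matrix.smul_mulVec]
  have hβ : β ≠ 0 := by
    rintro rfl
    apply hθ1 α
    calc θ = ((g⁻¹ : Matrix.GeneralLinearGroup ι F) : Matrix ι ι F) * ((g : Matrix ι ι F) * θ) := by
          rw [← mul_assoc, coe_inv_mul_coe, one_mul]
      _ = α • (1 : Matrix ι ι F) := by
          rw [hGθ, zero_smul, add_zero, smul_mul_assoc, one_mul, mul_smul_comm, coe_inv_mul_coe]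
  have e1 : (g : Matrix ι ι F) * θ * ((g⁻¹ : Matrix.GeneralLinearGroup ι F) : Matrix ι ι F)
      = α • (1 : Matrix ι ι F) + β • θ := by
    rw [hGθ, mul_assoc, coe_mul_coe_inv, mul_one]
  have h3 : θ = α • (1 : Matrix ι ι F) + β •
      (((g⁻¹ : Matrix.GeneralLinearGroup ι F) : Matrix ι ι F) * θ * (g : Matrix ι ι F)) := by
    calc θ = ((g⁻¹ : Matrix.GeneralLinearGroup ι F) : Matrix ι ι F) * ((g : Matrix ι ι F) * θ) := by
          rw [← mul_assoc, coe_inv_mul_coe, one_mul]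
      _ = α • (1 : Matrix ι ι F) + β •
          (((g⁻¹ : Matrix.GeneralLinearGroup ι F) : Matrix ι ι F) * θ * (g : Matrix ι ι F)) := by
          rw [hGθ, add_mul, mul_add, smul_mul_assoc, one_mul, mul_smul_comm, coe_inv_mul_coe,
            smul_mul_assoc, mul_smul_comm, mul_assoc]
  have e2 : ((g⁻¹ : Matrix.GeneralLinearGroup ι F) : Matrix ι ι F) * θ * (g : Matrix ι ι F)
      = β⁻¹ • (θ - α • (1 : Matrix ι ι F)) := by
    have : θ - α • (1 : Matrix ι ι F) = β •
        (((g⁻¹ : Matrix.GeneralLinearGroup ι F) : Matrix ι ι F) * θ * (g : Matrix ι ι F)) := by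
      conv_lhs => rw [h3]
      rw [add_sub_cancel_left]
    rw [this, smul_smul, inv_mul_cancel₀ hβ, one_smul]
  show ∀ k : Matrix ι ι F, k ∈ K ↔
    (g : Matrix ι ι F) * k * ((g⁻¹ : Matrix.GeneralLinearGroup ι F) : Matrix ι ι F) ∈ K
  intro k
  constructor
  · intro hk
    obtain ⟨a, b, rfl⟩ := hspan k hk
    have : (g : Matrix ι ι F) * (a • (1 : Matrix ι ι F) + b • θ) *
        ((g⁻¹ : Matrix.GeneralLinearGroup ι F) : Matrix ι ι F)
        = a • (1 : Matrix ι ι F) + b • (α • (1 : Matrix ι ι F) + β • θ) := by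
      rw [mul_add, add_mul, mul_smul_comm, mul_one, smul_mul_assoc, coe_mul_coe_inv,
        mul_smul_comm, smul_mul_assoc, e1]
    rw [this]
    exact K.add_mem (K.smul_mem K.one_mem a)
      (K.smul_mem (K.add_mem (K.smul_mem K.one_mem α) (K.smul_mem hθK β)) b)
  · intro hk
    obtain ⟨a, b, e⟩ := hspan _ hk
    have : k = a • (1 : Matrix ι ι F) + b • (β⁻¹ • (θ - α • (1 : Matrix ι ι F))) := by
      calc k = ((g⁻¹ : Matrix.GeneralLinearGroup ι F) : Matrix ι ι F) * ((g : Matrix ι ι F) * k *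
            ((g⁻¹ : Matrix.GeneralLinearGroup ι F) : Matrix ι ι F)) * (g : Matrix ι ι F) := by
            rw [← mul_assoc, ← mul_assoc, coe_inv_mul_coe, one_mul, mul_assoc, coe_inv_mul_coe,
              mul_one]
        _ = a • (1 : Matrix ι ι F) + b • (β⁻¹ • (θ - α • (1 : Matrix ι ι F))) := by
            rw [e, mul_add, add_mul, mul_smul_comm, mul_one, smul_mul_assoc, coe_inv_mul_coe,
              mul_smul_comm, smul_mul_assoc, e2]
    rw [this]
    exact K.add_mem (K.smul_mem K.one_mem a)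
      (K.smul_mem (K.smul_mem (K.sub_mem hθK (K.smul_mem K.one_mem α)) β⁻¹) b)

end GUD

end Cfsg.Agent.Lib.Helper65
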