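import Mathlib
import Cfsg.Agent.Lib.Helper65.GUMaxD

/-!
Overgroups of the unitary group `GU_{n/2}(q)` inside `Ω_n(q)`, part E: the normaliser in `Ω` of a
quadratic field subalgebra `K` (closed under adjoints, not self-adjoint, rescaling `Q`) is a maximal
subgroup of `Ω`, in dimension at least 14.
-/

set_option autoImplicit false
set_option linter.unusedSectionVars false
set_option linter.unusedVariables false

namespace Cfsg.Agent.Lib.Helper65

open Module QuadraticMap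
open scoped Matrix
open Cfsg.Agent.Lib.Helper51 Cfsg.Agent.Lib.Helper52 Cfsg.Agent.Lib.Helper96

section GUE

variable {ι : Type} [Fintype ι] [DecidableEq ι] {F : Type*} [Field F] [Fintype F]

local notation "mt(" g ")" => ((g : Matrix.GeneralLinearGroup ι F) : Matrix ι ι F)

/-- A long root element whose plane is not a `K`-point does not normalise `K`. -/
theorem GUData.eich_not_normalizes {Q : QuadraticForm F (ι → F)} {θ : Matrix ι ι F} {τ ν : F}
    (kd : GUData Q θ τ ν) (hQ : (polarBilin Q).Nondegenerate) (hn : 14 ≤ Fintype.card ι)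
    (K : Subalgebra F (Matrix ι ι F)) (hθK : θ ∈ K)
    (hspan : ∀ k ∈ K, ∃ α β : F, k = α • (1 : Matrix ι ι F) + β • θ) {a b : ι → F}
    (ha0 : a ≠ 0) (ha : Q a = 0) (hb : Q b = 0) (hab : polar ⇑Q a b = 0) (hbK : b ∉ KS θ a) :
    ((eich Q a b ha hab : ↥(Cfsg.isometryGroup F ⇑Q)) : Matrix.GeneralLinearGroup ι F)
      ∉ Cfsg.Geo.subalgebraNormalizer K := by
  classical
  intro hmem
  have hmem' : ∀ k : Matrix ι ι F, k ∈ K ↔
      mt(eich Q a b ha hab) * k * ((((eich Q a b ha hab : ↥(Cfsg.isometryGroup F ⇑Q)) :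
        Matrix.GeneralLinearGroup ι F)⁻¹ : Matrix.GeneralLinearGroup ι F) : Matrix ι ι F) ∈ K :=
    hmem
  obtain ⟨α, β, e⟩ := hspan _ ((hmem' θ).mp hθK)
  have hEθ : eichMat Q a b * θ = (α • (1 : Matrix ι ι F) + β • θ) * eichMat Q a b := by
    rw [← e, ← coe_eich Q a b ha hab, mul_assoc, coe_inv_mul_coe, mul_one]
  have hv : ∀ x : ι → F, eichMat Q a b *ᵥ (θ *ᵥ x)
      = α • eichMat Q a b *ᵥ x + β • θ *ᵥ (eichMat Q a b *ᵥ x) := by
    intro x
    rw [Matrix.mulVec_mulVec, hEθ, ← Matrix.mulVec_mulVec, Matrix.add_mulVec, Matrix.smul_mulVec,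
      Matrix.one_mulVec, Matrix.smul_mulVec]
  obtain ⟨x₀, hx₀0, -, hx₀S⟩ := exists_singular_orth Q hQ {a, θ *ᵥ a, b, θ *ᵥ b}
    (by have := Finset.card_le_four (a := a) (b := θ *ᵥ a) (c := b) (d := θ *ᵥ b); omega)
  have h_a : polar ⇑Q a x₀ = 0 := hx₀S a (by simp)
  have h_θa : polar ⇑Q (θ *ᵥ a) x₀ = 0 := hx₀S _ (by simp)
  have h_b : polar ⇑Q b x₀ = 0 := hx₀S b (by simp)
  have h_θb : polar ⇑Q (θ *ᵥ b) x₀ = 0 := hx₀S _ (by simp)
  have hE1 : eichMat Q a b *ᵥ x₀ = x₀ := by rw [eichMat_mulVec, h_a, h_b]; simp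
  have hE2 : eichMat Q a b *ᵥ (θ *ᵥ x₀) = θ *ᵥ x₀ := by
    rw [eichMat_mulVec, kd.adj' a x₀, kd.adj' b x₀, h_a, h_b, h_θa, h_θb]; simp
  have h0 := hv x₀
  rw [hE1, hE2] at h0
  obtain ⟨hα, hβ⟩ := kd.coeff_zero hx₀0 (c₁ := α) (c₂ := β - 1)
    (by rw [sub_smul, one_smul, ← add_sub_assoc, ← h0, sub_self])
  have hβ1 : β = 1 := sub_eq_zero.mp hβ
  subst hα hβ1
  have hbs : b ∉ Submodule.span F ({a} : Set (ι → F)) := by
    intro h
    obtain ⟨c, rfl⟩ := Submodule.mem_span_singleton.mp h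
    exact hbK (Submodule.smul_mem _ _ (self_mem_KS a))
  obtain ⟨y, hy1, hyp⟩ := exists_polar_sep Q hQ _ b hbs
  have hya : polar ⇑Q y a = 0 := hyp a (Submodule.mem_span_singleton_self a)
  have h1 := hv y
  rw [eichMat_mulVec, eichMat_mulVec, hb, polar_comm ⇑Q b y, hy1, polar_comm ⇑Q a y, hya] at h1
  simp only [zero_mul, zero_smul, sub_zero, one_smul, zero_add, Matrix.mulVec_add] at h1
  have h2 : θ *ᵥ a = polar ⇑Q b (θ *ᵥ y) • a - polar ⇑Q a (θ *ᵥ y) • b := by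
    rw [add_sub_assoc, add_right_inj] at h1
    exact h1.symm
  by_cases hq : polar ⇑Q a (θ *ᵥ y) = 0
  · rw [hq, zero_smul, sub_zero] at h2
    exact kd.theta_ne_smul ha0 _ h2
  · apply hbK
    have : b = (polar ⇑Q a (θ *ᵥ y))⁻¹ • (polar ⇑Q b (θ *ᵥ y) • a - θ *ᵥ a) := by
      rw [h2, sub_sub_cancel, smul_smul, inv_mul_cancel₀ hq, one_smul]
    rw [this]
    exact Submodule.smul_mem _ _
      (Submodule.sub_mem _ (Submodule.smul_mem _ _ (self_mem_KS a)) (theta_mem_KS a))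

/-- The normaliser in `Ω` of a quadratic field subalgebra `K` closed under adjoints, not
self-adjoint, and rescaling `Q` (a unitary group `GU_{n/2}(q)`) is maximal in `Ω`. -/
theorem gu_isMaximalIn (Q : QuadraticForm F (ι → F)) (hQ : (polarBilin Q).Nondegenerate)
    (hn : 14 ≤ Fintype.card ι) (K : Subalgebra F (Matrix ι ι F))
    (hK : Cfsg.Geo.IsFieldSubalgebra 2 K) (hac : Cfsg.Geo.IsAdjointClosedFor (polar ⇑Q) K)
    (hnsa : ¬ Cfsg.Geo.IsSelfAdjointFor (polar ⇑Q) K)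
    (hsc : ∀ k ∈ K, ∃ c : F, ∀ v : ι → F, Q (k *ᵥ v) = c * Q v) :
    Cfsg.Geo.IsMaximalIn (Cfsg.Geo.omegaGL ⇑Q)
      (Cfsg.Geo.subalgebraNormalizer K ⊓ Cfsg.Geo.omegaGL ⇑Q) := by
  classical
  have hn3 : 3 ≤ finrank F (⊤ : Submodule F (ι → F)) := by
    rw [finrank_top, Module.finrank_fintype_fun_eq_card]; omega
  obtain ⟨a, -, ha0, ha⟩ := exists_singular_of_finrank Q ⊤ hn3
  obtain ⟨θ, τ, ν, hθK, hspan, hθ1, kd⟩ := exists_guData Q hQ ⟨a, ha0⟩ K hK hac hnsa hsc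
  have hH : ∀ (u : ι → F) (hu : Q u = 0) (c : F) (hp : polar ⇑Q u (c • θ *ᵥ u) = 0),
      ((eich Q u (c • θ *ᵥ u) hu hp : ↥(Cfsg.isometryGroup F ⇑Q)) :
        Matrix.GeneralLinearGroup ι F) ∈
          Cfsg.Geo.subalgebraNormalizer K ⊓ Cfsg.Geo.omegaGL ⇑Q := by
    intro u hu c hp
    refine ⟨?_, coe_mem_omegaGL Q (eich_mem_commutator Q hQ (by omega) u _ hu hp)⟩
    apply mem_normalizer_of_commute
    intro k hk
    obtain ⟨x, y, rfl⟩ := hspan k hk
    rw [coe_eich, mul_add, add_mul, mul_smul_comm, smul_mul_assoc, mul_one, one_mul,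
      mul_smul_comm, smul_mul_assoc, kd.eichMat_mul_comm hu c]
  constructor
  · refine lt_of_le_of_ne inf_le_right ?_
    intro heq
    obtain ⟨b, hbS, hbK, hb⟩ := exists_singular_orth_not_mem hQ {a} (KS θ a)
      (by have := finrank_KS_le (θ := θ) a; simp only [Finset.card_singleton]; omega)
    have hab : polar ⇑Q a b = 0 := hbS a (by simp)
    have hmem : ((eich Q a b ha hab : ↥(Cfsg.isometryGroup F ⇑Q)) :
        Matrix.GeneralLinearGroup ι F) ∈ Cfsg.Geo.omegaGL ⇑Q :=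
      coe_mem_omegaGL Q (eich_mem_commutator Q hQ (by omega) a b ha hab)
    rw [← heq] at hmem
    exact kd.eich_not_normalizes hQ hn K hθK hspan ha0 ha hb hab hbK hmem.1
  · intro M hHM hMΩ
    by_cases hMH : M = Cfsg.Geo.subalgebraNormalizer K ⊓ Cfsg.Geo.omegaGL ⇑Q
    · exact Or.inl hMH
    right
    apply le_antisymm hMΩ
    obtain ⟨x, hxM, hxH⟩ := SetLike.exists_of_lt (lt_of_le_of_ne hHM (Ne.symm hMH))
    obtain ⟨g, hgc, rfl⟩ := exists_of_mem_omegaGL Q (hMΩ hxM)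
    have hgN : (g : Matrix.GeneralLinearGroup ι F) ∉ Cfsg.Geo.subalgebraNormalizer K :=
      fun h => hxH ⟨h, hMΩ hxM⟩
    have hLine : ∀ u : ι → F, Q u = 0 →
        Line Q (M.comap (Cfsg.isometryGroup F ⇑Q).subtype) u (θ *ᵥ u) := by
      intro u hu c
      have hp : polar ⇑Q u (c • θ *ᵥ u) = 0 := by
        rw [polar_smul_right, kd.polar_self_theta hu, smul_zero]
      exact ⟨hu, hp, hHM (hH u hu c hp)⟩
    have hcomm : commutator ↥(Cfsg.isometryGroup F ⇑Q)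
        ≤ M.comap (Cfsg.isometryGroup F ⇑Q).subtype := by
      by_cases hall : ∀ u : ι → F, Q u = 0 → mt(g) *ᵥ (θ *ᵥ u) ∈ KS θ (mt(g) *ᵥ u)
      · exfalso
        obtain ⟨α, β, hαβ⟩ := kd.exists_coeff_of_forall hQ hn g hall
        exact hgN (mem_normalizer_of_coeff K θ hθK hspan hθ1 _ α β hαβ)
      · push Not at hall
        obtain ⟨u, hu, hgu⟩ := hall
        exact kd.omega_le_of_moved hQ hn hLine (g := g) hxM hu hgu
    intro y hy
    obtain ⟨h, hhc, rfl⟩ := exists_of_mem_omegaGL Q hy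
    exact hcomm hhc

end GUE

end Cfsg.Agent.Lib.Helper65
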