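import Mathlib

/-!
# LC-B6: at most 759 octads in a binary code of length 24 and minimum distance 8
-/

namespace Cfsg.Agent.Lib.Helper65.LCB6

/-- The support of a binary word. -/
noncomputable def supp (c : Fin 24 → ZMod 2) : Finset (Fin 24) :=
  Finset.univ.filter (fun i => c i ≠ 0)

theorem card_supp (c : Fin 24 → ZMod 2) : (supp c).card = hammingNorm c := rfl

theorem zmod2_cases (a : ZMod 2) : a = 0 ∨ a = 1 := by
  revert a; decide

theorem supp_add_subset (c d : Fin 24 → ZMod 2) :
    supp (c + d) ⊆ (supp c ∪ supp d) \ (supp c ∩ supp d) := by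
  intro i
  simp only [supp, Finset.mem_filter, Finset.mem_univ, true_and, Finset.mem_sdiff,
    Finset.mem_union, Finset.mem_inter, Pi.add_apply]
  rcases zmod2_cases (c i) with h | h <;> rcases zmod2_cases (d i) with h' | h' <;>
    simp [h, h'] <;> decide

theorem octad_bound (C : Submodule (ZMod 2) (Fin 24 → ZMod 2))
    (hmin : ∀ c ∈ C, c ≠ 0 → 8 ≤ hammingNorm c) :
    {c : Fin 24 → ZMod 2 | c ∈ C ∧ hammingNorm c = 8}.ncard ≤ 759 := by
  classical
  set S : Set (Fin 24 → ZMod 2) := {c | c ∈ C ∧ hammingNorm c = 8} with hS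
  have hfin : S.Finite := Set.toFinite S
  set T : Finset (Fin 24 → ZMod 2) := hfin.toFinset with hT
  have hcard : S.ncard = T.card := Set.ncard_eq_toFinset_card S hfin
  rw [hcard]
  have hmemT : ∀ c, c ∈ T ↔ c ∈ C ∧ hammingNorm c = 8 := by
    intro c; simp [hT, hS]
  have hdisj : ∀ c ∈ T, ∀ d ∈ T, c ≠ d →
      Disjoint ((supp c).powersetCard 5) ((supp d).powersetCard 5) := by
    intro c hc d hd hcd
    rw [Finset.disjoint_left]
    intro P hP hP'
    rw [Finset.mem_powersetCard] at hP hP'
    obtain ⟨hcC, hc8⟩ := (hmemT c).1 hc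
    obtain ⟨hdC, hd8⟩ := (hmemT d).1 hd
    have hne : c + d ≠ 0 := by
      intro h
      apply hcd
      have h1 : c = -d := eq_neg_of_add_eq_zero_left h
      rw [h1]
      funext i
      rcases zmod2_cases (d i) with h' | h' <;> simp [h']
    have h8 := hmin (c + d) (C.add_mem hcC hdC) hne
    have hsub := supp_add_subset c d
    have hinter : 5 ≤ (supp c ∩ supp d).card := by
      calc 5 = P.card := hP.2.symm
        _ ≤ _ := Finset.card_le_card (Finset.subset_inter hP.1 hP'.1)
    have hunion : (supp c ∪ supp d).card + (supp c ∩ supp d).card = 16 := by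
      rw [Finset.card_union_add_card_inter, card_supp, card_supp, hc8, hd8]
    have h3 := Finset.card_le_card hsub
    rw [Finset.card_sdiff_of_subset
      (Finset.inter_subset_left.trans Finset.subset_union_left), card_supp] at h3
    omega
  have hsum : (T.biUnion fun c => (supp c).powersetCard 5).card = 56 * T.card := by
    rw [Finset.card_biUnion hdisj, Finset.sum_const_nat (m := 56)]
    · ring
    · intro c hc
      rw [Finset.card_powersetCard, card_supp, ((hmemT c).1 hc).2]
      rfl
  have hle : (T.biUnion fun c => (supp c).powersetCard 5).card ≤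
      ((Finset.univ : Finset (Fin 24)).powersetCard 5).card := by
    apply Finset.card_le_card
    intro P hP
    rw [Finset.mem_biUnion] at hP
    obtain ⟨c, _, hP⟩ := hP
    rw [Finset.mem_powersetCard] at hP ⊢
    exact ⟨Finset.subset_univ _, hP.2⟩
  rw [Finset.card_powersetCard, Finset.card_univ, Fintype.card_fin] at hle
  have h24 : Nat.choose 24 5 = 42504 := by decide
  omega

end Cfsg.Agent.Lib.Helper65.LCB6
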