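import Mathlib
import Cfsg.Prelude.Def_GeometricClasses
import Cfsg.Prelude.Def_LieClassical
import Cfsg.Agent.Lib.Helper65.OMPDefs
import Cfsg.Agent.Lib.Helper52.Siegel
import Cfsg.Agent.Lib.Helper52.GeoOmega
import Cfsg.Agent.Lib.Helper51.OTransportOdd

/-! Project OMP (helper65), piece NO1 (proof by helper54): `Ω_{2m+1}(q)`, `q` odd, `m ≥ 3`,
stabilises no proper non-zero subspace (Eichler transformations). -/

set_option autoImplicit false

namespace Cfsg.Agent.Lib.Helper65.OMP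

open Matrix Cfsg.Geo

variable {ι κ : Type} [Fintype ι] [DecidableEq ι] [Fintype κ] [DecidableEq κ]
  {F : Type*} [Field F] [Fintype F] {n : ℕ}

omit [Fintype κ] [DecidableEq κ] [Fintype F] in
/-- step (A): a subspace invariant under the Eichler transformations, containing `x`, contains
every singular `u` not orthogonal to `x`, and the hyperplane `u⊥`. -/
theorem NO1_stepA (Q : QuadraticForm F (ι → F))
    (hQ : (QuadraticMap.polarBilin Q).Nondegenerate) (h2 : (2 : F) ≠ 0)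
    (hcard : 3 ≤ Fintype.card ι) (W : Submodule F (ι → F))
    (hE : ∀ u w : ι → F, Q u = 0 → QuadraticMap.polar ⇑Q u w = 0 → ∀ x ∈ W,
      (Cfsg.Agent.Lib.Helper52.eichMat Q u w) *ᵥ x ∈ W)
    (x : ι → F) (hx : x ∈ W) (u : ι → F) (hu : Q u = 0)
    (hβ : QuadraticMap.polar ⇑Q u x ≠ 0) :
    u ∈ W ∧ ∀ w : ι → F, QuadraticMap.polar ⇑Q u w = 0 → w ∈ W := by
  have hd : ∀ w : ι → F, QuadraticMap.polar ⇑Q u w = 0 →
      QuadraticMap.polar ⇑Q w x • u - QuadraticMap.polar ⇑Q u x • w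
        - (Q w * QuadraticMap.polar ⇑Q u x) • u ∈ W := by
    intro w hw
    have h1 := hE u w hu hw x hx
    rw [Cfsg.Agent.Lib.Helper52.eichMat_mulVec] at h1
    have h3 := W.sub_mem h1 hx
    have e : x + QuadraticMap.polar ⇑Q w x • u - QuadraticMap.polar ⇑Q u x • w
        - (Q w * QuadraticMap.polar ⇑Q u x) • u - x
        = QuadraticMap.polar ⇑Q w x • u - QuadraticMap.polar ⇑Q u x • w
        - (Q w * QuadraticMap.polar ⇑Q u x) • u := by abel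
    rw [e] at h3
    exact h3
  have hu0 : u ≠ 0 := by
    rintro rfl
    apply hβ
    rw [QuadraticMap.polar_zero_left]
  obtain ⟨w₀, hw₀, horth⟩ := Cfsg.Agent.Lib.Helper52.exists_nonsingular_orth_of_ts Q hQ
    (Submodule.span F ({u} : Set (ι → F)))
    (fun w hw => by
      obtain ⟨c, rfl⟩ := Submodule.mem_span_singleton.mp hw
      rw [QuadraticMap.map_smul, hu, smul_zero])
    (by rw [finrank_span_singleton hu0]; omega)
  have hw₀u : QuadraticMap.polar ⇑Q u w₀ = 0 := by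
    rw [QuadraticMap.polar_comm]
    exact horth u (Submodule.mem_span_singleton_self u)
  have hneg : QuadraticMap.polar ⇑Q u (-w₀) = 0 := by
    rw [QuadraticMap.polar_neg_right, hw₀u, neg_zero]
  have h3 := W.add_mem (hd w₀ hw₀u) (hd (-w₀) hneg)
  have h4 : (QuadraticMap.polar ⇑Q w₀ x • u - QuadraticMap.polar ⇑Q u x • w₀
        - (Q w₀ * QuadraticMap.polar ⇑Q u x) • u)
      + (QuadraticMap.polar ⇑Q (-w₀) x • u - QuadraticMap.polar ⇑Q u x • (-w₀)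
        - (Q (-w₀) * QuadraticMap.polar ⇑Q u x) • u)
      = (-(2 * Q w₀ * QuadraticMap.polar ⇑Q u x)) • u := by
    rw [QuadraticMap.polar_neg_left, QuadraticMap.map_neg]
    module
  rw [h4] at h3
  have hne : -(2 * Q w₀ * QuadraticMap.polar ⇑Q u x) ≠ 0 :=
    neg_ne_zero.mpr (mul_ne_zero (mul_ne_zero h2 hw₀) hβ)
  have huW : u ∈ W := (W.smul_mem_iff hne).mp h3
  refine ⟨huW, fun w hw => ?_⟩
  have h5 := hd w hw
  have h6 : QuadraticMap.polar ⇑Q u x • w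
      = QuadraticMap.polar ⇑Q w x • u - (Q w * QuadraticMap.polar ⇑Q u x) • u
        - (QuadraticMap.polar ⇑Q w x • u - QuadraticMap.polar ⇑Q u x • w
          - (Q w * QuadraticMap.polar ⇑Q u x) • u) := by abel
  have h7 : QuadraticMap.polar ⇑Q u x • w ∈ W := by
    rw [h6]
    exact W.sub_mem (W.sub_mem (W.smul_mem _ huW) (W.smul_mem _ huW)) h5
  exact (W.smul_mem_iff hβ).mp h7

omit [Fintype F] in
theorem NO1_Q_single_inl (m : ℕ) (i : Fin m) :
    Cfsg.Agent.Lib.Helper51.QOdd m F (Pi.single (Sum.inr (Sum.inl i)) 1) = 0 := by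
  rw [Cfsg.Agent.Lib.Helper51.QOdd_apply]
  simp [Pi.single_apply]

omit [Fintype F] in
theorem NO1_Q_single_inr (m : ℕ) (i : Fin m) :
    Cfsg.Agent.Lib.Helper51.QOdd m F (Pi.single (Sum.inr (Sum.inr i)) 1) = 0 := by
  rw [Cfsg.Agent.Lib.Helper51.QOdd_apply]
  simp [Pi.single_apply]

omit [Fintype F] in
theorem NO1_polar_single_inl (m : ℕ) (i : Fin m) (x : Unit ⊕ (Fin m ⊕ Fin m) → F) :
    QuadraticMap.polar ⇑(Cfsg.Agent.Lib.Helper51.QOdd m F) (Pi.single (Sum.inr (Sum.inl i)) 1) x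
      = x (Sum.inr (Sum.inr i)) := by
  rw [Cfsg.Agent.Lib.Helper51.polar_QOdd]
  simp [Pi.single_apply]

omit [Fintype F] in
theorem NO1_polar_single_inr (m : ℕ) (i : Fin m) (x : Unit ⊕ (Fin m ⊕ Fin m) → F) :
    QuadraticMap.polar ⇑(Cfsg.Agent.Lib.Helper51.QOdd m F) (Pi.single (Sum.inr (Sum.inr i)) 1) x
      = x (Sum.inr (Sum.inl i)) := by
  rw [Cfsg.Agent.Lib.Helper51.polar_QOdd]
  simp [Pi.single_apply]

/-- the singular vector `e₀ + e_i - f_i` -/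
def NO1_vec (m : ℕ) (F : Type*) [Field F] (i : Fin m) : Unit ⊕ (Fin m ⊕ Fin m) → F :=
  fun k => Sum.elim (fun _ => 1)
    (Sum.elim (fun j => if j = i then 1 else 0) (fun j => if j = i then -1 else 0)) k

omit [Fintype F] in
theorem NO1_Q_vec (m : ℕ) (i : Fin m) :
    Cfsg.Agent.Lib.Helper51.QOdd m F (NO1_vec m F i) = 0 := by
  rw [Cfsg.Agent.Lib.Helper51.QOdd_apply]
  simp [NO1_vec]

omit [Fintype F] in
theorem NO1_polar_vec (m : ℕ) (i : Fin m) (x : Unit ⊕ (Fin m ⊕ Fin m) → F)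
    (h1 : ∀ j, x (Sum.inr (Sum.inl j)) = 0) (h2 : ∀ j, x (Sum.inr (Sum.inr j)) = 0) :
    QuadraticMap.polar ⇑(Cfsg.Agent.Lib.Helper51.QOdd m F) (NO1_vec m F i) x
      = 2 * x (Sum.inl ()) := by
  rw [Cfsg.Agent.Lib.Helper51.polar_QOdd]
  simp [NO1_vec, h1, h2]

omit [Fintype F] in
/-- step (B): every non-zero vector is non-orthogonal to some singular vector -/
theorem NO1_stepB (h2 : (2 : F) ≠ 0) (m : ℕ) (hm : 1 ≤ m) (x : Unit ⊕ (Fin m ⊕ Fin m) → F)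
    (hx : x ≠ 0) :
    ∃ u : Unit ⊕ (Fin m ⊕ Fin m) → F, Cfsg.Agent.Lib.Helper51.QOdd m F u = 0 ∧
      QuadraticMap.polar ⇑(Cfsg.Agent.Lib.Helper51.QOdd m F) u x ≠ 0 := by
  by_cases h1 : ∃ i, x (Sum.inr (Sum.inl i)) ≠ 0
  · obtain ⟨i, hi⟩ := h1
    exact ⟨Pi.single (Sum.inr (Sum.inr i)) 1, NO1_Q_single_inr m i, by
      rw [NO1_polar_single_inr]; exact hi⟩
  by_cases h3 : ∃ i, x (Sum.inr (Sum.inr i)) ≠ 0
  · obtain ⟨i, hi⟩ := h3
    exact ⟨Pi.single (Sum.inr (Sum.inl i)) 1, NO1_Q_single_inl m i, by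
      rw [NO1_polar_single_inl]; exact hi⟩
  push Not at h1 h3
  have hx0 : x (Sum.inl ()) ≠ 0 := by
    intro h0
    apply hx
    funext k
    rcases k with ⟨⟩ | j | j
    · exact h0
    · exact h1 j
    · exact h3 j
  refine ⟨NO1_vec m F ⟨0, by omega⟩, NO1_Q_vec m _, ?_⟩
  rw [NO1_polar_vec m _ x h1 h3]
  exact mul_ne_zero h2 hx0

/-- NO1 -/
theorem NO1 (hodd : Odd (Fintype.card F)) (m : ℕ) (hm : 3 ≤ m)
    (W : Submodule F (Unit ⊕ (Fin m ⊕ Fin m) → F)) (h0 : W ≠ ⊥) (h1 : W ≠ ⊤) :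
    ¬ omegaGL (Cfsg.quadFormOdd m F) ≤ subspaceStabilizer W := by
  intro hΩ
  rw [← Cfsg.Agent.Lib.Helper51.coe_QOdd] at hΩ
  have h2 : (2 : F) ≠ 0 := Cfsg.Agent.Lib.Helper51.two_ne_zero_of_odd_card hodd
  have hQ := Cfsg.Agent.Lib.Helper51.OTransportOdd.QOdd_nondeg (F := F) h2 m
  have hcard : Fintype.card (Unit ⊕ (Fin m ⊕ Fin m)) = 1 + (m + m) := by
    simp
  have hE : ∀ u w : Unit ⊕ (Fin m ⊕ Fin m) → F, Cfsg.Agent.Lib.Helper51.QOdd m F u = 0 →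
      QuadraticMap.polar ⇑(Cfsg.Agent.Lib.Helper51.QOdd m F) u w = 0 → ∀ x ∈ W,
      (Cfsg.Agent.Lib.Helper52.eichMat (Cfsg.Agent.Lib.Helper51.QOdd m F) u w) *ᵥ x ∈ W := by
    intro u w hu huw x hx
    have hmem := Cfsg.Agent.Lib.Helper52.coe_mem_omegaGL (Cfsg.Agent.Lib.Helper51.QOdd m F)
      (Cfsg.Agent.Lib.Helper52.eich_mem_commutator (Cfsg.Agent.Lib.Helper51.QOdd m F) hQ
        (by rw [hcard]; omega) u w hu huw)
    have h3 := hΩ hmem
    rw [Cfsg.Agent.Lib.Helper52.mem_subspaceStabilizer_iff] at h3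
    exact (h3 x).mp hx
  obtain ⟨x, hxW, hx0⟩ := Submodule.exists_mem_ne_zero_of_ne_bot h0
  obtain ⟨u, hu, hux⟩ := NO1_stepB h2 m (by omega) x hx0
  obtain ⟨huW, huperp⟩ := NO1_stepA (Cfsg.Agent.Lib.Helper51.QOdd m F) hQ h2
    (by rw [hcard]; omega) W hE x hxW u hu hux
  have hu0 : u ≠ 0 := by
    rintro rfl
    apply hux
    rw [QuadraticMap.polar_zero_left]
  obtain ⟨u', hu', hu'u⟩ := NO1_stepB h2 m (by omega) u hu0
  obtain ⟨hu'W, -⟩ := NO1_stepA (Cfsg.Agent.Lib.Helper51.QOdd m F) hQ h2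
    (by rw [hcard]; omega) W hE u huW u' hu' hu'u
  have huu' : QuadraticMap.polar ⇑(Cfsg.Agent.Lib.Helper51.QOdd m F) u u' ≠ 0 := by
    rw [QuadraticMap.polar_comm]; exact hu'u
  apply h1
  rw [eq_top_iff]
  intro v _
  obtain ⟨t, ht⟩ : ∃ t : F, t = QuadraticMap.polar ⇑(Cfsg.Agent.Lib.Helper51.QOdd m F) u v /
      QuadraticMap.polar ⇑(Cfsg.Agent.Lib.Helper51.QOdd m F) u u' := ⟨_, rfl⟩
  have h5 : QuadraticMap.polar ⇑(Cfsg.Agent.Lib.Helper51.QOdd m F) u (v - t • u') = 0 := by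
    rw [QuadraticMap.polar_sub_right, QuadraticMap.polar_smul_right, ht, smul_eq_mul,
      div_mul_cancel₀ _ huu', sub_self]
  have h6 := huperp (v - t • u') h5
  have h7 : v = (v - t • u') + t • u' := by abel
  rw [h7]
  exact W.add_mem h6 (W.smul_mem t hu'W)

end Cfsg.Agent.Lib.Helper65.OMP
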