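import Mathlib
import Cfsg.Prelude.Def_GeometricClasses
import Cfsg.Prelude.Def_LieClassical
import Cfsg.Agent.Lib.Helper65.OMPDefs
import Cfsg.Agent.Lib.Helper52.Siegel
import Cfsg.Agent.Lib.Helper52.GeoOmega
import Cfsg.Agent.Lib.Helper51.HypPairs
import Cfsg.Agent.Lib.Helper51.OTransportOdd

/-! Project OMP (helper65), piece NO2 (proved by helper92): `Ω_{2m+1}(q)` does not stabilise an
orthogonal frame. -/

set_option autoImplicit false

namespace Cfsg.Agent.Lib.Helper65.OMP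

open Matrix Cfsg.Geo

variable {ι κ : Type} [Fintype ι] [DecidableEq ι] [Fintype κ] [DecidableEq κ]
  {F : Type*} [Field F] [Fintype F] {n : ℕ}

omit [Fintype F] in
theorem NO2_polar_eich (Q : QuadraticForm F (ι → F)) (u w x y : ι → F) :
    QuadraticMap.polar ⇑Q ((Cfsg.Agent.Lib.Helper52.eichMat Q u w) *ᵥ x) y
      = QuadraticMap.polar ⇑Q x y + QuadraticMap.polar ⇑Q w x * QuadraticMap.polar ⇑Q u y
        - QuadraticMap.polar ⇑Q u x * QuadraticMap.polar ⇑Q w y
        - (Q w * QuadraticMap.polar ⇑Q u x) * QuadraticMap.polar ⇑Q u y := by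
  rw [Cfsg.Agent.Lib.Helper52.eichMat_mulVec]
  simp only [QuadraticMap.polar_add_left, QuadraticMap.polar_sub_left,
    QuadraticMap.polar_smul_left, smul_eq_mul]

omit [Fintype ι] [DecidableEq ι] [Fintype F] in
theorem NO2_exists_gen {t : ℕ} (D : Fin t → Submodule F (ι → F))
    (h1 : ∀ i, Module.finrank F (D i) = 1) :
    ∃ b : Fin t → (ι → F), (∀ i, b i ∈ D i) ∧ (∀ i, b i ≠ 0) ∧
      ∀ i, ∀ y ∈ D i, ∃ c : F, y = c • b i := by
  have h : ∀ i, ∃ v : ι → F, v ∈ D i ∧ v ≠ 0 ∧ ∀ y ∈ D i, ∃ c : F, y = c • v := by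
    intro i
    have hne : D i ≠ ⊥ := by
      intro hbot
      have h' := h1 i
      rw [hbot, finrank_bot] at h'
      exact zero_ne_one h'
    obtain ⟨v, hv, hv0⟩ := Submodule.exists_mem_ne_zero_of_ne_bot hne
    refine ⟨v, hv, hv0, fun y hy => ?_⟩
    have hv0' : (⟨v, hv⟩ : D i) ≠ 0 := by
      intro h
      exact hv0 (congrArg Subtype.val h)
    obtain ⟨c, hc⟩ := (finrank_eq_one_iff_of_nonzero' (⟨v, hv⟩ : D i) hv0').mp (h1 i) ⟨y, hy⟩
    refine ⟨c, ?_⟩
    have h' := congrArg Subtype.val hc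
    simpa using h'.symm
  choose b hb1 hb2 hb3 using h
  exact ⟨b, hb1, hb2, hb3⟩

omit [DecidableEq ι] [Fintype F] in
theorem NO2_card_le {t : ℕ} (D : Fin t → Submodule F (ι → F)) (hD : IsMDecomposition 1 D) :
    Fintype.card ι ≤ t := by
  obtain ⟨b, hb, hb0, hspan⟩ := NO2_exists_gen D hD.finrank_eq
  have htop : Submodule.span F (Set.range b) = ⊤ := by
    rw [eq_top_iff, ← hD.iSup_eq_top]
    refine iSup_le fun i => ?_
    intro y hy
    obtain ⟨c, rfl⟩ := hspan i y hy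
    exact Submodule.smul_mem _ c (Submodule.subset_span ⟨i, rfl⟩)
  have h1 : (Set.range b).finrank F ≤ Fintype.card (Fin t) := finrank_range_le_card b
  have h2 : (Set.range b).finrank F = Fintype.card ι := by
    unfold Set.finrank
    rw [htop, finrank_top, Module.finrank_fintype_fun_eq_card]
  rw [h2, Fintype.card_fin] at h1
  exact h1

omit [Fintype F] in
theorem NO2_core (Q : QuadraticForm F (ι → F)) (hQ : (QuadraticMap.polarBilin Q).Nondegenerate)
    {t : ℕ} (D : Fin t → Submodule F (ι → F))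
    (hD : IsNondegenerateMDecomposition (QuadraticMap.polar ⇑Q) 1 D)
    (ht : 5 ≤ t) (u : ι → F) (hu0 : u ≠ 0)
    (hstab : ∀ w : ι → F, QuadraticMap.polar ⇑Q u w = 0 → ∀ i, ∀ x ∈ D i,
      ∃ k, (Cfsg.Agent.Lib.Helper52.eichMat Q u w) *ᵥ x ∈ D k) : False := by
  obtain ⟨b, hb, hb0, hspan⟩ := NO2_exists_gen D hD.decomp.finrank_eq
  have horth : ∀ i j, i ≠ j → QuadraticMap.polar ⇑Q (b i) (b j) = 0 :=
    fun i j hij => hD.orthogonal i j hij (b i) (hb i) (b j) (hb j)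
  have hN : ∀ i, QuadraticMap.polar ⇑Q (b i) (b i) ≠ 0 := by
    intro i
    obtain ⟨⟨x, hx, hxne⟩, -⟩ := hD.nondegenerate i (b i) (hb i) (hb0 i)
    obtain ⟨c, rfl⟩ := hspan i x hx
    intro h0
    apply hxne
    rw [QuadraticMap.polar_smul_left, h0, smul_zero]
  have key : ∀ (v : ι → F) (i j : Fin t), i ≠ j → QuadraticMap.polar ⇑Q v (b i) ≠ 0 →
      QuadraticMap.polar ⇑Q v (b j) ≠ 0 → ∀ k, v ∉ D k := by
    intro v i j hij hi hj k hk
    by_cases hki : k = i
    · subst hki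
      exact hj (hD.orthogonal k j hij v hk (b j) (hb j))
    · exact hi (hD.orthogonal k i hki v hk (b i) (hb i))
  have htot : ∀ v : ι → F, (∀ i, QuadraticMap.polar ⇑Q v (b i) = 0) → v = 0 := by
    intro v hv
    apply hQ.1
    intro y
    have hy : y ∈ iSup D := by rw [hD.decomp.iSup_eq_top]; trivial
    refine Submodule.iSup_induction D (motive := fun y => QuadraticMap.polarBilin Q v y = 0)
      hy ?_ ?_ ?_
    · intro i x hx
      obtain ⟨c, rfl⟩ := hspan i x hx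
      rw [QuadraticMap.polarBilin_apply_apply, QuadraticMap.polar_smul_right, hv i, smul_zero]
    · simp
    · intro x y hx hy
      rw [map_add, hx, hy, add_zero]
  by_cases hc : ∃ k, QuadraticMap.polar ⇑Q u (b k) = 0
  · obtain ⟨k, hk⟩ := hc
    obtain ⟨i, hi⟩ : ∃ i, QuadraticMap.polar ⇑Q u (b i) ≠ 0 := by
      by_contra h
      push Not at h
      exact hu0 (htot u h)
    have hik : i ≠ k := by
      rintro rfl
      exact hi hk
    obtain ⟨j, hj⟩ := hstab (b k) hk k (b k) (hb k)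
    refine key _ i k hik ?_ ?_ j hj
    · have e : QuadraticMap.polar ⇑Q ((Cfsg.Agent.Lib.Helper52.eichMat Q u (b k)) *ᵥ b k) (b i)
          = QuadraticMap.polar ⇑Q (b k) (b k) * QuadraticMap.polar ⇑Q u (b i) := by
        rw [NO2_polar_eich, horth k i (Ne.symm hik), hk]
        ring
      rw [e]
      exact mul_ne_zero (hN k) hi
    · have e : QuadraticMap.polar ⇑Q ((Cfsg.Agent.Lib.Helper52.eichMat Q u (b k)) *ᵥ b k) (b k)
          = QuadraticMap.polar ⇑Q (b k) (b k) := by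
        rw [NO2_polar_eich, hk]
        ring
      rw [e]
      exact hN k
  · push Not at hc
    obtain ⟨i1, i2, i3, i4, i5, h12, h13, h23, h14, h24, h34, h15, h25, h35, h45⟩ :
        ∃ i1 i2 i3 i4 i5 : Fin t, i1 ≠ i2 ∧ i1 ≠ i3 ∧ i2 ≠ i3 ∧ i1 ≠ i4 ∧ i2 ≠ i4 ∧ i3 ≠ i4 ∧
          i1 ≠ i5 ∧ i2 ≠ i5 ∧ i3 ≠ i5 ∧ i4 ≠ i5 :=
      ⟨⟨0, by omega⟩, ⟨1, by omega⟩, ⟨2, by omega⟩, ⟨3, by omega⟩, ⟨4, by omega⟩,
        by simp, by simp, by simp, by simp, by simp, by simp, by simp, by simp, by simp, by simp⟩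
    obtain ⟨w, hw⟩ : ∃ w : ι → F, w = QuadraticMap.polar ⇑Q u (b i2) • b i1
        - QuadraticMap.polar ⇑Q u (b i1) • b i2 := ⟨_, rfl⟩
    have hwy : ∀ y, QuadraticMap.polar ⇑Q w y
        = QuadraticMap.polar ⇑Q u (b i2) * QuadraticMap.polar ⇑Q (b i1) y
          - QuadraticMap.polar ⇑Q u (b i1) * QuadraticMap.polar ⇑Q (b i2) y := by
      intro y
      rw [hw]
      simp only [QuadraticMap.polar_sub_left, QuadraticMap.polar_smul_left, smul_eq_mul]
    have huw : QuadraticMap.polar ⇑Q u w = 0 := by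
      rw [QuadraticMap.polar_comm, hwy, QuadraticMap.polar_comm _ (b i1) u,
        QuadraticMap.polar_comm _ (b i2) u]
      ring
    obtain ⟨j, hj⟩ := hstab w huw i3 (b i3) (hb i3)
    by_cases hQw : Q w = 0
    · refine key _ i1 i2 h12 ?_ ?_ j hj
      · intro h
        simp only [NO2_polar_eich, hwy, hQw, horth i3 i1 (Ne.symm h13), horth i1 i3 h13,
          horth i2 i3 h23, horth i2 i1 (Ne.symm h12)] at h
        have h' : QuadraticMap.polar ⇑Q u (b i3) * QuadraticMap.polar ⇑Q u (b i2)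
            * QuadraticMap.polar ⇑Q (b i1) (b i1) = 0 := by
          linear_combination (-1 : F) * h
        exact mul_ne_zero (mul_ne_zero (hc i3) (hc i2)) (hN i1) h'
      · intro h
        simp only [NO2_polar_eich, hwy, hQw, horth i3 i2 (Ne.symm h23), horth i1 i3 h13,
          horth i2 i3 h23, horth i1 i2 h12] at h
        have h' : QuadraticMap.polar ⇑Q u (b i3) * QuadraticMap.polar ⇑Q u (b i1)
            * QuadraticMap.polar ⇑Q (b i2) (b i2) = 0 := by
          linear_combination h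
        exact mul_ne_zero (mul_ne_zero (hc i3) (hc i1)) (hN i2) h'
    · refine key _ i4 i5 h45 ?_ ?_ j hj
      · intro h
        simp only [NO2_polar_eich, hwy, horth i3 i4 h34, horth i1 i3 h13,
          horth i2 i3 h23, horth i1 i4 h14, horth i2 i4 h24] at h
        have h' : Q w * QuadraticMap.polar ⇑Q u (b i3) * QuadraticMap.polar ⇑Q u (b i4) = 0 := by
          linear_combination (-1 : F) * h
        exact mul_ne_zero (mul_ne_zero hQw (hc i3)) (hc i4) h'
      · intro h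
        simp only [NO2_polar_eich, hwy, horth i3 i5 h35, horth i1 i3 h13,
          horth i2 i3 h23, horth i1 i5 h15, horth i2 i5 h25] at h
        have h' : Q w * QuadraticMap.polar ⇑Q u (b i3) * QuadraticMap.polar ⇑Q u (b i5) = 0 := by
          linear_combination (-1 : F) * h
        exact mul_ne_zero (mul_ne_zero hQw (hc i3)) (hc i5) h'

/-- NO2 -/
theorem NO2 (hodd : Odd (Fintype.card F)) (m : ℕ) (hm : 3 ≤ m) {t : ℕ}
    (D : Fin t → Submodule F (Unit ⊕ (Fin m ⊕ Fin m) → F))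
    (hD : IsOrthogonalMDecomposition (Cfsg.quadFormOdd m F) 1 D) :
    ¬ omegaGL (Cfsg.quadFormOdd m F) ≤ decompositionStabilizer D := by
  intro hΩ
  have h2 : (2 : F) ≠ 0 := Cfsg.Agent.Lib.Helper51.two_ne_zero_of_odd_card hodd
  have hD' := hD.decomp
  rw [← Cfsg.Agent.Lib.Helper51.coe_QOdd] at hΩ hD'
  have hQ := Cfsg.Agent.Lib.Helper51.OTransportOdd.QOdd_nondeg (F := F) h2 m
  have hcard : Fintype.card (Unit ⊕ (Fin m ⊕ Fin m)) = 1 + (m + m) := by
    simp [Fintype.card_sum]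
  have hn : 5 ≤ Fintype.card (Unit ⊕ (Fin m ⊕ Fin m)) := by omega
  have ht : 5 ≤ t := le_trans hn (NO2_card_le D hD'.decomp)
  obtain ⟨u, hu⟩ : ∃ u : Unit ⊕ (Fin m ⊕ Fin m) → F,
      u = Pi.single (Sum.inr (Sum.inl (⟨0, by omega⟩ : Fin m))) (1 : F) := ⟨_, rfl⟩
  have hQu : (Cfsg.Agent.Lib.Helper51.QOdd m F) u = 0 := by
    rw [Cfsg.Agent.Lib.Helper51.QOdd_apply, hu]
    simp [Pi.single_apply]
  have hu0 : u ≠ 0 := by
    intro h
    have h' := congrFun h (Sum.inr (Sum.inl (⟨0, by omega⟩ : Fin m)))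
    rw [hu] at h'
    simp at h'
  refine NO2_core (Cfsg.Agent.Lib.Helper51.QOdd m F) hQ D hD' ht u hu0 ?_
  intro w hw i x hx
  have hmem : ((Cfsg.Agent.Lib.Helper52.eich (Cfsg.Agent.Lib.Helper51.QOdd m F) u w hQu hw :
      ↥(Cfsg.isometryGroup F ⇑(Cfsg.Agent.Lib.Helper51.QOdd m F))) :
      Matrix.GeneralLinearGroup (Unit ⊕ (Fin m ⊕ Fin m)) F)
        ∈ omegaGL ⇑(Cfsg.Agent.Lib.Helper51.QOdd m F) :=
    Cfsg.Agent.Lib.Helper52.coe_mem_omegaGL _
      (Cfsg.Agent.Lib.Helper52.eich_mem_commutator _ hQ hn u w hQu hw)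
  obtain ⟨σ, hσ⟩ := hΩ hmem
  refine ⟨σ i, ?_⟩
  have h3 : Matrix.toLin' (Cfsg.Agent.Lib.Helper52.eichMat (Cfsg.Agent.Lib.Helper51.QOdd m F) u w) x
      ∈ D (σ i) := by
    rw [← hσ i]
    exact Submodule.mem_map_of_mem hx
  rwa [Matrix.toLin'_apply] at h3

end Cfsg.Agent.Lib.Helper65.OMP
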