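import Mathlib
import Cfsg.Prelude.Def_GeometricClasses
import Cfsg.Prelude.Def_LieClassical
import Cfsg.Agent.Lib.Helper65.OMPDefs
import Cfsg.Agent.Lib.Helper52.GeoOmega
import Cfsg.Agent.Lib.Helper52.NondegBridge

/-! Project OMP (helper65), piece O1a (proved by helper88). -/

set_option autoImplicit false

namespace Cfsg.Agent.Lib.Helper65.OMP

open Matrix Cfsg.Geo

variable {ι κ : Type} [Fintype ι] [DecidableEq ι] [Fintype κ] [DecidableEq κ]
  {F : Type*} [Field F] [Fintype F] {n : ℕ}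

omit [Fintype F] in
theorem O1a_stab (H : Subgroup (GL ι F)) (S : Submodule F (ι → F))
    (hS : ∀ g ∈ H, ∀ v ∈ S, (g : Matrix ι ι F) *ᵥ v ∈ S) : H ≤ subspaceStabilizer S := by
  intro g hg
  rw [Cfsg.Agent.Lib.Helper52.mem_subspaceStabilizer_iff]
  intro v
  constructor
  · exact hS g hg v
  · intro hv
    have h1 := hS g⁻¹ (H.inv_mem hg) _ hv
    rwa [Matrix.mulVec_mulVec, ← Units.val_mul, inv_mul_cancel, Units.val_one,
      Matrix.one_mulVec] at h1

/-- O1a -/
theorem O1a (Q : QuadraticForm F (ι → F)) (hQ : (QuadraticMap.polarBilin Q).Nondegenerate)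
    (h2 : (2 : F) ≠ 0) (hodd : Odd (Fintype.card ι)) (H : Subgroup (GL ι F))
    (hH : H ≤ Cfsg.isometryGroup F ⇑Q) (h : ¬ ActsIrreducibly (matrixSet H)) :
    (∃ W : Submodule F (ι → F), W ≠ ⊥ ∧ IsTotallySingularQuad ⇑Q W ∧
      H ≤ subspaceStabilizer W) ∨
    (∃ W : Submodule F (ι → F), W ≠ ⊥ ∧ W ≠ ⊤ ∧ Even (Module.finrank F W) ∧
      IsNondegenerateOn (QuadraticMap.polar ⇑Q) W ∧ H ≤ subspaceStabilizer W) := by
  classical
  unfold ActsIrreducibly at h
  push Not at h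
  obtain ⟨W, hWinv, hW0, hW1⟩ := h
  have hinvW : ∀ g ∈ H, ∀ v ∈ W, (g : Matrix ι ι F) *ᵥ v ∈ W := by
    intro g hg v hv
    have h1 := hWinv (g : Matrix ι ι F) ⟨g, hg, rfl⟩
    have h3 : Matrix.toLin' (g : Matrix ι ι F) v ∈ W.map (Matrix.toLin' (g : Matrix ι ι F)) :=
      Submodule.mem_map_of_mem hv
    rw [Matrix.toLin'_apply] at h3
    exact h1 h3
  have hiso : ∀ g ∈ H, ∀ u : ι → F, Q ((g : Matrix ι ι F) *ᵥ u) = Q u :=
    fun g hg u => hH hg u 0
  have hpol : ∀ g ∈ H, ∀ u v, QuadraticMap.polar ⇑Q ((g : Matrix ι ι F) *ᵥ u)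
      ((g : Matrix ι ι F) *ᵥ v) = QuadraticMap.polar ⇑Q u v := by
    intro g hg u v
    unfold QuadraticMap.polar
    rw [← Matrix.mulVec_add, hiso g hg (u + v), hiso g hg u, hiso g hg v]
  obtain ⟨Wp, hWp⟩ : ∃ Wp : Submodule F (ι → F),
      Wp = LinearMap.BilinForm.orthogonal (QuadraticMap.polarBilin Q) W := ⟨_, rfl⟩
  have hmem : ∀ x, x ∈ Wp ↔ ∀ n ∈ W, QuadraticMap.polar ⇑Q n x = 0 := by
    intro x
    rw [hWp, LinearMap.BilinForm.mem_orthogonal_iff]
    simp only [QuadraticMap.polarBilin_apply_apply]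
  have hinvWp : ∀ g ∈ H, ∀ v ∈ Wp, (g : Matrix ι ι F) *ᵥ v ∈ Wp := by
    intro g hg v hv
    rw [hmem] at hv ⊢
    intro n hn
    have h1 := hinvW g⁻¹ (H.inv_mem hg) n hn
    have h3 : (g : Matrix ι ι F) *ᵥ (((g⁻¹ : GL ι F) : Matrix ι ι F) *ᵥ n) = n := by
      rw [Matrix.mulVec_mulVec, ← Units.val_mul, mul_inv_cancel, Units.val_one,
        Matrix.one_mulVec]
    rw [← h3, hpol g hg]
    exact hv _ h1
  by_cases hR : W ⊓ Wp = ⊥
  · right
    have hWnd : IsNondegenerateOn (QuadraticMap.polar ⇑Q) W := by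
      intro w hw hw0
      have hwp : w ∉ Wp := by
        intro hwp
        have hwR : w ∈ W ⊓ Wp := ⟨hw, hwp⟩
        rw [hR] at hwR
        exact hw0 ((Submodule.mem_bot F).1 hwR)
      rw [hmem] at hwp
      push Not at hwp
      obtain ⟨x, hx, hxw⟩ := hwp
      exact ⟨⟨x, hx, hxw⟩, ⟨x, hx, by rw [QuadraticMap.polar_comm]; exact hxw⟩⟩
    have hp := Cfsg.Agent.Lib.Helper52.orthPair_orthogonal hQ W hWnd
    rw [← hWp] at hp
    have hfr := hp.finrank_add hQ
    by_cases hev : Even (Module.finrank F W)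
    · exact ⟨W, hW0, hW1, hev, hWnd, O1a_stab H W hinvW⟩
    · refine ⟨Wp, ?_, ?_, ?_, ?_, O1a_stab H Wp hinvWp⟩
      · intro hbot
        apply hW1
        apply Submodule.eq_top_of_finrank_eq
        rw [Module.finrank_fintype_fun_eq_card]
        have h0 : Module.finrank F Wp = 0 := by rw [hbot]; exact finrank_bot F _
        omega
      · intro htop
        apply hW0
        have h1 : Module.finrank F Wp = Fintype.card ι := by
          rw [htop, finrank_top, Module.finrank_fintype_fun_eq_card]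
        have h0 : Module.finrank F W = 0 := by omega
        exact Submodule.finrank_eq_zero.1 h0
      · obtain ⟨k, hk⟩ := hodd
        obtain ⟨j, hj⟩ := Nat.not_even_iff_odd.1 hev
        exact ⟨k - j, by omega⟩
      · intro w hw hw0
        obtain ⟨y, hy, hne⟩ := hp.symm.nondeg hQ hw hw0
        exact ⟨⟨y, hy, by rw [QuadraticMap.polar_comm]; exact hne⟩, ⟨y, hy, hne⟩⟩
  · left
    refine ⟨W ⊓ Wp, hR, ?_, O1a_stab H _ ?_⟩
    · intro w hw
      have h1 : QuadraticMap.polar ⇑Q w w = 0 := (hmem w).1 hw.2 w hw.1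
      have h1' := QuadraticMap.polar_self Q w
      rw [h1', two_nsmul, ← two_mul] at h1
      exact (mul_eq_zero.1 h1).resolve_left h2
    · intro g hg v hv
      exact ⟨hinvW g hg v hv.1, hinvWp g hg v hv.2⟩

end Cfsg.Agent.Lib.Helper65.OMP
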