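import Mathlib
import Cfsg.Prelude.Def_GeometricClasses
import Cfsg.Prelude.Def_LieClassical
import Cfsg.Agent.Lib.Helper65.OMPDefs
import Cfsg.Agent.Lib.Helper52.NondegGeom
import Cfsg.Agent.Lib.Helper52.NondegBridge

/-! Project OMP (helper65), piece O1b: the exact statement; the proof is to be filled in IN THIS FILE
(keep the statement and the theorem name; auxiliary lemmas above it, names prefixed `O1b_`). -/

set_option autoImplicit false

namespace Cfsg.Agent.Lib.Helper65.OMP

open Matrix Cfsg.Geo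

variable {ι κ : Type} [Fintype ι] [DecidableEq ι] [Fintype κ] [DecidableEq κ]
  {F : Type*} [Field F] [Fintype F] {n : ℕ}

omit [Fintype ι] [DecidableEq ι] [Fintype F] in
/-- a hyperbolic partner: the correction making the second vector singular -/
theorem O1b_pair' (Q : QuadraticForm F (ι → F)) (a b₁ : ι → F) (hQa : Q a = 0)
    (hab₁ : QuadraticMap.polar ⇑Q a b₁ = 1) :
    QuadraticMap.polar ⇑Q a (b₁ - Q b₁ • a) = 1 ∧ Q (b₁ - Q b₁ • a) = 0 := by
  have haa : QuadraticMap.polar ⇑Q a a = 0 := by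
    rw [QuadraticMap.polar_self, hQa]; simp
  constructor
  · rw [QuadraticMap.polar_sub_right, QuadraticMap.polar_smul_right, haa, hab₁]; simp
  · have h := QuadraticMap.map_add Q (b₁ - Q b₁ • a) (Q b₁ • a)
    rw [sub_add_cancel] at h
    have e1 : Q (Q b₁ • a) = 0 := by
      rw [QuadraticMap.map_smul, hQa]; simp
    have e2 : QuadraticMap.polar ⇑Q (b₁ - Q b₁ • a) (Q b₁ • a) = Q b₁ := by
      rw [QuadraticMap.polar_smul_right, QuadraticMap.polar_sub_left,
        QuadraticMap.polar_smul_left, haa, QuadraticMap.polar_comm (⇑Q) b₁ a, hab₁]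
      simp
    rw [e1, e2] at h
    linear_combination -h

/-- a hyperbolic partner inside `W` -/
theorem O1b_pair (Q : QuadraticForm F (ι → F)) (W : Submodule F (ι → F)) (a b₀ : ι → F)
    (haW : a ∈ W) (hb₀W : b₀ ∈ W) (hQa : Q a = 0) (hne : QuadraticMap.polar ⇑Q a b₀ ≠ 0) :
    ∃ b ∈ W, QuadraticMap.polar ⇑Q a b = 1 ∧ Q b = 0 := by
  have hab₁ : QuadraticMap.polar ⇑Q a ((QuadraticMap.polar ⇑Q a b₀)⁻¹ • b₀) = 1 := by
    rw [QuadraticMap.polar_smul_right, smul_eq_mul]
    exact inv_mul_cancel₀ hne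
  obtain ⟨h1, h2⟩ := O1b_pair' Q a _ hQa hab₁
  exact ⟨_, W.sub_mem (W.smul_mem _ hb₀W) (W.smul_mem _ haW), h1, h2⟩

/-- in a hyperbolic plane over the field with three elements the vectors of norm one are `±x₀` -/
theorem O1b_aux1 (Q : QuadraticForm F (ι → F)) (hq : Fintype.card F = 3)
    (W : Submodule F (ι → F)) (hdim : Module.finrank F W = 2)
    (hW : IsNondegenerateOn (QuadraticMap.polar ⇑Q) W) (hplus : IsPlusTypeOn ⇑Q W) :
    ∃ x₀ ∈ W, Q x₀ = 1 ∧ ∀ w ∈ W, Q w = 1 → w = x₀ ∨ w = -x₀ := by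
  classical
  have hsq : ∀ c : F, c ≠ 0 → c * c = 1 := by
    intro c hc
    have := FiniteField.pow_card_sub_one_eq_one c hc
    rw [hq] at this
    rw [← sq]
    simpa using this
  obtain ⟨U, hUW, hUs, hUd⟩ := hplus
  have hU1 : Module.finrank F U = 1 := by omega
  have hUne : U ≠ ⊥ := by
    intro h
    rw [h, finrank_bot] at hU1
    omega
  obtain ⟨a, haU, ha0⟩ := Submodule.exists_mem_ne_zero_of_ne_bot hUne
  have haW : a ∈ W := hUW haU
  have hQa : Q a = 0 := hUs a haU
  obtain ⟨b₀, hb₀W, hb₀⟩ := (hW a haW ha0).2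
  obtain ⟨b, hbW, hab, hQb⟩ := O1b_pair Q W a b₀ haW hb₀W hQa hb₀
  have haa : QuadraticMap.polar ⇑Q a a = 0 := by
    rw [QuadraticMap.polar_self, hQa]; simp
  have hli : LinearIndependent F ![a, b] := by
    rw [LinearIndependent.pair_iff]
    intro s t hst
    have h1 : QuadraticMap.polar ⇑Q a (s • a + t • b) = 0 := by
      rw [hst, QuadraticMap.polar_zero_right]
    rw [QuadraticMap.polar_add_right, QuadraticMap.polar_smul_right, QuadraticMap.polar_smul_right,
      haa, hab] at h1
    have ht : t = 0 := by simpa using h1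
    rw [ht, zero_smul, add_zero] at hst
    exact ⟨(smul_eq_zero.mp hst).resolve_right ha0, ht⟩
  have hspan : Submodule.span F {a, b} = W := by
    apply Submodule.eq_of_le_of_finrank_eq
    · rw [Submodule.span_le]
      intro x hx
      rcases hx with rfl | rfl
      · exact haW
      · exact hbW
    · have hfr : Module.finrank F (Submodule.span F (Set.range ![a, b])) = 2 := by
        rw [finrank_span_eq_card hli]; simp
      rw [Matrix.range_cons_cons_empty] at hfr
      rw [hfr, hdim]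
  refine ⟨a + b, W.add_mem haW hbW, ?_, ?_⟩
  · rw [QuadraticMap.map_add Q, hQa, hQb, hab]; simp
  · intro w hw hQw
    rw [← hspan] at hw
    obtain ⟨x, y, rfl⟩ := Submodule.mem_span_pair.mp hw
    have hQxy : Q (x • a + y • b) = x * y := by
      rw [QuadraticMap.map_add Q, QuadraticMap.map_smul Q x a, QuadraticMap.map_smul Q y b, hQa,
        hQb, QuadraticMap.polar_smul_left, QuadraticMap.polar_smul_right, hab]
      simp
    rw [hQxy] at hQw
    have hx0 : x ≠ 0 := by
      rintro rfl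
      simp at hQw
    have hxx := hsq x hx0
    have hyx : y = x := by
      have : x * y = x * x := by rw [hQw, hxx]
      exact mul_left_cancel₀ hx0 this
    rw [hyx]
    have hx1 : (x - 1) * (x + 1) = 0 := by linear_combination hxx
    rcases mul_eq_zero.mp hx1 with h | h
    · left
      have : x = 1 := by linear_combination h
      rw [this]; simp
    · right
      have : x = -1 := by linear_combination h
      rw [this, neg_one_smul, neg_one_smul, neg_add]

/-- O1b -/
theorem O1b (Q : QuadraticForm F (ι → F)) (hQ : (QuadraticMap.polarBilin Q).Nondegenerate)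
    (hq : Fintype.card F = 3) (hodd : Odd (Fintype.card ι)) (hn : 5 ≤ Fintype.card ι)
    (H : Subgroup (GL ι F)) (hH : H ≤ Cfsg.isometryGroup F ⇑Q)
    (W : Submodule F (ι → F)) (hdim : Module.finrank F W = 2)
    (hW : IsNondegenerateOn (QuadraticMap.polar ⇑Q) W) (hplus : IsPlusTypeOn ⇑Q W)
    (hHW : H ≤ subspaceStabilizer W) :
    ∃ W' : Submodule F (ι → F), W' ≠ ⊥ ∧ W' ≠ ⊤ ∧ Even (Module.finrank F W') ∧
      Module.finrank F W' ≠ 2 ∧ IsNondegenerateOn (QuadraticMap.polar ⇑Q) W' ∧
      H ≤ subspaceStabilizer W' := by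
  classical
  have h3 : (3 : F) = 0 := by
    have := Nat.cast_card_eq_zero F
    rw [hq] at this
    exact_mod_cast this
  have h2 : (2 : F) ≠ 0 := by
    intro h
    have : (1 : F) = 0 := by linear_combination h3 - h
    exact one_ne_zero this
  obtain ⟨x₀, hx₀W, hQx₀, hclaim⟩ := O1b_aux1 Q hq W hdim hW hplus
  have hx₀0 : x₀ ≠ 0 := by
    rintro rfl
    rw [map_zero] at hQx₀
    exact zero_ne_one hQx₀
  have hpx : QuadraticMap.polar ⇑Q x₀ x₀ = 2 := by
    rw [QuadraticMap.polar_self, hQx₀]; simp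
  have hiso : ∀ h ∈ H, ∀ u, Q (h.1 *ᵥ u) = Q u := fun h hh u => hH hh u 0
  have hstab : ∀ h ∈ H, ∀ v, v ∈ W ↔ h.1 *ᵥ v ∈ W := fun h hh => hHW hh
  have hpol : ∀ h ∈ H, ∀ u v,
      QuadraticMap.polar ⇑Q (h.1 *ᵥ u) (h.1 *ᵥ v) = QuadraticMap.polar ⇑Q u v := by
    intro h hh u v
    unfold QuadraticMap.polar
    rw [← Matrix.mulVec_add, hiso h hh (u + v), hiso h hh u, hiso h hh v]
  have hHx : ∀ h ∈ H, h.1 *ᵥ x₀ = x₀ ∨ h.1 *ᵥ x₀ = -x₀ := by
    intro h hh
    apply hclaim
    · exact (hstab h hh x₀).mp hx₀W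
    · rw [hiso h hh x₀]; exact hQx₀
  have hmem : ∀ v, v ∈ LinearMap.BilinForm.orthogonal (QuadraticMap.polarBilin Q)
      (Submodule.span F {x₀}) ↔ QuadraticMap.polar ⇑Q x₀ v = 0 := by
    intro v
    rw [LinearMap.BilinForm.mem_orthogonal_iff]
    constructor
    · intro h
      have := h x₀ (Submodule.mem_span_singleton_self x₀)
      rw [QuadraticMap.polarBilin_apply_apply] at this
      exact this
    · intro h n hn
      obtain ⟨c, rfl⟩ := Submodule.mem_span_singleton.mp hn
      rw [QuadraticMap.polarBilin_apply_apply,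
        QuadraticMap.polar_smul_left, h, smul_zero]
  have hNnd : IsNondegenerateOn (QuadraticMap.polar ⇑Q) (Submodule.span F {x₀}) := by
    intro w hw hw0
    obtain ⟨c, rfl⟩ := Submodule.mem_span_singleton.mp hw
    have hc : c ≠ 0 := by
      rintro rfl
      exact hw0 (zero_smul _ _)
    have hne : c * 2 ≠ 0 := mul_ne_zero hc h2
    refine ⟨⟨x₀, Submodule.mem_span_singleton_self x₀, ?_⟩,
      ⟨x₀, Submodule.mem_span_singleton_self x₀, ?_⟩⟩
    · rw [QuadraticMap.polar_smul_right, hpx, smul_eq_mul]; exact hne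
    · rw [QuadraticMap.polar_smul_left, hpx, smul_eq_mul]; exact hne
  have hOP := Cfsg.Agent.Lib.Helper52.orthPair_orthogonal hQ (Submodule.span F {x₀}) hNnd
  have hfr := hOP.finrank_add hQ
  have hN1 : Module.finrank F (Submodule.span F {x₀}) = 1 := finrank_span_singleton hx₀0
  rw [hN1] at hfr
  refine ⟨LinearMap.BilinForm.orthogonal (QuadraticMap.polarBilin Q) (Submodule.span F {x₀}),
    ?_, ?_, ?_, ?_, ?_, ?_⟩
  · intro h
    rw [h, finrank_bot] at hfr
    omega
  · intro h
    have hx : x₀ ∈ LinearMap.BilinForm.orthogonal (QuadraticMap.polarBilin Q)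
        (Submodule.span F {x₀}) := by
      rw [h]; exact Submodule.mem_top
    rw [hmem, hpx] at hx
    exact h2 hx
  · obtain ⟨k, hk⟩ := hodd
    exact ⟨k, by omega⟩
  · omega
  · intro w hw hw0
    obtain ⟨y, hy, hne⟩ := hOP.symm.nondeg hQ hw hw0
    exact ⟨⟨y, hy, by rw [QuadraticMap.polar_comm]; exact hne⟩, ⟨y, hy, hne⟩⟩
  · intro h hh
    show ∀ v, v ∈ LinearMap.BilinForm.orthogonal (QuadraticMap.polarBilin Q)
      (Submodule.span F {x₀}) ↔ h.1 *ᵥ v ∈ LinearMap.BilinForm.orthogonal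
        (QuadraticMap.polarBilin Q) (Submodule.span F {x₀})
    intro v
    rw [hmem, hmem]
    have hp := hpol h hh x₀ v
    rcases hHx h hh with e | e
    · rw [e] at hp
      rw [hp]
    · rw [e, QuadraticMap.polar_neg_left] at hp
      constructor
      · intro hv
        rw [hv] at hp
        exact neg_eq_zero.mp hp
      · intro hv
        rw [hv] at hp
        rw [← hp]; simp

end Cfsg.Agent.Lib.Helper65.OMP
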