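import Mathlib
import Cfsg.Prelude.Def_GeometricClasses
import Cfsg.Prelude.Def_LieClassical
import Cfsg.Agent.Lib.Helper65.OMPDefs
import Cfsg.Agent.Lib.Helper51.HypPairs
import Cfsg.Agent.Lib.Helper51.OTransportOdd
import Cfsg.Agent.Lib.Helper71.Asch0
import Cfsg.Agent.Lib.Helper71.Asch5
import Cfsg.Agent.Lib.Helper57.ASCOREA
import Cfsg.Agent.Lib.Helper82.ASCOREB
import Cfsg.Agent.Lib.Helper46.ASB3s
import Cfsg.Agent.Lib.Helper46.ASB4
import Cfsg.Agent.Lib.Helper61.ASB6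
import Cfsg.Agent.Lib.Helper67.ASNL
import Cfsg.Agent.Lib.Helper46.ASB7core
import Cfsg.Agent.Lib.Helper73.SLPC2
import Cfsg.Agent.Lib.Helper16.SLPC3
import Cfsg.Agent.Lib.Helper29.SUPU5
import Cfsg.Agent.Lib.Helper29.SUPU6

import Cfsg.Agent.Lib.Helper65.OMPQFB
import Cfsg.Agent.Lib.Helper65.OMPO1a
import Cfsg.Agent.Lib.Helper65.OMPO1b
import Cfsg.Agent.Lib.Helper65.OMPNO1
import Cfsg.Agent.Lib.Helper65.OMPNO2
import Cfsg.Agent.Lib.Helper65.OMPNO5
import Cfsg.Agent.Lib.Helper65.OMPTRnd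
import Cfsg.Agent.Lib.Helper65.OMPTRb
import Cfsg.Agent.Lib.Helper65.OMPTRabs
import Cfsg.Agent.Lib.Helper65.OMPTRreal
import Cfsg.Agent.Lib.Helper65.OMPTRsc
import Cfsg.Agent.Lib.Helper65.OMPTRquot
import Cfsg.Agent.Lib.Helper65.OMPTRuni
import Cfsg.Agent.Lib.Helper65.OMPTRc
import Cfsg.Agent.Lib.Helper65.OMPTRd
import Cfsg.Agent.Lib.Helper65.OMPDISC
import Cfsg.Agent.Lib.Helper65.OMPSQ1
import Cfsg.Agent.Lib.Helper65.OMPSQ2
import Cfsg.Agent.Lib.Helper65.OMPPRIMEF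
import Cfsg.Agent.Lib.Helper65.OMPO2a
import Cfsg.Agent.Lib.Helper65.OMPO4d
import Cfsg.Agent.Lib.Helper65.OMPO4
import Cfsg.Agent.Lib.Helper65.OMPO3nd
import Cfsg.Agent.Lib.Helper65.OMPO3iso
import Cfsg.Agent.Lib.Helper65.OMPO3c1
import Cfsg.Agent.Lib.Helper65.OMPO3c2
import Cfsg.Agent.Lib.Helper65.OMPO5
import Cfsg.Agent.Lib.Helper65.OMPO7
import Cfsg.Agent.Lib.Helper65.OMPO8a
import Cfsg.Agent.Lib.Helper65.OMPO8c
import Cfsg.Agent.Lib.Helper65.OMPO8d

/-! Project OMP (helper65): assembly.  `genO`: irreducible groups of isometries of a quadratic form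
in odd prime dimension (frame / subfield / residual class); `omega_cases`: the maximal subgroups
of `Ω_{2m+1}(q)`, `2m+1 ≥ 7` prime, `q` odd (statements S5814, S5859). -/

set_option autoImplicit false

namespace Cfsg.Agent.Lib.Helper65.OMP

open Matrix Cfsg.Geo Cfsg.Agent.Lib.Helper71.Asch
open Cfsg.Agent.Lib.Helper51 (QOdd coe_QOdd)
open Cfsg.Agent.Lib.Helper57.ASCOREA (coreA)
open Cfsg.Agent.Lib.Helper82.ASCOREB (coreB)
open Cfsg.Agent.Lib.Helper46.ASB3s (B3s B3a)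
open Cfsg.Agent.Lib.Helper46.ASB4 (B4 not_le_scalars)
open Cfsg.Agent.Lib.Helper61.ASB6 (B6)
open Cfsg.Agent.Lib.Helper67.ASNL (NL_core exists_subfield_aut)
open Cfsg.Agent.Lib.Helper46.ASB7core (B7core)
open Cfsg.Agent.Lib.Helper73.SLPC2 (C2)
open Cfsg.Agent.Lib.Helper16.SLPC3 (C3)
open Cfsg.Agent.Lib.Helper29.SUPU5 (U5)
open Cfsg.Agent.Lib.Helper29.SUPU6 (U6)

variable {ι κ : Type} [Fintype ι] [DecidableEq ι] [Fintype κ] [DecidableEq κ]
  {F : Type*} [Field F] [Fintype F] {n : ℕ}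

/-! ## Assembly -/

/-- transport of the residual core -/
theorem TRcore (e : ι ≃ κ) (H P : Subgroup (GL ι F)) (h : IsResidualCore H P) :
    IsResidualCore (H.map (gmap e).toMonoidHom) (P.map (gmap e).toMonoidHom) := by
  refine ⟨Subgroup.map_mono h.le, ?_, ?_, (TRquot e P).1 h.simple, (TRquot e P).2 h.nonabelian,
    ?_, TRabs e P h.absIrred, ?_⟩
  · rintro _ ⟨a, ha, rfl⟩ _ ⟨x, hx, rfl⟩
    refine ⟨a * x * a⁻¹, h.normal a ha x hx, ?_⟩
    simp only [map_mul, map_inv]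
  · rw [← Subgroup.map_commutator, h.perfect]
  · rintro _ ⟨a, ha, rfl⟩ hx
    have ha' : a ∈ scalars ι F := by
      apply h.centralizer_scalar a ha
      intro x hxP
      have h1 := hx ((gmap e).toMonoidHom x) ⟨x, hxP, rfl⟩
      have h2 : (gmap e).toMonoidHom a * (gmap e).toMonoidHom x * ((gmap e).toMonoidHom a)⁻¹ *
          ((gmap e).toMonoidHom x)⁻¹ = gmap e (a * x * a⁻¹ * x⁻¹) := by
        simp only [MulEquiv.coe_toMonoidHom, map_mul, map_inv]
      rw [h2] at h1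
      exact (TRsc e _).mp h1
    exact (TRsc e a).mpr ha'
  · intro F₀ hF₀ hreal
    have h1 := TRreal e.symm F₀ _ hreal
    rw [map_map_gmap] at h1
    exact h.no_subfield F₀ hF₀ h1

/-- transport of the orthogonal residual class -/
theorem TRres (e : ι ≃ κ) (H : Subgroup (GL ι F)) (h : InOrthogonalResidualClass H) :
    InOrthogonalResidualClass (H.map (gmap e).toMonoidHom) := by
  obtain ⟨P, hcore, hnu⟩ := h
  refine ⟨P.map (gmap e).toMonoidHom, TRcore e H P hcore, ?_⟩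
  intro hex
  apply hnu
  have h1 := TRuni e.symm _ hex
  rw [map_map_gmap] at h1
  exact h1

/-- absorbing the scalar into the rational structure -/
theorem ABS (Q : QuadraticForm F (Fin n → F)) (hQ : (QuadraticMap.polarBilin Q).Nondegenerate)
    (h2 : (2 : F) ≠ 0) (hodd : Odd n) (hsq : SqDisc Q) (F₁ : Subfield F) (r : ℕ)
    (hr : r.Prime) (hcard : Fintype.card F = Nat.card F₁ ^ r) (P₀ : GL (Fin n) F) (c : F)
    (hc : c ≠ 0)
    (hrat : ∀ u : Fin n → F, (∀ i, u i ∈ F₁) → c * Q (P₀.1 *ᵥ u) ∈ F₁) :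
    ∃ P' : GL (Fin n) F, IsQuadFormRationalStructure ⇑Q F₁ P' ∧
      subfieldSubgroup F₁ P' = subfieldSubgroup F₁ P₀ := by
  rcases hr.eq_two_or_odd' with h | h
  · subst h
    obtain ⟨s, hs⟩ := O8c Q hQ h2 hodd hsq F₁ hcard P₀ c hc hrat
    have hs0 : s ≠ 0 := by
      rintro rfl
      rw [mul_zero] at hs
      exact hc hs
    exact O8d Q F₁ P₀ c s 1 hs0 F₁.one_mem one_ne_zero (by rw [hs]; ring) hrat
  · obtain ⟨s, c₁, hs0, hc₁, hc₁0, hcs⟩ := SQ1 F₁ r h hcard h2 c hc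
    exact O8d Q F₁ P₀ c s c₁ hs0 hc₁ hc₁0 hcs hrat

/-- isometries fix the polar form -/
theorem QFF (Q : QuadraticForm F (ι → F)) (L : Subgroup (GL ι F))
    (hL : L ≤ Cfsg.isometryGroup F ⇑Q) : FixesForm (matrixSet L) (QuadraticMap.polar ⇑Q) := by
  rintro _ ⟨g, hg, rfl⟩ u v
  unfold QuadraticMap.polar
  rw [← Matrix.mulVec_add]
  have h : ∀ w : ι → F, Q (g.1 *ᵥ w) = Q w := fun w => hL hg w 0
  show Q (g.1 *ᵥ (u + v)) - Q (g.1 *ᵥ u) - Q (g.1 *ᵥ v) = Q (u + v) - Q u - Q v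
  rw [h (u + v), h u, h v]

/-- GENO: irreducible groups of isometries in odd prime dimension. -/
theorem genO (Q : QuadraticForm F (Fin n → F)) (hQ : (QuadraticMap.polarBilin Q).Nondegenerate)
    (h2 : (2 : F) ≠ 0) (hn : 5 ≤ n) (hp : n.Prime) (hsq : SqDisc Q)
    (H : Subgroup (GL (Fin n) F)) (hH : H ≤ Cfsg.isometryGroup F ⇑Q)
    (h1 : ActsIrreducibly (matrixSet H)) :
    ((Fintype.card F).Prime ∧ ∃ D : Fin n → Submodule F (Fin n → F),
      IsOrthogonalMDecomposition ⇑Q 1 D ∧ H ≤ decompositionStabilizer D) ∨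
    (∃ (F₁ : Subfield F) (r : ℕ) (P : GL (Fin n) F), r.Prime ∧
      Fintype.card F = Nat.card F₁ ^ r ∧ IsQuadFormRationalStructure ⇑Q F₁ P ∧
      H ≤ subfieldSubgroup F₁ P) ∨
    InOrthogonalResidualClass H := by
  classical
  have hodd : Odd n := hp.odd_of_ne_two (by omega)
  -- the subfield alternative
  have sub : ∀ L : Subgroup (GL (Fin n) F), L ≤ H → Nrm H L →
      ActsAbsolutelyIrreducibly (matrixSet L) → ∀ F₀ : Subfield F, F₀ ≠ ⊤ →
      RealisableOver F₀ (matrixSet L) →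
      ∃ (F₁ : Subfield F) (r : ℕ) (P : GL (Fin n) F), r.Prime ∧
        Fintype.card F = Nat.card F₁ ^ r ∧ IsQuadFormRationalStructure ⇑Q F₁ P ∧
        H ≤ subfieldSubgroup F₁ P := by
    intro L hLH hN hLa F₀ hF₀ hreal
    obtain ⟨F₁, r, τ, hr, hcard, hle, hfix⟩ := exists_subfield_aut F₀ hF₀
    obtain ⟨B, hB⟩ := hreal
    have hB₁ : ∀ s ∈ matrixSet L, ∀ i j, (B.1 * s * (B⁻¹ : GL (Fin n) F).1) i j ∈ F₁ :=
      fun s hs i j => hle (hB s hs i j)
    have hHle : H ≤ subfieldSubgroup F₁ B⁻¹ := by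
      intro h hh
      have key := NL_core L hLa F₁ τ hfix B hB₁ h (fun x hx => hN h hh x hx)
      unfold subfieldSubgroup
      refine ⟨B * h * B⁻¹, key, ?_⟩
      show B⁻¹ * (B * h * B⁻¹) * B⁻¹⁻¹ = h
      group
    obtain ⟨c, hc, hrat⟩ := O8a Q hQ h2 (by omega) L (hLH.trans hH) hLa F₁ τ hfix B hB₁
    obtain ⟨P', hP', hsub⟩ := ABS Q hQ h2 hodd hsq F₁ r hr hcard B⁻¹ c hc hrat
    exact ⟨F₁, r, P', hr, hcard, hP', by rw [hsub]; exact hHle⟩
  by_cases h2' : ActsAbsolutelyIrreducibly (matrixSet H)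
  · obtain ⟨L, hL⟩ := B4 (by omega) H h2'
    have hLO : L ≤ Cfsg.isometryGroup F ⇑Q := hL.le.trans hH
    -- Clifford dichotomy
    have hcase : ActsAbsolutelyIrreducibly (matrixSet L) ∨
        ((Fintype.card F).Prime ∧ ∃ D : Fin n → Submodule F (Fin n → F),
          IsOrthogonalMDecomposition ⇑Q 1 D ∧ H ≤ decompositionStabilizer D) ∨
        (∃ (F₁ : Subfield F) (r : ℕ) (P : GL (Fin n) F), r.Prime ∧
          Fintype.card F = Nat.card F₁ ^ r ∧ IsQuadFormRationalStructure ⇑Q F₁ P ∧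
          H ≤ subfieldSubgroup F₁ P) := by
      rcases coreA (by omega) H L h1 hL.le hL.nrm with
        ⟨t, m, D, hD, hHD, hiso, hinv⟩ | ⟨d, k, e, P, R, hR, hR1, hR2⟩
      · have htm := C2 D hD
        have ht2 := hD.two_le
        have htn : t = n := by
          have hdvd : t ∣ n := ⟨m, htm.symm⟩
          rcases (Nat.dvd_prime hp).1 hdvd with h | h
          · omega
          · exact h
        subst htn
        have hm1 : m = 1 := by
          have ht0 : 0 < t := by omega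
          have : t * m = t * 1 := by rw [htm, mul_one]
          exact Nat.eq_of_mul_eq_mul_left ht0 this
        subst hm1
        have hND := O3nd Q hQ h2 hodd H L hH h1 hL.le D hD hHD hiso hinv
        have hOD : IsOrthogonalMDecomposition ⇑Q 1 D := ⟨hND, O3iso Q H hH h1 D hD hHD⟩
        by_cases hq : (Fintype.card F).Prime
        · exact Or.inr (Or.inl ⟨hq, D, hOD, hHD⟩)
        · obtain ⟨F₁, r, τ, hr, hcard, -, -⟩ := exists_subfield_aut (⊥ : Subfield F) (PRIMEF hq)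
          obtain ⟨b, d, hd, hb, hQb, horth⟩ := O3c1 Q h2 (by omega) D hOD
          obtain ⟨P₀, hrat, hHP⟩ := O3c2 Q h2 H hH D hD hHD b d hd hb hQb horth F₁
          obtain ⟨P', hP', hsub⟩ :=
            ABS Q hQ h2 hodd hsq F₁ r hr hcard P₀ d⁻¹ (inv_ne_zero hd) hrat
          exact Or.inr (Or.inr ⟨F₁, r, P', hr, hcard, hP', by rw [hsub]; exact hHP⟩)
      · have hcard : n = d * k := by
          have := Fintype.card_congr e
          simpa using this
        have hdn : d = 1 ∨ d = n := (Nat.dvd_prime hp).1 ⟨k, hcard⟩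
        rcases hdn with hd | hd
        · subst hd
          exact absurd (B3s e P R L hR1) hL.ns
        · have hk1 : k = 1 := by
            have hd0 : 0 < d := by omega
            have : d * k = d * 1 := by rw [← hcard, mul_one, hd]
            exact Nat.eq_of_mul_eq_mul_left hd0 this
          subst hk1
          by_cases hRa : ActsAbsolutelyIrreducibly (matrixSet R)
          · exact Or.inl (B3a e P R L hRa hR2)
          · obtain ⟨r, K, hr, hK, hHK, hKc⟩ :=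
              coreB (by omega) H L hL.le hL.nrm e P R hR hR1 hR2 hRa
            have hrn : r = n := by
              rcases (Nat.dvd_prime hp).1 (C3 (by omega) r K hK) with h | h
              · exact absurd h hr.one_lt.ne'
              · exact h
            subst hrn
            have hLK : ∀ x ∈ L, x.1 ∈ K := fun x hx =>
              O4d (by omega) K hK x.1 (fun z hz => (hKc z hz).1 x hx)
            exact absurd (O4 Q hQ h2 hodd L hLO K hK hLK) hL.ns
    rcases hcase with hLa | hDc | hSc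
    · rcases hL.min ⁅L, L⁆ (commutator_le_self L) hL.nrm.commutator with hc | hc
      · -- symplectic type
        have hsym : SymT H L := ⟨hL, hLa, hc⟩
        rcases U5 hp (by omega) H L hsym with ⟨F₁, hF₁, hreal⟩ |
          ⟨p, e, hst, hnp, hmin, hcardL, hcen⟩
        · exact Or.inr (Or.inl (sub L hL.le hL.nrm hLa F₁ hF₁ hreal))
        · have h5 := O5 Q hQ h2 (by omega) L hLO hLa
          omega
      · rcases B6 H L hL hc with ⟨hs, hna⟩ | ⟨k, Ps, hk, hns, hcomm, hsup, -, -⟩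
        · by_cases hsubf : ∃ F₀ : Subfield F, F₀ ≠ ⊤ ∧ RealisableOver F₀ (matrixSet L)
          · obtain ⟨F₀, hF₀, hreal⟩ := hsubf
            exact Or.inr (Or.inl (sub L hL.le hL.nrm hLa F₀ hF₀ hreal))
          · refine Or.inr (Or.inr ⟨L, B7core H L hL.le hL.nrm hLa hc hs hna ?_, ?_⟩)
            · intro F₀ hF₀ hreal
              exact hsubf ⟨F₀, hF₀, hreal⟩
            · rintro ⟨σ, f, hf, hffix⟩
              apply hsubf
              exact O7 (by omega) L hLa (QuadraticMap.polar ⇑Q) (QFB Q hQ).1 (QFB Q hQ).2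
                (QFF Q L hLO) σ f hf hffix
        · exact (U6 hp L hLa k Ps hk hns hcomm hsup).elim
    · exact Or.inl hDc
    · exact Or.inr (Or.inl hSc)
  · exfalso
    obtain ⟨K, hK, hKH⟩ := O2a hp H h1 h2'
    have hHK : ∀ x ∈ H, x.1 ∈ K := fun x hx =>
      O4d (by omega) K hK x.1 (fun z hz => hKH z hz x hx)
    exact not_le_scalars (by omega) H h1 (O4 Q hQ h2 hodd H hH K hK hHK)

/-- The maximal subgroups of `Ω_{2m+1}(q)`, `2m+1 ≥ 7` prime, `q` odd, in normal form. -/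
theorem omega_cases (hodd : Odd (Fintype.card F)) (m : ℕ) (hm : 3 ≤ m) (hp : (2 * m + 1).Prime)
    (H : Subgroup (GL (Unit ⊕ (Fin m ⊕ Fin m)) F))
    (hH : IsMaximalIn (omegaGL (Cfsg.quadFormOdd m F)) H) :
    (∃ W : Submodule F (Unit ⊕ (Fin m ⊕ Fin m) → F), W ≠ ⊥ ∧
      IsTotallySingularQuad (Cfsg.quadFormOdd m F) W ∧
      H = subspaceStabilizer W ⊓ omegaGL (Cfsg.quadFormOdd m F)) ∨
    (∃ W : Submodule F (Unit ⊕ (Fin m ⊕ Fin m) → F), W ≠ ⊥ ∧ Even (Module.finrank F W) ∧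
      IsNondegenerateOn (QuadraticMap.polar (Cfsg.quadFormOdd m F)) W ∧
      ¬ (Fintype.card F = 3 ∧ Module.finrank F W = 2 ∧
        IsPlusTypeOn (Cfsg.quadFormOdd m F) W) ∧
      H = subspaceStabilizer W ⊓ omegaGL (Cfsg.quadFormOdd m F)) ∨
    ((Fintype.card F).Prime ∧ ∃ D : Fin (2 * m + 1) → Submodule F (Unit ⊕ (Fin m ⊕ Fin m) → F),
      IsOrthogonalMDecomposition (Cfsg.quadFormOdd m F) 1 D ∧
      H = decompositionStabilizer D ⊓ omegaGL (Cfsg.quadFormOdd m F)) ∨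
    (∃ (F₀ : Subfield F) (r : ℕ) (P : GL (Unit ⊕ (Fin m ⊕ Fin m)) F), r.Prime ∧
      Fintype.card F = Nat.card F₀ ^ r ∧
      IsQuadFormRationalStructure (Cfsg.quadFormOdd m F) F₀ P ∧
      H = subfieldSubgroup F₀ P ⊓ omegaGL (Cfsg.quadFormOdd m F)) ∨
    InOrthogonalResidualClass H := by
  classical
  have h2 : (2 : F) ≠ 0 := Cfsg.Agent.Lib.Helper51.two_ne_zero_of_odd_card hodd
  have hQ : (QuadraticMap.polarBilin (QOdd m F)).Nondegenerate :=
    Cfsg.Agent.Lib.Helper51.OTransportOdd.QOdd_nondeg h2 m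
  have hcard : Fintype.card (Unit ⊕ (Fin m ⊕ Fin m)) = 2 * m + 1 := by
    simp only [Fintype.card_sum, Fintype.card_unit, Fintype.card_fin]
    omega
  have hHO : H ≤ Cfsg.isometryGroup F (Cfsg.quadFormOdd m F) :=
    hH.1.le.trans (Subgroup.map_subtype_le _)
  by_cases h1 : ActsIrreducibly (matrixSet H)
  · obtain ⟨e⟩ : Nonempty ((Unit ⊕ (Fin m ⊕ Fin m)) ≃ Fin (2 * m + 1)) :=
      ⟨Fintype.equivFinOfCardEq hcard⟩
    have hHO' : H ≤ Cfsg.isometryGroup F ⇑(QOdd m F) := by rw [coe_QOdd]; exact hHO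
    have key := genO (qmap e (QOdd m F)) (TRnd e _ hQ) h2 (by omega) hp (DISC hodd m e)
      (H.map (gmap e).toMonoidHom) (map_le_isometryGroup e _ H hHO') (TRb e H h1)
    rcases key with ⟨hq, D', hD', hHD'⟩ | ⟨F₁, r, P', hr, hcard', hP', hHP'⟩ | hres
    · obtain ⟨hD, hHD⟩ := TRc e.symm _ D' hD' _ hHD'
      rw [qmap_symm_qmap, coe_QOdd] at hD
      rw [map_map_gmap] at hHD
      exact Or.inr (Or.inr (Or.inl ⟨hq, _, hD, eq_inf_of_max hH hHD (NO2 hodd m hm _ hD)⟩))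
    · obtain ⟨hP, hHP⟩ := TRd e.symm _ F₁ P' hP' _ hHP'
      rw [qmap_symm_qmap, coe_QOdd] at hP
      rw [map_map_gmap] at hHP
      exact Or.inr (Or.inr (Or.inr (Or.inl ⟨F₁, r, _, hr, hcard', hP,
        eq_inf_of_max hH hHP (NO5 hodd m hm F₁ r hr hcard' _ hP)⟩)))
    · have h3 := TRres e.symm _ hres
      rw [map_map_gmap] at h3
      exact Or.inr (Or.inr (Or.inr (Or.inr h3)))
  · have hHO' : H ≤ Cfsg.isometryGroup F ⇑(QOdd m F) := by rw [coe_QOdd]; exact hHO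
    have hoddι : Odd (Fintype.card (Unit ⊕ (Fin m ⊕ Fin m))) := by rw [hcard]; exact ⟨m, rfl⟩
    rcases O1a (QOdd m F) hQ h2 hoddι H hHO' h1 with ⟨W, h0, hts, hle⟩ | ⟨W, h0, htop, hev, hnd, hle⟩
    · rw [coe_QOdd] at hts
      have htop : W ≠ ⊤ := by
        rintro rfl
        have h3 := hts (Pi.single (Sum.inl ()) 1) Submodule.mem_top
        simp [Cfsg.quadFormOdd] at h3
      exact Or.inl ⟨W, h0, hts, eq_inf_of_max hH hle (NO1 hodd m hm W h0 htop)⟩
    · rw [coe_QOdd] at hnd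
      by_cases hex : Fintype.card F = 3 ∧ Module.finrank F W = 2 ∧
          IsPlusTypeOn (Cfsg.quadFormOdd m F) W
      · obtain ⟨hq3, hdim, hplus⟩ := hex
        obtain ⟨W', h0', htop', hev', hne2, hnd', hle'⟩ := O1b (QOdd m F) hQ hq3 hoddι
          (by rw [hcard]; omega) H hHO' W hdim (by rw [coe_QOdd]; exact hnd)
          (by rw [coe_QOdd]; exact hplus) hle
        rw [coe_QOdd] at hnd'
        exact Or.inr (Or.inl ⟨W', h0', hev', hnd', fun h => hne2 h.2.1,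
          eq_inf_of_max hH hle' (NO1 hodd m hm W' h0' htop')⟩)
      · exact Or.inr (Or.inl ⟨W, h0, hev, hnd, hex,
          eq_inf_of_max hH hle (NO1 hodd m hm W h0 htop)⟩)

end Cfsg.Agent.Lib.Helper65.OMP
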