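import Mathlib
import Cfsg.Prelude.Def_GeometricClasses
import Cfsg.Prelude.Def_LieClassical
import Cfsg.Agent.Lib.Helper1.O9NF3

/-! Project OOS (helper65, S5673), piece NFO: over a finite field of odd characteristic two
non-degenerate symmetric Gram matrices of the same ODD size are congruent up to a scalar.

PAPER PROOF.  (1) Diagonalise: every symmetric `G` with `det G ≠ 0` is congruent to a diagonal
matrix with non-zero entries (`2 ≠ 0`; Mathlib: `LinearMap.BilinForm.exists_orthogonal_basis`,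
`QuadraticForm.equivalent_weightedSumSquares_units_of_nondegenerate'`, or induction on `d`:
a non-zero symmetric form has a vector `v` with `vᵀ G v ≠ 0`, split off `v`).
(2) A binary form `a x² + b y² = 1` (`a, b ≠ 0`) has a solution over a finite field of odd
order (counting: the sets `{a x²}` and `{1 - b y²}` have `(q+1)/2` elements each; this is
`NF3_bin` in `Cfsg/Agent/Lib/Helper1/O9NF3.lean`), so `diag(a, b) ≅ diag(1, a b)`; by induction
`diag(w) ≅ diag(1, …, 1, δ)`, `δ = ∏ w`.
(3) `G₁ ≅ diag(1, …, 1, δ₁)`, `G₂ ≅ diag(1, …, 1, δ₂)`.  If `δ₂ / δ₁` is a square `s²`, rescale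
the last basis vector: `G₂ ≅ G₁`, take `c = 1`.  Otherwise take `c = δ₂ / δ₁` (a non-square):
`c • G₁ ≅ diag(c, …, c, c δ₁)`, whose normal form is `diag(1, …, 1, c^d δ₁)`, and
`c^d δ₁ = c^(d-1) δ₂` with `d - 1` even, so `c • G₁ ≅ diag(1, …, 1, δ₂) ≅ G₂`. -/

set_option autoImplicit false

namespace Cfsg.Agent.Lib.Helper65.OOS

open Matrix Cfsg.Geo

variable {F : Type*} [Field F] [Fintype F]

/-- congruence of Gram matrices -/
def NFO_cong {d : ℕ} (G G' : Matrix (Fin d) (Fin d) F) : Prop :=
  ∃ A : Matrix (Fin d) (Fin d) F, A.det ≠ 0 ∧ Aᵀ * G * A = G'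

omit [Fintype F] in
theorem NFO_cong_refl {d : ℕ} (G : Matrix (Fin d) (Fin d) F) : NFO_cong G G :=
  ⟨1, by simp, by simp⟩

omit [Fintype F] in
theorem NFO_cong_trans {d : ℕ} {G G' G'' : Matrix (Fin d) (Fin d) F} (h : NFO_cong G G')
    (h' : NFO_cong G' G'') : NFO_cong G G'' := by
  obtain ⟨A, hA, rfl⟩ := h
  obtain ⟨B, hB, rfl⟩ := h'
  refine ⟨A * B, ?_, ?_⟩
  · rw [Matrix.det_mul]
    exact mul_ne_zero hA hB
  · rw [Matrix.transpose_mul]
    simp only [Matrix.mul_assoc]

omit [Fintype F] in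
theorem NFO_cong_symm {d : ℕ} {G G' : Matrix (Fin d) (Fin d) F} (h : NFO_cong G G') :
    NFO_cong G' G := by
  obtain ⟨A, hA, rfl⟩ := h
  have hu : IsUnit A.det := isUnit_iff_ne_zero.mpr hA
  have hu' : IsUnit Aᵀ.det := by rwa [Matrix.det_transpose]
  refine ⟨A⁻¹, ?_, ?_⟩
  · intro h0
    have h3 := congrArg Matrix.det (Matrix.nonsing_inv_mul A hu)
    rw [Matrix.det_mul, h0, zero_mul, Matrix.det_one] at h3
    exact zero_ne_one h3
  · rw [Matrix.transpose_nonsing_inv]
    calc (Aᵀ)⁻¹ * (Aᵀ * G * A) * A⁻¹ = ((Aᵀ)⁻¹ * Aᵀ) * G * (A * A⁻¹) := by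
          simp only [Matrix.mul_assoc]
      _ = G := by
          rw [Matrix.nonsing_inv_mul _ hu', Matrix.mul_nonsing_inv _ hu, Matrix.one_mul,
            Matrix.mul_one]

omit [Fintype F] in
theorem NFO_cong_det {d : ℕ} {G G' : Matrix (Fin d) (Fin d) F} (h : NFO_cong G G') :
    ∃ t : F, t ≠ 0 ∧ G'.det = t ^ 2 * G.det := by
  obtain ⟨A, hA, rfl⟩ := h
  refine ⟨A.det, hA, ?_⟩
  rw [Matrix.det_mul, Matrix.det_mul, Matrix.det_transpose]
  ring

omit [Fintype F] in
theorem NFO_diag (h2 : (2 : F) ≠ 0) {d : ℕ} (G : Matrix (Fin d) (Fin d) F) (hs : Gᵀ = G) :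
    ∃ a : Fin d → F, NFO_cong G (Matrix.diagonal a) := by
  let _i2 : Invertible (2 : F) := invertibleOfNonzero h2
  have hB : LinearMap.IsSymm (Matrix.toBilin' G) := by
    rw [LinearMap.isSymm_def]
    intro x y
    rw [Matrix.toBilin'_apply', Matrix.toBilin'_apply', RingHom.id_apply]
    rw [Matrix.dotProduct_mulVec, ← hs, Matrix.vecMul_transpose, hs, dotProduct_comm]
  obtain ⟨v, hv⟩ := LinearMap.BilinForm.exists_orthogonal_basis hB
  have hfin : Module.finrank F (Fin d → F) = d := by simp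
  let v' : Module.Basis (Fin d) F (Fin d → F) := v.reindex (finCongr hfin)
  let P : Matrix (Fin d) (Fin d) F := Matrix.of (fun i j => v' j i)
  have hP : ∀ i j, (Pᵀ * G * P) i j = Matrix.toBilin' G (v' i) (v' j) := by
    intro i j
    rw [Matrix.toBilin'_apply', Matrix.mul_apply]
    simp only [Matrix.mul_apply, Matrix.transpose_apply, dotProduct, Matrix.mulVec, P,
      Matrix.of_apply, Finset.sum_mul, Finset.mul_sum]
    rw [Finset.sum_comm]
    refine Finset.sum_congr rfl (fun k _ => Finset.sum_congr rfl (fun l _ => by ring))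
  have hPu : IsUnit P := by
    rw [← Matrix.linearIndependent_cols_iff_isUnit]
    have h3 : P.col = fun j => v' j := by
      funext j i
      rfl
    rw [h3]
    exact v'.linearIndependent
  have hPd : P.det ≠ 0 := ((Matrix.isUnit_iff_isUnit_det P).1 hPu).ne_zero
  have hdiag : Pᵀ * G * P = Matrix.diagonal (fun i => Matrix.toBilin' G (v' i) (v' i)) := by
    ext i j
    rw [hP]
    by_cases hij : i = j
    · subst hij
      rw [Matrix.diagonal_apply_eq]
    · rw [Matrix.diagonal_apply_ne _ hij]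
      have h4 := LinearMap.isOrthoᵢ_def.1 hv ((finCongr hfin).symm i) ((finCongr hfin).symm j)
        (fun h => hij ((finCongr hfin).symm.injective h))
      simpa [v', Module.Basis.reindex_apply] using h4
  exact ⟨fun i => Matrix.toBilin' G (v' i) (v' i), P, hPd, hdiag⟩

omit [Fintype F] in
theorem NFO_entry {d : ℕ} (A : Matrix (Fin d) (Fin d) F) (w : Fin d → F) (c c' : Fin d) :
    (Aᵀ * Matrix.diagonal w * A) c c' = (fun r => A r c) ⬝ᵥ (fun r => w r * A r c') := by
  rw [Matrix.mul_apply]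
  simp only [Matrix.mul_diagonal, Matrix.transpose_apply, dotProduct, mul_assoc]

theorem NFO_move (h2 : (2 : F) ≠ 0) {d : ℕ} (w : Fin d → F) (i j : Fin d) (hij : i ≠ j)
    (hw : ∀ k, w k ≠ 0) :
    NFO_cong (Matrix.diagonal w)
      (Matrix.diagonal (Function.update (Function.update w i 1) j (w i * w j))) := by
  obtain ⟨x, y, hxy⟩ := Cfsg.Agent.Lib.Helper44.O9.NF3_bin h2 (w i) (w j) (hw i) (hw j)
  let U : Fin d → F := Pi.single i x + Pi.single j y
  let V : Fin d → F := Pi.single i (w j * y) + Pi.single j (-(w i * x))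
  let col : Fin d → Fin d → F :=
    Function.update (Function.update (fun c => Pi.single c (1 : F)) i U) j V
  let A : Matrix (Fin d) (Fin d) F := Matrix.of fun r c => col c r
  have hcoli : col i = U := by
    simp only [col]
    rw [Function.update_of_ne hij, Function.update_self]
  have hcolj : col j = V := by
    simp only [col]
    rw [Function.update_self]
  have hcolk : ∀ k, k ≠ i → k ≠ j → col k = Pi.single k 1 := by
    intro k hki hkj
    simp only [col]
    rw [Function.update_of_ne hkj, Function.update_of_ne hki]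
  have hUi : U i = x := by simp [U, hij]
  have hUj : U j = y := by simp [U, hij.symm]
  have hVi : V i = w j * y := by simp [V, hij]
  have hVj : V j = -(w i * x) := by simp [V, hij.symm]
  have hUk : ∀ k, k ≠ i → k ≠ j → U k = 0 := by
    intro k hki hkj
    simp [U, hki, hkj]
  have hVk : ∀ k, k ≠ i → k ≠ j → V k = 0 := by
    intro k hki hkj
    simp [V, hki, hkj]
  have hUd : ∀ f : Fin d → F, U ⬝ᵥ f = x * f i + y * f j := by
    intro f
    simp [U, add_dotProduct]
  have hVd : ∀ f : Fin d → F, V ⬝ᵥ f = w j * y * f i + -(w i * x) * f j := by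
    intro f
    simp [V, add_dotProduct]
  have hSd : ∀ (k : Fin d) (f : Fin d → F), (Pi.single k (1 : F) : Fin d → F) ⬝ᵥ f = f k := by
    intro k f
    simp
  have hA : Aᵀ * Matrix.diagonal w * A =
      Matrix.diagonal (Function.update (Function.update w i 1) j (w i * w j)) := by
    ext c c'
    rw [NFO_entry]
    show col c ⬝ᵥ (fun r => w r * col c' r) = _
    by_cases hci : c = i
    · subst hci
      rw [hcoli, hUd]
      by_cases hc'i : c' = c
      · subst hc'i
        rw [hcoli, hUi, hUj, Matrix.diagonal_apply_eq, Function.update_of_ne hij,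
          Function.update_self]
        linear_combination hxy
      · by_cases hc'j : c' = j
        · subst hc'j
          rw [hcolj, hVi, hVj, Matrix.diagonal_apply_ne _ hij]
          ring
        · rw [hcolk c' hc'i hc'j, Matrix.diagonal_apply_ne _ (Ne.symm hc'i)]
          simp [Ne.symm hc'i, Ne.symm hc'j]
    · by_cases hcj : c = j
      · subst hcj
        rw [hcolj, hVd]
        by_cases hc'i : c' = i
        · subst hc'i
          rw [hcoli, hUi, hUj, Matrix.diagonal_apply_ne _ hci]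
          ring
        · by_cases hc'j : c' = c
          · subst hc'j
            rw [hcolj, hVi, hVj, Matrix.diagonal_apply_eq, Function.update_self]
            linear_combination (w i * w c') * hxy
          · rw [hcolk c' hc'i hc'j, Matrix.diagonal_apply_ne _ (Ne.symm hc'j)]
            simp [Ne.symm hc'i, Ne.symm hc'j]
      · rw [hcolk c hci hcj, hSd]
        by_cases hc'i : c' = i
        · subst hc'i
          rw [hcoli, hUk c hci hcj, Matrix.diagonal_apply_ne _ hci, mul_zero]
        · by_cases hc'j : c' = j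
          · subst hc'j
            rw [hcolj, hVk c hci hcj, Matrix.diagonal_apply_ne _ hcj, mul_zero]
          · rw [hcolk c' hc'i hc'j]
            by_cases hcc : c = c'
            · subst hcc
              rw [Matrix.diagonal_apply_eq, Function.update_of_ne hcj,
                Function.update_of_ne hci]
              simp
            · rw [Matrix.diagonal_apply_ne _ hcc]
              simp [hcc]
  refine ⟨A, ?_, hA⟩
  intro h0
  have h3 := congrArg Matrix.det hA
  rw [Matrix.det_mul, Matrix.det_mul, h0, mul_zero, Matrix.det_diagonal] at h3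
  have h4 : ∏ k, (Function.update (Function.update w i 1) j (w i * w j)) k ≠ 0 := by
    rw [Finset.prod_ne_zero_iff]
    intro k _
    by_cases hkj : k = j
    · subst hkj
      rw [Function.update_self]
      exact mul_ne_zero (hw i) (hw k)
    · rw [Function.update_of_ne hkj]
      by_cases hki : k = i
      · subst hki
        rw [Function.update_self]
        exact one_ne_zero
      · rw [Function.update_of_ne hki]
        exact hw k
  exact h4 h3.symm

theorem NFO_nf (h2 : (2 : F) ≠ 0) {d : ℕ} (i₀ : Fin d) (w : Fin d → F) (hw : ∀ k, w k ≠ 0)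
    (S : Finset (Fin d)) (hS : i₀ ∉ S) :
    ∃ w' : Fin d → F, (∀ k, w' k ≠ 0) ∧ (∀ k ∈ S, w' k = 1) ∧
      NFO_cong (Matrix.diagonal w) (Matrix.diagonal w') := by
  induction S using Finset.induction_on with
  | empty => exact ⟨w, hw, by simp, NFO_cong_refl _⟩
  | insert j S hjS ih =>
    have hj0 : j ≠ i₀ := fun h => hS (by rw [h]; exact Finset.mem_insert_self _ _)
    have h0S : i₀ ∉ S := fun h => hS (Finset.mem_insert_of_mem h)
    obtain ⟨w', hw', h1, hc⟩ := ih h0S
    refine ⟨Function.update (Function.update w' j 1) i₀ (w' j * w' i₀), ?_, ?_,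
      NFO_cong_trans hc (NFO_move h2 w' j i₀ hj0 hw')⟩
    · intro k
      by_cases hk0 : k = i₀
      · subst hk0
        rw [Function.update_self]
        exact mul_ne_zero (hw' j) (hw' k)
      · rw [Function.update_of_ne hk0]
        by_cases hkj : k = j
        · subst hkj
          rw [Function.update_self]
          exact one_ne_zero
        · rw [Function.update_of_ne hkj]
          exact hw' k
    · intro k hk
      have hk0 : k ≠ i₀ := fun h => hS (h ▸ hk)
      rw [Function.update_of_ne hk0]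
      rcases Finset.mem_insert.mp hk with rfl | hkS
      · rw [Function.update_self]
      · have hkj : k ≠ j := fun h => hjS (h ▸ hkS)
        rw [Function.update_of_ne hkj]
        exact h1 k hkS

omit [Fintype F] in
theorem NFO_scale {d : ℕ} (i₀ : Fin d) (w w' : Fin d → F) (t : F) (ht : t ≠ 0)
    (h1 : ∀ k, k ≠ i₀ → w k = 1) (h1' : ∀ k, k ≠ i₀ → w' k = 1) (h : w' i₀ = t ^ 2 * w i₀) :
    NFO_cong (Matrix.diagonal w) (Matrix.diagonal w') := by
  refine ⟨Matrix.diagonal (Function.update (fun _ => (1 : F)) i₀ t), ?_, ?_⟩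
  · rw [Matrix.det_diagonal, Finset.prod_ne_zero_iff]
    intro k _
    by_cases hk : k = i₀
    · subst hk
      rw [Function.update_self]
      exact ht
    · rw [Function.update_of_ne hk]
      exact one_ne_zero
  · rw [Matrix.diagonal_transpose, Matrix.diagonal_mul_diagonal, Matrix.diagonal_mul_diagonal]
    congr 1
    funext k
    by_cases hk : k = i₀
    · subst hk
      rw [Function.update_self, h]
      ring
    · rw [Function.update_of_ne hk, h1 k hk, h1' k hk]
      ring

theorem NFO_key (h2 : (2 : F) ≠ 0) {d : ℕ} (i₀ : Fin d) (G G' : Matrix (Fin d) (Fin d) F)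
    (hs : Gᵀ = G) (hs' : G'ᵀ = G') (hd : G.det ≠ 0) (s : F) (hs0 : s ≠ 0)
    (hdet : G'.det = s ^ 2 * G.det) : NFO_cong G G' := by
  have hd' : G'.det ≠ 0 := by
    rw [hdet]
    exact mul_ne_zero (pow_ne_zero 2 hs0) hd
  have key : ∀ M : Matrix (Fin d) (Fin d) F, Mᵀ = M → M.det ≠ 0 →
      ∃ w : Fin d → F, (∀ k, k ≠ i₀ → w k = 1) ∧ NFO_cong M (Matrix.diagonal w) := by
    intro M hM hMd
    obtain ⟨a, ha⟩ := NFO_diag h2 M hM
    have ha0 : ∀ k, a k ≠ 0 := by
      obtain ⟨t, ht, hdt⟩ := NFO_cong_det ha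
      rw [Matrix.det_diagonal] at hdt
      have h3 : ∏ k, a k ≠ 0 := by
        rw [hdt]
        exact mul_ne_zero (pow_ne_zero 2 ht) hMd
      intro k
      exact (Finset.prod_ne_zero_iff.1 h3) k (Finset.mem_univ k)
    obtain ⟨w, hw0, hw1, hc⟩ :=
      NFO_nf h2 i₀ a ha0 (Finset.univ.erase i₀) (Finset.notMem_erase _ _)
    exact ⟨w, fun k hk => hw1 k (Finset.mem_erase.mpr ⟨hk, Finset.mem_univ k⟩),
      NFO_cong_trans ha hc⟩
  obtain ⟨w, hw1, hc⟩ := key G hs hd
  obtain ⟨w', hw1', hc'⟩ := key G' hs' hd'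
  obtain ⟨t, ht, hdt⟩ := NFO_cong_det hc
  obtain ⟨t', ht', hdt'⟩ := NFO_cong_det hc'
  have hp : ∀ v : Fin d → F, (∀ k, k ≠ i₀ → v k = 1) → (Matrix.diagonal v).det = v i₀ := by
    intro v hv
    rw [Matrix.det_diagonal]
    exact Finset.prod_eq_single i₀ (fun k _ hk => hv k hk)
      (fun h => absurd (Finset.mem_univ _) h)
  rw [hp w hw1] at hdt
  rw [hp w' hw1'] at hdt'
  have hsc : NFO_cong (Matrix.diagonal w) (Matrix.diagonal w') := by
    apply NFO_scale i₀ w w' (t' * s / t) (div_ne_zero (mul_ne_zero ht' hs0) ht) hw1 hw1'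
    rw [hdt', hdet, hdt]
    field_simp
  exact NFO_cong_trans (NFO_cong_trans hc hsc) (NFO_cong_symm hc')

/-- NFO -/
theorem NFO (h2 : (2 : F) ≠ 0) {d : ℕ} (hd : Odd d) (G₁ G₂ : Matrix (Fin d) (Fin d) F)
    (hs1 : G₁ᵀ = G₁) (hs2 : G₂ᵀ = G₂) (hd1 : G₁.det ≠ 0) (hd2 : G₂.det ≠ 0) :
    ∃ (A : GL (Fin d) F) (c : F), c ≠ 0 ∧ A.1ᵀ * G₂ * A.1 = c • G₁ := by
  obtain ⟨m, rfl⟩ := hd
  have hc0 : G₂.det / G₁.det ≠ 0 := div_ne_zero hd2 hd1
  have hsym : ((G₂.det / G₁.det) • G₁)ᵀ = (G₂.det / G₁.det) • G₁ := by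
    rw [Matrix.transpose_smul, hs1]
  have hcm : G₂.det / G₁.det * G₁.det = G₂.det := div_mul_cancel₀ _ hd1
  have hdet : ((G₂.det / G₁.det) • G₁).det = ((G₂.det / G₁.det) ^ m) ^ 2 * G₂.det := by
    rw [Matrix.det_smul, Fintype.card_fin]
    nth_rewrite 3 [← hcm]
    ring
  obtain ⟨A, hA, hAe⟩ := NFO_key h2 (⟨0, by omega⟩ : Fin (2 * m + 1)) G₂
    ((G₂.det / G₁.det) • G₁) hs2 hsym hd2 ((G₂.det / G₁.det) ^ m) (pow_ne_zero m hc0) hdet
  exact ⟨Matrix.GeneralLinearGroup.mkOfDetNeZero A hA, G₂.det / G₁.det, hc0, hAe⟩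

end Cfsg.Agent.Lib.Helper65.OOS
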