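import Mathlib
import Cfsg.Prelude.Def_GeometricClasses
import Cfsg.Prelude.Def_LieClassical
import Cfsg.Agent.Lib.Helper71.Asch0
import Cfsg.Agent.Lib.Helper71.Asch5
import Cfsg.Agent.Lib.Helper86.OTIF

/-! Project OOS (helper65, S5673), piece TIFO (sub-architect helper86): the tensor-induced
branch for a symmetric form in odd dimension (orthogonal twin of `Helper71.SPGTIF.TIF`).
`L = ⁅L, L⁆` absolutely irreducible, the product of `k ≥ 2` pairwise commuting non-scalar
subgroups permuted transitively by `H`, inside the isometry group of a symmetric form in odd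
dimension: the form is a tensor power of a symmetric form in dimension `d ≥ 3`, `(q, d) ≠ (3, 3)`
(the similarity group of a symmetric form on `F_3^3` is solvable), and `H` lies in the
tensor-wreath subgroup. -/

set_option autoImplicit false

namespace Cfsg.Agent.Lib.Helper65.OOS

open Matrix Cfsg.Geo Cfsg.Agent.Lib.Helper71.Asch

variable {n : ℕ} {F : Type*} [Field F] [Fintype F]

/-- TIFO -/
theorem TIFO (hn : 3 ≤ n) (hodd : Odd n) (h2 : (2 : F) ≠ 0)
    (f : (Fin n → F) → (Fin n → F) → F) (hf : IsSymmetricForm f)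
    (H L : Subgroup (GL (Fin n) F)) (hfix : FixesForm (matrixSet H) f) (hL : IsMinNS H L)
    (hLa : ActsAbsolutelyIrreducibly (matrixSet L)) (hc : ⁅L, L⁆ = L)
    (k : ℕ) (Ps : Fin k → Subgroup (GL (Fin n) F)) (hk : 2 ≤ k)
    (hns : ∀ i, ¬ Ps i ≤ scalars (Fin n) F)
    (hcomm : ∀ i j, i ≠ j → ∀ x ∈ Ps i, ∀ y ∈ Ps j, x * y = y * x)
    (hsup : L = ⨆ i, Ps i)
    (hperm : ∀ h ∈ H, ∃ σ : Equiv.Perm (Fin k), ∀ i,
      (Ps i).map (MulAut.conj h).toMonoidHom = Ps (σ i))
    (htrans : ∀ i j, ∃ h ∈ H, (Ps i).map (MulAut.conj h).toMonoidHom = Ps j) :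
    ∃ (d t : ℕ) (e : Fin n ≃ (Fin t → Fin d)) (P : GL (Fin n) F)
      (f₁ : (Fin d → F) → (Fin d → F) → F), 3 ≤ d ∧ 2 ≤ t ∧
      ¬ (Fintype.card F = 3 ∧ d = 3) ∧ IsSymmetricForm f₁ ∧
      IsTensorPowerFormStructure id f f₁ e P ∧ H ≤ tensorWreathSubgroup d t e P :=
  Cfsg.Agent.Lib.Helper86.OTIF.OTIF hn hodd h2 f hf H L hfix hL hLa hc k Ps hk hns hcomm hsup
    hperm htrans

end Cfsg.Agent.Lib.Helper65.OOS
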