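import Mathlib
import Cfsg.Prelude.Def_GeometricClasses
import Cfsg.Prelude.Def_LieClassical
import Cfsg.Agent.Lib.Helper71.Asch0

/-!
# Project OOS (helper65, S5673), piece TPWG (general d; adapted from helper66 O9TPW): a tensor product subgroup with equal factors
lies in the tensor wreath subgroup (the inclusion proved inside Helper85/AST4, `T4c`).
-/

set_option autoImplicit false

namespace Cfsg.Agent.Lib.Helper65.OOS

open Matrix Cfsg.Geo Cfsg.Agent.Lib.Helper71.Asch
open scoped Kronecker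

variable {n d : ℕ} {F : Type*} [Field F] [Fintype F]

theorem TPWG (e : Fin n ≃ Fin d × Fin d) (P : GL (Fin n) F) :
    tensorProductSubgroup d d e P ≤
      tensorWreathSubgroup d 2 (e.trans (finTwoArrowEquiv (Fin d)).symm) P := by
  intro h hh
  obtain ⟨a, b, hg⟩ := (mem_tensorProductSubgroup_iff e P h).1 hh
  obtain ⟨y, hy⟩ : ∃ y : GL (Fin d × Fin d) F, y.1 = a.1 ⊗ₖ b.1 := by
    refine ⟨⟨a.1 ⊗ₖ b.1, (a⁻¹ : GL (Fin d) F).1 ⊗ₖ (b⁻¹ : GL (Fin d) F).1, ?_, ?_⟩, rfl⟩
    · rw [← Matrix.mul_kronecker_mul, ← Units.val_mul, ← Units.val_mul, mul_inv_cancel,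
        mul_inv_cancel, Units.val_one, Matrix.one_kronecker_one]
    · rw [← Matrix.mul_kronecker_mul, ← Units.val_mul, ← Units.val_mul, inv_mul_cancel,
        inv_mul_cancel, Units.val_one, Matrix.one_kronecker_one]
  obtain ⟨ε, hε⟩ : ∃ ε : Fin d × Fin d ≃ (Fin 2 → Fin d), ε = (finTwoArrowEquiv (Fin d)).symm :=
    ⟨_, rfl⟩
  rw [← hε]
  have hεs : ∀ u : Fin 2 → Fin d, ε.symm u = (u 0, u 1) := by
    intro u
    rw [hε]
    rfl
  have hx : glReindex ε y ∈ tensorWreathStandard d 2 F := by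
    apply Subgroup.subset_closure
    left
    refine ⟨![a, b], fun u v => ?_⟩
    rw [Fin.prod_univ_two]
    show (Matrix.reindexAlgEquiv F F ε y.1) u v = _
    rw [hy, Matrix.coe_reindexAlgEquiv, Matrix.reindex_apply, Matrix.submatrix_apply, hεs, hεs]
    rfl
  unfold tensorWreathSubgroup
  refine ⟨glReindex (e.trans ε).symm (glReindex ε y), ⟨glReindex ε y, hx, rfl⟩, ?_⟩
  apply Units.ext
  show (P * glReindex (e.trans ε).symm (glReindex ε y) * P⁻¹ : GL (Fin n) F).1 = _
  rw [Units.val_mul, Units.val_mul, hg]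
  unfold tmat
  have h2 : ((glReindex (e.trans ε).symm (glReindex ε y) : GL (Fin n) F) :
      Matrix (Fin n) (Fin n) F) = Matrix.reindex e.symm e.symm (a.1 ⊗ₖ b.1) := by
    show Matrix.reindexAlgEquiv F F (e.trans ε).symm (Matrix.reindexAlgEquiv F F ε y.1) = _
    rw [hy]
    ext i j
    simp [Matrix.coe_reindexAlgEquiv, Matrix.reindex_apply, Matrix.submatrix_apply]
  rw [h2]

end Cfsg.Agent.Lib.Helper65.OOS
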