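import Mathlib
import Cfsg.Prelude.Def_GeometricClasses
import Cfsg.Prelude.Def_LieClassical

/-! Project OOS (helper65, S5673), piece TSQG (general d; adapted from helper33 O9TSQ): from a form `G₁ ⊗ₖ G₂` with
`Aᵀ G₂ A = c • G₁` to a tensor square structure, after replacing `P` by `P (1 ⊗ A)`. -/

set_option autoImplicit false

namespace Cfsg.Agent.Lib.Helper65.OOS

open Matrix Cfsg.Geo
open scoped Kronecker

variable {n d : ℕ} {F : Type*} [Field F] [Fintype F]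

omit [Fintype F] in
theorem TSQG_formOfGram_eq {κ : Type} [Fintype κ] (G : Matrix κ κ F) (x y : κ → F) :
    formOfGram id G x y = x ⬝ᵥ (G *ᵥ y) := by
  unfold formOfGram
  simp only [dotProduct, mulVec, id, Finset.mul_sum, mul_assoc]

omit [Fintype F] in
theorem TSQG_conj {κ : Type} [Fintype κ] (G T : Matrix κ κ F) (x y : κ → F) :
    formOfGram id G (T *ᵥ x) (T *ᵥ y) = formOfGram id (Tᵀ * G * T) x y := by
  rw [TSQG_formOfGram_eq, TSQG_formOfGram_eq]
  calc (T *ᵥ x) ⬝ᵥ (G *ᵥ (T *ᵥ y)) = (x ᵥ* Tᵀ) ⬝ᵥ (G *ᵥ (T *ᵥ y)) := by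
        rw [Matrix.vecMul_transpose]
    _ = x ⬝ᵥ (Tᵀ *ᵥ (G *ᵥ (T *ᵥ y))) := (Matrix.dotProduct_mulVec x Tᵀ _).symm
    _ = x ⬝ᵥ ((Tᵀ * G * T) *ᵥ y) := by
        rw [Matrix.mulVec_mulVec, Matrix.mulVec_mulVec]

omit [Fintype F] in
theorem TSQG_gram (G : Matrix (Fin d) (Fin d) F) : gramMatrix (formOfGram id G) = G := by
  ext a b
  unfold gramMatrix
  rw [TSQG_formOfGram_eq]
  simp [Matrix.mulVec_single, single_dotProduct]

omit [Fintype F] in
theorem TSQG_symm (G : Matrix (Fin d) (Fin d) F) (hs : Gᵀ = G) (hd : G.det ≠ 0) :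
    IsSymmetricForm (formOfGram id G) := by
  have hsymm : ∀ u v : Fin d → F, formOfGram id G u v = formOfGram id G v u := by
    intro u v
    rw [TSQG_formOfGram_eq, TSQG_formOfGram_eq, Matrix.dotProduct_mulVec, ← Matrix.mulVec_transpose,
      hs, dotProduct_comm]
  refine ⟨⟨?_, ?_, ?_, ?_⟩, hsymm, ?_⟩
  · intro x y v
    simp only [TSQG_formOfGram_eq, add_dotProduct]
  · intro c x v
    simp only [TSQG_formOfGram_eq, smul_dotProduct, smul_eq_mul]
  · intro v x y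
    simp only [TSQG_formOfGram_eq, Matrix.mulVec_add, dotProduct_add]
  · intro c v x
    simp only [TSQG_formOfGram_eq, Matrix.mulVec_smul, dotProduct_smul, smul_eq_mul]
  · intro v hv
    have h1 : G *ᵥ v ≠ 0 := fun h => hv (Matrix.eq_zero_of_mulVec_eq_zero hd h)
    obtain ⟨i, hi⟩ := Function.ne_iff.mp h1
    have h2 : formOfGram id G (Pi.single i 1) v ≠ 0 := by
      rw [TSQG_formOfGram_eq, single_dotProduct, one_mul]
      exact hi
    exact ⟨⟨_, h2⟩, ⟨_, by rw [hsymm]; exact h2⟩⟩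

/-- the Kronecker product `1 ⊗ A` as an invertible matrix -/
def TSQG_K (A : GL (Fin d) F) : GL (Fin d × Fin d) F :=
  ⟨(1 : Matrix (Fin d) (Fin d) F) ⊗ₖ A.1, (1 : Matrix (Fin d) (Fin d) F) ⊗ₖ (A⁻¹).1, by
    rw [← Matrix.mul_kronecker_mul, one_mul, ← Units.val_mul, mul_inv_cancel, Units.val_one,
      Matrix.one_kronecker_one], by
    rw [← Matrix.mul_kronecker_mul, one_mul, ← Units.val_mul, inv_mul_cancel, Units.val_one,
      Matrix.one_kronecker_one]⟩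

theorem TSQG_map_conj {Γ : Type*} [Group Γ] (S : Subgroup Γ) (P g : Γ) (hg : g ∈ S) :
    S.map (MulAut.conj (P * g)).toMonoidHom = S.map (MulAut.conj P).toMonoidHom := by
  ext x
  constructor
  · rintro ⟨s, hs, rfl⟩
    exact ⟨g * s * g⁻¹, S.mul_mem (S.mul_mem hg hs) (S.inv_mem hg), by
      simp [MulAut.conj_apply, mul_assoc]⟩
  · rintro ⟨s, hs, rfl⟩
    exact ⟨g⁻¹ * s * g, S.mul_mem (S.mul_mem (S.inv_mem hg) hs) hg, by
      simp [MulAut.conj_apply, mul_assoc]⟩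

omit [Fintype F] in
theorem TSQG_pure (A : GL (Fin d) F) :
    glReindex (finTwoArrowEquiv (Fin d)).symm (TSQG_K A) ∈ tensorWreathStandard d 2 F := by
  apply Subgroup.subset_closure
  left
  refine ⟨![1, A], ?_⟩
  intro x y
  simp [glReindex, TSQG_K, Fin.prod_univ_two, Matrix.reindex_apply, Matrix.kroneckerMap_apply]

omit [Fintype F] in
theorem TSQG_val (e : Fin n ≃ Fin d × Fin d) (A : GL (Fin d) F) :
    ((glReindex (e.trans (finTwoArrowEquiv (Fin d)).symm).symm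
      (glReindex (finTwoArrowEquiv (Fin d)).symm (TSQG_K A)) : GL (Fin n) F) :
        Matrix (Fin n) (Fin n) F) =
      ((1 : Matrix (Fin d) (Fin d) F) ⊗ₖ A.1).submatrix e e := by
  ext i j
  simp [glReindex, TSQG_K, Matrix.reindex_apply]

omit [Fintype F] in
theorem TSQG_kron (G₁ G₂ : Matrix (Fin d) (Fin d) F) (A : Matrix (Fin d) (Fin d) F) (c : F)
    (hA : Aᵀ * G₂ * A = c • G₁) :
    ((1 : Matrix (Fin d) (Fin d) F) ⊗ₖ A)ᵀ * (G₁ ⊗ₖ G₂) * ((1 : Matrix (Fin d) (Fin d) F) ⊗ₖ A) =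
      G₁ ⊗ₖ (c • G₁) := by
  have h1 : ((1 : Matrix (Fin d) (Fin d) F) ⊗ₖ A)ᵀ = (1 : Matrix (Fin d) (Fin d) F) ⊗ₖ Aᵀ := by
    ext ⟨i, j⟩ ⟨k, l⟩
    simp [Matrix.kroneckerMap_apply, Matrix.one_apply, eq_comm]
  rw [h1, ← Matrix.mul_kronecker_mul, ← Matrix.mul_kronecker_mul, one_mul, mul_one, hA]

theorem TSQG (f : (Fin n → F) → (Fin n → F) → F) (e : Fin n ≃ Fin d × Fin d) (P : GL (Fin n) F)
    (G₁ G₂ : Matrix (Fin d) (Fin d) F) (hs1 : G₁ᵀ = G₁) (hd1 : G₁.det ≠ 0)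
    (hid : ∀ x y : Fin d × Fin d → F,
      f (P.1 *ᵥ (x ∘ e)) (P.1 *ᵥ (y ∘ e)) = formOfGram id (G₁ ⊗ₖ G₂) x y)
    (A : GL (Fin d) F) (c : F) (hc : c ≠ 0) (hA : A.1ᵀ * G₂ * A.1 = c • G₁) :
    ∃ (P' : GL (Fin n) F) (f₁ : (Fin d → F) → (Fin d → F) → F), IsSymmetricForm f₁ ∧
      IsTensorPowerFormStructure id f f₁ (e.trans (finTwoArrowEquiv (Fin d)).symm) P' ∧
      tensorWreathSubgroup d 2 (e.trans (finTwoArrowEquiv (Fin d)).symm) P' =
        tensorWreathSubgroup d 2 (e.trans (finTwoArrowEquiv (Fin d)).symm) P := by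
  classical
  refine ⟨P * glReindex (e.trans (finTwoArrowEquiv (Fin d)).symm).symm
      (glReindex (finTwoArrowEquiv (Fin d)).symm (TSQG_K A)), formOfGram id G₁,
    TSQG_symm G₁ hs1 hd1, ⟨c, hc, ?_⟩, ?_⟩
  · intro x y
    have hmv : ∀ z : (Fin 2 → Fin d) → F,
        ((P * glReindex (e.trans (finTwoArrowEquiv (Fin d)).symm).symm
          (glReindex (finTwoArrowEquiv (Fin d)).symm (TSQG_K A)) : GL (Fin n) F) :
            Matrix (Fin n) (Fin n) F) *ᵥ (z ∘ (e.trans (finTwoArrowEquiv (Fin d)).symm)) =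
          P.1 *ᵥ ((((1 : Matrix (Fin d) (Fin d) F) ⊗ₖ A.1) *ᵥ
            (z ∘ (finTwoArrowEquiv (Fin d)).symm)) ∘ e) := by
      intro z
      rw [Units.val_mul, ← Matrix.mulVec_mulVec, TSQG_val]
      congr 1
      have : z ∘ (e.trans (finTwoArrowEquiv (Fin d)).symm) =
          (z ∘ (finTwoArrowEquiv (Fin d)).symm) ∘ e := rfl
      rw [this, Matrix.submatrix_mulVec_equiv]
      congr 2
      ext u
      simp
    rw [hmv x, hmv y, hid, TSQG_conj, TSQG_kron G₁ G₂ A.1 c hA, TSQG_gram]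
    unfold formOfGram
    rw [← Equiv.sum_comp (finTwoArrowEquiv (Fin d)), Finset.mul_sum]
    apply Finset.sum_congr rfl
    intro a _
    rw [← Equiv.sum_comp (finTwoArrowEquiv (Fin d)), Finset.mul_sum]
    apply Finset.sum_congr rfl
    intro b _
    have hft : ∀ a : Fin 2 → Fin d, (finTwoArrowEquiv (Fin d)) a = (a 0, a 1) := fun a => rfl
    simp only [Function.comp_apply, Equiv.symm_apply_apply]
    simp only [hft, Fin.prod_univ_two, id, Matrix.kroneckerMap_apply, Matrix.smul_apply,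
      smul_eq_mul]
    ring
  · unfold tensorWreathSubgroup
    exact TSQG_map_conj _ P _ (Subgroup.mem_map_of_mem _ (TSQG_pure A))

end Cfsg.Agent.Lib.Helper65.OOS
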