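import Mathlib
import Cfsg.Prelude.Def_GeometricClasses
import Cfsg.Prelude.Def_LieClassical
import Cfsg.Agent.Lib.Helper44.O9Main
import Cfsg.Agent.Lib.Helper40.SPPTFSW
import Cfsg.Agent.Lib.Helper93.SPPTS4
import Cfsg.Agent.Lib.Helper68.SPPTFS
import Cfsg.Agent.Lib.Helper65.OOSNFO
import Cfsg.Agent.Lib.Helper65.OOSTSQG
import Cfsg.Agent.Lib.Helper65.OOSTPWG
import Cfsg.Agent.Lib.Helper65.OOSTIFO

/-! Project OOS (helper65): the subgroup structure theorem for the odd-dimensional orthogonal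
groups `Ω_{2m+1}(q)`, `q` odd, `m ≥ 3` (statement S5673): `genOO` (all odd `n ≠ 9`) on top of
the OMP / SPP / O9 engines, `n = 9` by `genO9`, and the transport `finalOO`. -/

set_option autoImplicit false

namespace Cfsg.Agent.Lib.Helper65.OOS

open Matrix Cfsg.Geo Cfsg.Agent.Lib.Helper71.Asch
open scoped Kronecker
open Cfsg.Agent.Lib.Helper71.OMPMain (T0a T0b T0c T1 T2 T5 TR fixes_polar tQ tW)
open Cfsg.Agent.Lib.Helper82.ASCOREB (coreB)
open Cfsg.Agent.Lib.Helper21.ASCOREC (coreC)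
open Cfsg.Agent.Lib.Helper46.ASB3s (B3s B3a)
open Cfsg.Agent.Lib.Helper61.ASB6 (B6)
open Cfsg.Agent.Lib.Helper67.ASNL (NL_core exists_subfield_aut)
open Cfsg.Agent.Lib.Helper46.ASB7core (B7core)
open Cfsg.Agent.Lib.Helper73.SLPC2 (C2)
open Cfsg.Agent.Lib.Helper16.SLPC3 (C3)
open Cfsg.Agent.Lib.Helper1.SUPU3 (U3_even)
open Cfsg.Agent.Lib.Helper28.OMPO1a (O1a)
open Cfsg.Agent.Lib.Helper57.OMPO3b (O3b)
open Cfsg.Agent.Lib.Helper23.OMPO3r (O3r)
open Cfsg.Agent.Lib.Helper56.OMPO4 (O4)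
open Cfsg.Agent.Lib.Helper8.OMPO5 (O5)
open Cfsg.Agent.Lib.Helper77.OMPO7 (O7)
open Cfsg.Agent.Lib.Helper54.OMPO8a (O8a)
open Cfsg.Agent.Lib.Helper14.OMPO8b (O8b)
open Cfsg.Agent.Lib.Helper19.OMPOA (OA)
open Cfsg.Agent.Lib.Helper56.OMPOD (OD1 OD2)
open Cfsg.Agent.Lib.Helper86.SPPCAP (CAP)
open Cfsg.Agent.Lib.Helper83.SPPHOMP (HOMP)
open Cfsg.Agent.Lib.Helper10.SPPUNIQ (UNIQ)
open Cfsg.Agent.Lib.Helper20.SPPEVENM (EVENM)
open Cfsg.Agent.Lib.Helper93.SPPTS3 (TS3)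
open Cfsg.Agent.Lib.Helper93.SPPTS4 (TS4)
open Cfsg.Agent.Lib.Helper40.SPPTFSW (TFSW)
open Cfsg.Agent.Lib.Helper68.SPPTFS (tfs_bilinear tfs_swap tfs_nondeg tfs_gram)
open Cfsg.Agent.Lib.Helper44.O9 (o9_polar_symm o9_O3r o9_O8b o9_exists_minNS GenO9 genO9 PAIRaS
  PAIRbS ADJS FLDS TFO T2G T7)

variable {n : ℕ} {F : Type*} [Field F] [Fintype F]

/-- TFSS: from two symmetric Gram matrices to the tensor form structure of the statements. -/
theorem oos_TFSS (f : (Fin n → F) → (Fin n → F) → F) {d k : ℕ} (e : Fin n ≃ Fin d × Fin k)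
    (P : GL (Fin n) F) (G₁ : Matrix (Fin d) (Fin d) F) (G₂ : Matrix (Fin k) (Fin k) F)
    (h1 : G₁.det ≠ 0) (h2 : G₂.det ≠ 0) (hs1 : G₁ᵀ = G₁) (hs2 : G₂ᵀ = G₂)
    (hid : ∀ x y : Fin d × Fin k → F,
      f (P.1 *ᵥ (x ∘ e)) (P.1 *ᵥ (y ∘ e)) = formOfGram id (G₁ ⊗ₖ G₂) x y) :
    ∃ (f₁ : (Fin d → F) → (Fin d → F) → F) (f₂ : (Fin k → F) → (Fin k → F) → F),
      IsSymmetricForm f₁ ∧ IsSymmetricForm f₂ ∧ IsTensorFormStructure id f f₁ f₂ e P := by
  refine ⟨formOfGram id G₁, formOfGram id G₂, ?_, ?_, ?_⟩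
  · refine ⟨tfs_bilinear G₁, ?_, tfs_nondeg G₁ h1⟩
    intro u v
    rw [tfs_swap G₁ u v, hs1]
  · refine ⟨tfs_bilinear G₂, ?_, tfs_nondeg G₂ h2⟩
    intro u v
    rw [tfs_swap G₂ u v, hs2]
  · refine ⟨1, one_ne_zero, ?_⟩
    intro x y
    rw [tfs_gram, tfs_gram, one_mul]
    exact hid x y

/-- `O3r` for both discriminant classes -/
theorem oos_O3r (Q : (Fin n → F) → F) (hQ : IsNondegenerateQuadraticForm Q) (h2 : (2 : F) ≠ 0)
    (hodd : Odd n)
    (hdisc : ∃ c : F, c ≠ 0 ∧ ((gramMatrix (QuadraticMap.polar Q)).det = -2 * c ^ 2 ∨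
      (gramMatrix (QuadraticMap.polar Q)).det = 2 * c ^ 2))
    (D : Fin n → Submodule F (Fin n → F)) (hD : IsOrthogonalMDecomposition Q 1 D) :
    ∃ P : GL (Fin n) F, (∀ F₀ : Subfield F, IsQuadFormRationalStructure Q F₀ P) ∧
      ∀ (F₀ : Subfield F) (g : GL (Fin n) F), g ∈ decompositionStabilizer D →
        (∀ v, Q (g.1 *ᵥ v) = Q v) → g ∈ subfieldSubgroup F₀ P := by
  obtain ⟨c, hc, hdet | hdet⟩ := hdisc
  · exact O3r Q hQ h2 hodd ⟨c, hc, hdet⟩ D hD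
  · exact o9_O3r Q hQ h2 hodd ⟨c, hc, hdet⟩ D hD

/-- `O8b` for both discriminant classes -/
theorem oos_O8b (Q : (Fin n → F) → F) (hQ : IsNondegenerateQuadraticForm Q) (h2 : (2 : F) ≠ 0)
    (hodd : Odd n)
    (hdisc : ∃ c : F, c ≠ 0 ∧ ((gramMatrix (QuadraticMap.polar Q)).det = -2 * c ^ 2 ∨
      (gramMatrix (QuadraticMap.polar Q)).det = 2 * c ^ 2))
    (F₁ : Subfield F) (r : ℕ) (hr : r.Prime) (hcard : Fintype.card F = Nat.card F₁ ^ r)
    (P : GL (Fin n) F) (ζ : F) (hζ : ζ ≠ 0)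
    (hrat : IsFormRationalStructure (QuadraticMap.polar Q) F₁ ζ P) :
    ∃ P' : GL (Fin n) F, IsQuadFormRationalStructure Q F₁ P' ∧
      subfieldSubgroup F₁ P' = subfieldSubgroup F₁ P := by
  obtain ⟨c, hc, hdet | hdet⟩ := hdisc
  · exact O8b Q hQ h2 hodd ⟨c, hc, hdet⟩ F₁ r hr hcard P ζ hζ hrat
  · exact o9_O8b Q hQ h2 hodd ⟨c, hc, hdet⟩ F₁ r hr hcard P ζ hζ hrat

/-- The normal form of a group of isometries of a quadratic form in odd dimension. -/
def GenOO (Q : (Fin n → F) → F) (H : Subgroup (GL (Fin n) F)) : Prop :=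
  (∃ W : Submodule F (Fin n → F), W ≠ ⊥ ∧ W ≠ ⊤ ∧ IsTotallySingularQuad Q W ∧
    H ≤ subspaceStabilizer W) ∨
  (∃ W : Submodule F (Fin n → F), W ≠ ⊥ ∧ W ≠ ⊤ ∧
    IsNondegenerateOn (QuadraticMap.polar Q) W ∧ H ≤ subspaceStabilizer W) ∨
  (∃ (t k : ℕ) (D : Fin t → Submodule F (Fin n → F)), 1 < k ∧
    IsOrthogonalMDecomposition Q k D ∧ H ≤ decompositionStabilizer D) ∨
  (∃ (D : Fin n → Submodule F (Fin n → F)) (P : GL (Fin n) F),
    IsOrthogonalMDecomposition Q 1 D ∧ H ≤ decompositionStabilizer D ∧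
    ∀ F₀ : Subfield F, IsQuadFormRationalStructure Q F₀ P ∧ H ≤ subfieldSubgroup F₀ P) ∨
  (∃ (r : ℕ) (K : Subalgebra F (Matrix (Fin n) (Fin n) F)), r.Prime ∧ r ≠ n ∧
    IsFieldSubalgebra r K ∧ IsSelfAdjointFor (QuadraticMap.polar Q) K ∧
    H ≤ subalgebraNormalizer K) ∨
  (∃ (n₁ n₂ : ℕ) (e : Fin n ≃ Fin n₁ × Fin n₂) (P : GL (Fin n) F)
    (f₁ : (Fin n₁ → F) → (Fin n₁ → F) → F) (f₂ : (Fin n₂ → F) → (Fin n₂ → F) → F),
    3 ≤ n₁ ∧ n₁ < n₂ ∧ IsSymmetricForm f₁ ∧ IsSymmetricForm f₂ ∧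
    IsTensorFormStructure id (QuadraticMap.polar Q) f₁ f₂ e P ∧
    H ≤ tensorProductSubgroup n₁ n₂ e P) ∨
  (∃ (F₀ : Subfield F) (r : ℕ) (P : GL (Fin n) F), r.Prime ∧
    Fintype.card F = Nat.card F₀ ^ r ∧ IsQuadFormRationalStructure Q F₀ P ∧
    H ≤ subfieldSubgroup F₀ P) ∨
  (∃ (k t : ℕ) (e : Fin n ≃ (Fin t → Fin k)) (P : GL (Fin n) F)
    (f₁ : (Fin k → F) → (Fin k → F) → F), 3 ≤ k ∧ 2 ≤ t ∧
    ¬ (Fintype.card F = 3 ∧ k = 3) ∧ IsSymmetricForm f₁ ∧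
    IsTensorPowerFormStructure id (QuadraticMap.polar Q) f₁ e P ∧
    H ≤ tensorWreathSubgroup k t e P) ∨
  InOrthogonalResidualClass H

/-- GENOO: the structure of a group of isometries of a non-degenerate quadratic form in odd
dimension `n ≥ 5`, `n ≠ 9`, over a finite field of odd characteristic. -/
theorem genOO (hn : 5 ≤ n) (hodd : Odd n) (hn9 : n ≠ 9) (Q : (Fin n → F) → F)
    (hQ : IsNondegenerateQuadraticForm Q) (h2 : (2 : F) ≠ 0)
    (hdisc : ∃ c : F, c ≠ 0 ∧ ((gramMatrix (QuadraticMap.polar Q)).det = -2 * c ^ 2 ∨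
      (gramMatrix (QuadraticMap.polar Q)).det = 2 * c ^ 2))
    (H : Subgroup (GL (Fin n) F)) (hfix : FixesQuadForm (matrixSet H) Q) : GenOO Q H := by
  classical
  have hb : IsSymmetricForm (QuadraticMap.polar Q) := o9_polar_symm Q hQ
  have hbfix : FixesForm (matrixSet H) (QuadraticMap.polar Q) := fixes_polar hfix
  -- the frame alternative
  have frame : ∀ D : Fin n → Submodule F (Fin n → F), IsOrthogonalMDecomposition Q 1 D →
      H ≤ decompositionStabilizer D → GenOO Q H := by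
    intro D hOD hHD
    obtain ⟨P, hP1, hP2⟩ := oos_O3r Q hQ h2 hodd hdisc D hOD
    refine Or.inr (Or.inr (Or.inr (Or.inl ⟨D, P, hOD, hHD, fun F₀ => ⟨hP1 F₀, ?_⟩⟩)))
    intro g hg
    exact hP2 F₀ g (hHD hg) (fun v => hfix _ ⟨g, hg, rfl⟩ v)
  -- the tensor alternative for two symmetric Gram matrices, `3 ≤ a ≤ b`
  have tens : ∀ (a b : ℕ), a * b = n → ∀ (e : Fin n ≃ Fin a × Fin b) (P : GL (Fin n) F)
      (G₁ : Matrix (Fin a) (Fin a) F) (G₂ : Matrix (Fin b) (Fin b) F),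
      G₁.det ≠ 0 → G₂.det ≠ 0 → G₁ᵀ = G₁ → G₂ᵀ = G₂ →
      (∀ x y : Fin a × Fin b → F,
        QuadraticMap.polar Q (P.1 *ᵥ (x ∘ e)) (P.1 *ᵥ (y ∘ e)) =
          formOfGram id (G₁ ⊗ₖ G₂) x y) →
      H ≤ tensorProductSubgroup a b e P → 3 ≤ a → a ≤ b → GenOO Q H := by
    intro a b hab e P G₁ G₂ hd1 hd2 hs1 hs2 hid hHT ha3 hle
    rcases Nat.lt_or_ge a b with hlt | hge
    · obtain ⟨f₁, f₂, hf₁, hf₂, ht⟩ :=
        oos_TFSS (QuadraticMap.polar Q) e P G₁ G₂ hd1 hd2 hs1 hs2 hid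
      exact Or.inr (Or.inr (Or.inr (Or.inr (Or.inr (Or.inl
        ⟨a, b, e, P, f₁, f₂, ha3, hlt, hf₁, hf₂, ht, hHT⟩)))))
    · obtain rfl : a = b := le_antisymm hle hge
      have haodd : Odd a := by
        rw [← hab] at hodd
        exact (Nat.odd_mul.mp hodd).1
      have ha3' : a ≠ 3 := by
        rintro rfl
        exact hn9 hab.symm
      obtain ⟨A, c, hc, hA⟩ := NFO h2 haodd G₁ G₂ hs1 hs2 hd1 hd2
      obtain ⟨P', f₁, hf₁, ht, heq⟩ :=
        TSQG (QuadraticMap.polar Q) e P G₁ G₂ hs1 hd1 hid A c hc hA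
      refine Or.inr (Or.inr (Or.inr (Or.inr (Or.inr (Or.inr (Or.inr (Or.inl
        ⟨a, 2, e.trans (finTwoArrowEquiv (Fin a)).symm, P', f₁, ha3, le_rfl,
          fun h => ha3' h.2, hf₁, ht, ?_⟩)))))))
      rw [heq]
      exact hHT.trans (TPWG e P)
  by_cases h1 : ActsIrreducibly (matrixSet H)
  swap
  · rcases O1a Q hQ h2 hodd H hfix h1 with ⟨W, h0, htop, hts, hle⟩ | ⟨W, h0, htop, hev, hnd, hle⟩
    · exact Or.inl ⟨W, h0, htop, hts, hle⟩
    · exact Or.inr (Or.inl ⟨W, h0, htop, hnd, hle⟩)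
  obtain ⟨L, hL⟩ := o9_exists_minNS (by omega) H h1
  have hLfixQ : FixesQuadForm (matrixSet L) Q := by
    rintro _ ⟨g, hg, rfl⟩ v
    exact hfix _ ⟨g, hL.le hg, rfl⟩ v
  have hLfix : FixesForm (matrixSet L) (QuadraticMap.polar Q) := fixes_polar hLfixQ
  rcases CAP (by omega) H L h1 hL.le hL.nrm with
    ⟨t, m, D, hD, hHD, hiso, hinv, hfull⟩ | ⟨d, k, e, P, R, hR, hR1, hR2⟩
  · -- inhomogeneous
    have htm : t * m = n := C2 D hD
    have ht2 := hD.two_le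
    obtain ⟨τ, hτ, horth, hno⟩ := PAIRaS (QuadraticMap.polar Q) hb L hLfix D hD hiso hinv hfull
    have htodd : ¬ Even t := by
      intro hev
      have hen : Even n := by
        rw [← htm]
        exact hev.mul_right m
      exact (Nat.not_even_iff_odd.mpr hodd) hen
    rcases PAIRbS (QuadraticMap.polar Q) hb H hbfix h1 D hD hHD τ hτ horth hno with
      hND | ⟨hfp, -⟩
    swap
    · exfalso
      have hev : Even t := by
        have := U3_even τ hτ hfp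
        simpa using this
      exact htodd hev
    have hisom := O3b Q H hfix h1 D hD hHD
    have hOD : IsOrthogonalMDecomposition Q m D := ⟨hND, hisom⟩
    by_cases hm1 : m = 1
    · subst hm1
      obtain rfl : t = n := by omega
      exact frame D hOD hHD
    · have hm0 : m ≠ 0 := by
        rintro rfl
        omega
      exact Or.inr (Or.inr (Or.inl ⟨t, m, D, by omega, hOD, hHD⟩))
  · -- homogeneous
    have hcard : n = d * k := by
      have := Fintype.card_congr e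
      simpa using this
    have hd1 : d ≠ 1 := by
      rintro rfl
      exact hL.ns (B3s e P R L hR1)
    by_cases hRa : ActsAbsolutelyIrreducibly (matrixSet R)
    swap
    · obtain ⟨r, K, hr, hK, hHK, hKc⟩ :=
        coreB (by omega) H L hL.le hL.nrm e P R hR hR1 hR2 hRa
      have hhom := HOMP e P R L hR hR1 hR2
      have hadj := ADJS (by omega) (QuadraticMap.polar Q) hb L hLfix hhom
        (fun Z hc hi r K K' hK hK' h1 h2 => UNIQ (by omega) Z hc hi r K K' hK hK' h1 h2)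
        r K hK hKc
      have hrn : r ∣ n := C3 (by omega) r K hK
      by_cases hrn' : r = n
      · subst hrn'
        exact absurd (O4 Q hQ h2 hodd L hLfixQ K hK hKc) hL.ns
      · have hrodd : Odd r := by
          obtain ⟨s, hs⟩ := hrn
          rw [hs] at hodd
          exact (Nat.odd_mul.mp hodd).1
        have hsa := FLDS (QuadraticMap.polar Q) hb r hrodd K hK hadj
        exact Or.inr (Or.inr (Or.inr (Or.inr (Or.inl ⟨r, K, hr, hrn', hK, hsa, hHK⟩))))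
    · have hHT : H ≤ tensorProductSubgroup d k e P := fun h hh =>
        (coreC e P R L hRa hR1 hR2).2 h (fun x hx => hL.nrm h hh x hx)
      by_cases hk1 : k = 1
      · -- `k = 1`: `L` absolutely irreducible
        subst hk1
        obtain rfl : n = d := by omega
        have hLa := B3a e P R L hRa hR2
        rcases hL.min ⁅L, L⁆ (commutator_le_self L) hL.nrm.commutator with hc | hc
        · exact (O5 Q hQ (by omega) hodd L hLa hLfixQ hc).elim
        · rcases B6 H L hL hc with ⟨hs, hna⟩ | ⟨k', Ps, hk', hns, hcomm, hsup, hperm, htrans⟩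
          · by_cases hsubf : ∃ F₀ : Subfield F, F₀ ≠ ⊤ ∧ RealisableOver F₀ (matrixSet L)
            · obtain ⟨F₀, hF₀, hreal⟩ := hsubf
              obtain ⟨F₁, r, τ', hr, hcardF, hle, hfixτ⟩ := exists_subfield_aut F₀ hF₀
              obtain ⟨B, hB⟩ := hreal
              have hB₁ : ∀ s ∈ matrixSet L, ∀ i j,
                  (B.1 * s * (B⁻¹ : GL (Fin n) F).1) i j ∈ F₁ :=
                fun s hs i j => hle (hB s hs i j)
              have hHle : H ≤ subfieldSubgroup F₁ B⁻¹ := by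
                intro h hh
                have key := NL_core L hLa F₁ τ' hfixτ B hB₁ h (fun x hx => hL.nrm h hh x hx)
                unfold subfieldSubgroup
                refine ⟨B * h * B⁻¹, key, ?_⟩
                show B⁻¹ * (B * h * B⁻¹) * B⁻¹⁻¹ = h
                group
              obtain ⟨ζ, hζ, hrat⟩ := O8a (by omega) L hLa (QuadraticMap.polar Q)
                hQ.polar_bilinear hQ.nondegenerate hLfix F₁ τ' hfixτ B hB₁
              obtain ⟨P', hP', hsg⟩ := oos_O8b Q hQ h2 hodd hdisc F₁ r hr hcardF B⁻¹ ζ hζ hrat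
              exact Or.inr (Or.inr (Or.inr (Or.inr (Or.inr (Or.inr (Or.inl
                ⟨F₁, r, P', hr, hcardF, hP', by rw [hsg]; exact hHle⟩))))))
            · refine Or.inr (Or.inr (Or.inr (Or.inr (Or.inr (Or.inr (Or.inr (Or.inr
                ⟨L, B7core H L hL.le hL.nrm hLa hc hs hna ?_, ?_⟩)))))))
              · intro F₀ hF₀ hreal
                exact hsubf ⟨F₀, hF₀, hreal⟩
              · rintro ⟨σ, f, hf, hffix⟩
                exact hsubf (O7 (by omega) L hLa (QuadraticMap.polar Q) hQ.polar_bilinear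
                  hQ.nondegenerate hLfix σ f hf hffix)
          · obtain ⟨d', t, e', P', f₁, hd3, ht2, hex, hf₁, htp, hHW⟩ :=
              TIFO (by omega) hodd h2 (QuadraticMap.polar Q) hb H L hbfix hL hLa hc k' Ps hk'
                hns hcomm hsup hperm htrans
            exact Or.inr (Or.inr (Or.inr (Or.inr (Or.inr (Or.inr (Or.inr (Or.inl
              ⟨d', t, e', P', f₁, hd3, ht2, hex, hf₁, htp, hHW⟩)))))))
      · -- `d ≥ 3`, `k ≥ 3`, both odd
        have hdk : Odd d ∧ Odd k := by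
          rw [hcard] at hodd
          exact Nat.odd_mul.mp hodd
        have hd0 : d ≠ 0 := by
          rintro rfl
          simp at hcard
          omega
        have hk0 : k ≠ 0 := by
          rintro rfl
          simp at hcard
          omega
        have hd3 : 3 ≤ d := by
          obtain ⟨s, hs⟩ := hdk.1
          omega
        have hk3 : 3 ≤ k := by
          obtain ⟨s, hs⟩ := hdk.2
          omega
        obtain ⟨G₁, G₂, hd1', hd2', hcase, hid⟩ :=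
          TFO h2 (QuadraticMap.polar Q) hb e P R L hRa hR1 hR2 hLfix
        rcases hcase with ⟨hs1, hs2⟩ | ⟨ha1, hz1, -⟩
        swap
        · exact absurd (EVENM G₁ ha1 hz1 hd1') (Nat.not_even_iff_odd.mpr hdk.1)
        rcases le_total d k with hle | hle
        · exact tens d k hcard.symm e P G₁ G₂ hd1' hd2' hs1 hs2 hid hHT hd3 hle
        · obtain ⟨hid', heq⟩ := TFSW (QuadraticMap.polar Q) e P G₁ G₂ hid
          exact tens k d (by rw [mul_comm]; exact hcard.symm)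
            (e.trans (Equiv.prodComm (Fin d) (Fin k))) P G₂ G₁ hd2' hd1' hs2 hs1 hid'
            (heq ▸ hHT) hk3 hle

/-- FINAL: the subgroup structure theorem for `Ω_{2m+1}(q)`, `q` odd, `m ≥ 3`. -/
theorem finalOO (hodd : Odd (Fintype.card F)) (m : ℕ) (hm : 3 ≤ m)
    (H : Subgroup (GL (Unit ⊕ (Fin m ⊕ Fin m)) F))
    (hH : H ≤ omegaGL (Cfsg.quadFormOdd m F)) :
    (∃ M : Subgroup (GL (Unit ⊕ (Fin m ⊕ Fin m)) F), InOrthogonalOddClass m F M ∧ H ≤ M) ∨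
      InOrthogonalResidualClass H := by
  classical
  set Q₀ := Cfsg.quadFormOdd m F with hQ₀
  have hcardκ : Fintype.card (Unit ⊕ (Fin m ⊕ Fin m)) = 2 * m + 1 := by
    simp
    ring
  let e : Unit ⊕ (Fin m ⊕ Fin m) ≃ Fin (2 * m + 1) := Fintype.equivFinOfCardEq hcardκ
  have hQnd : IsNondegenerateQuadraticForm Q₀ := OD1 hodd m
  have hpr : (ringChar F).Prime := CharP.char_is_prime F (ringChar F)
  have hp2 : ringChar F ≠ 2 := by
    intro h2'
    have hdc : ringChar F ∣ Fintype.card F := by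
      have := (ringChar.spec F (Fintype.card F)).mp (by simp)
      exact this
    rw [h2'] at hdc
    exact (Nat.not_even_iff_odd.mpr hodd) (even_iff_two_dvd.mpr hdc)
  have h2 : (2 : F) ≠ 0 := by
    intro h
    have hch : ringChar F ∣ 2 := (ringChar.spec F 2).mp (by exact_mod_cast h)
    exact hp2 ((Nat.prime_dvd_prime_iff_eq hpr Nat.prime_two).mp hch)
  have hHI : H ≤ isometryGroup F Q₀ := hH.trans (Subgroup.map_subtype_le _)
  have hfix' := T0b e Q₀ H hH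
  have hg : GenOO (tQ e Q₀) (H.map (glReindex e).toMonoidHom) := by
    by_cases hm4 : m = 4
    · subst hm4
      have hdisc9 : ∃ c : F, c ≠ 0 ∧
          (gramMatrix (QuadraticMap.polar (tQ e Q₀))).det = 2 * c ^ 2 := by
        refine ⟨1, one_ne_zero, ?_⟩
        rw [T0c, OD2]
        norm_num
      have h9 := genO9 (n := 2 * 4 + 1) (by norm_num) (tQ e Q₀) (T0a e Q₀ hQnd) h2 hodd hdisc9 _
        hfix'
      unfold GenO9 at h9
      rcases h9 with ⟨W', h0, htop, hts, hle⟩ | ⟨W', h0, htop, hev, hnd, hex, hle⟩ |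
        ⟨D', P', hOD, hle, hrat⟩ | ⟨hq5, D', hOD, hle⟩ | ⟨K', hK', hsa, hle⟩ |
        ⟨F₀, r, P', hr, hcard, hrat, hle⟩ | ⟨hq5, e', P', f₁, hf₁, ht, hle⟩ | hres
      · exact Or.inl ⟨W', h0, htop, hts, hle⟩
      · exact Or.inr (Or.inl ⟨W', h0, htop, hnd, hle⟩)
      · exact Or.inr (Or.inr (Or.inr (Or.inl ⟨D', P', hOD, hle, hrat⟩)))
      · exact Or.inr (Or.inr (Or.inl ⟨3, 3, D', by norm_num, hOD, hle⟩))
      · exact Or.inr (Or.inr (Or.inr (Or.inr (Or.inl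
          ⟨3, K', Nat.prime_three, by norm_num, hK', hsa, hle⟩))))
      · exact Or.inr (Or.inr (Or.inr (Or.inr (Or.inr (Or.inr (Or.inl
          ⟨F₀, r, P', hr, hcard, hrat, hle⟩))))))
      · exact Or.inr (Or.inr (Or.inr (Or.inr (Or.inr (Or.inr (Or.inr (Or.inl
          ⟨3, 2, e', P', f₁, le_rfl, le_rfl, fun h => by omega, hf₁, ht, hle⟩)))))))
      · exact Or.inr (Or.inr (Or.inr (Or.inr (Or.inr (Or.inr (Or.inr (Or.inr hres)))))))
    · have hdisc : ∃ c : F, c ≠ 0 ∧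
          ((gramMatrix (QuadraticMap.polar (tQ e Q₀))).det = -2 * c ^ 2 ∨
            (gramMatrix (QuadraticMap.polar (tQ e Q₀))).det = 2 * c ^ 2) := by
        refine ⟨1, one_ne_zero, ?_⟩
        rw [T0c, OD2]
        rcases Nat.even_or_odd m with hev | hod
        · right
          rw [hev.neg_one_pow]
          ring
        · left
          rw [hod.neg_one_pow]
          ring
      exact genOO (by omega) ⟨m, rfl⟩ (by omega) (tQ e Q₀) (T0a e Q₀ hQnd) h2 hdisc _ hfix'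
  unfold GenOO at hg
  rcases hg with ⟨W', h0, htop, hts, hle⟩ | ⟨W', h0, htop, hnd, hle⟩ |
    ⟨t, k, D', hk, hOD, hle⟩ | ⟨D', P', hOD, hle, hrat⟩ | ⟨r, K', hr, hrn, hK', hsa, hle⟩ |
    ⟨n₁, n₂, e', P', f₁, f₂, h3, hlt, hf₁, hf₂, ht, hle⟩ | ⟨F₀, r, P', hr, hcard, hrat, hle⟩ |
    ⟨k, t, e', P', f₁, hk3, ht2, hex, hf₁, ht, hle⟩ | hres
  · obtain ⟨t1, t2, t3, t4, t5, t6, t7⟩ := T1 e Q₀ H W'
    exact Or.inl ⟨_, Or.inl ⟨tW e W', t2 h0, t5 hts, rfl⟩, le_inf (t1 hle) hHI⟩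
  · obtain ⟨t1, t2, t3, t4, t5, t6, t7⟩ := T1 e Q₀ H W'
    exact Or.inl ⟨_, Or.inr (Or.inl ⟨tW e W', t2 h0, t3 htop, t6 hnd, rfl⟩),
      le_inf (t1 hle) hHI⟩
  · obtain ⟨s1, s2⟩ := T2G e Q₀ H (m := k) D'
    exact Or.inl ⟨_, Or.inr (Or.inr (Or.inl ⟨t, k, _, hk, s2 hOD, rfl⟩)), le_inf (s1 hle) hHI⟩
  · by_cases hprime : (Fintype.card F).Prime
    · obtain ⟨s1, s2⟩ := T2 e Q₀ H D'
      exact Or.inl ⟨_, Or.inr (Or.inr (Or.inr (Or.inl ⟨_, _, hprime, s2 hOD, rfl⟩))),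
        le_inf (s1 hle) hHI⟩
    · obtain ⟨F₀, r, hr, hcard⟩ := OA hprime
      obtain ⟨u1, u2⟩ := T5 e Q₀ H F₀ P'
      exact Or.inl ⟨_, Or.inr (Or.inr (Or.inr (Or.inr (Or.inr (Or.inr (Or.inl
        ⟨F₀, r, _, hr, hcard, u2 (hrat F₀).1, rfl⟩)))))), le_inf (u1 (hrat F₀).2) hHI⟩
  · obtain ⟨k1, k2, k3, -, -⟩ := TS3 e (QuadraticMap.polar Q₀) H r K'
    have hsa' : IsSelfAdjointFor
        (Cfsg.Agent.Lib.Helper93.SPPTS3.tf e (QuadraticMap.polar Q₀)) K' :=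
      fun k hk u v => hsa k hk u v
    exact Or.inl ⟨_, Or.inr (Or.inr (Or.inr (Or.inr (Or.inl
      ⟨r, _, hr, fun h => hrn h.symm, k2 hK', k3.1 hsa', rfl⟩)))), le_inf (k1 hle) hHI⟩
  · obtain ⟨x1, x2⟩ := TS4 e (QuadraticMap.polar Q₀) H e' P' f₁ f₂
    have ht' : IsTensorFormStructure id
        (Cfsg.Agent.Lib.Helper93.SPPTS4.tf e (QuadraticMap.polar Q₀)) f₁ f₂ e' P' := ht
    exact Or.inl ⟨_, Or.inr (Or.inr (Or.inr (Or.inr (Or.inr (Or.inl
      ⟨n₁, n₂, _, _, f₁, f₂, h3, hlt, hf₁, hf₂, x2 ht', rfl⟩))))), le_inf (x1 hle) hHI⟩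
  · obtain ⟨u1, u2⟩ := T5 e Q₀ H F₀ P'
    exact Or.inl ⟨_, Or.inr (Or.inr (Or.inr (Or.inr (Or.inr (Or.inr (Or.inl
      ⟨F₀, r, _, hr, hcard, u2 hrat, rfl⟩)))))), le_inf (u1 hle) hHI⟩
  · obtain ⟨w1, w2⟩ := T7 e (QuadraticMap.polar Q₀) H e' P' f₁
    have ht' : IsTensorPowerFormStructure id
        (fun u v : Fin (2 * m + 1) → F => QuadraticMap.polar Q₀ (u ∘ e) (v ∘ e)) f₁ e' P' := ht
    exact Or.inl ⟨_, Or.inr (Or.inr (Or.inr (Or.inr (Or.inr (Or.inr (Or.inr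
      ⟨k, t, _, _, f₁, hk3, ht2, hex, hf₁, w2 ht', rfl⟩)))))), le_inf (w1 hle) hHI⟩
  · exact Or.inr (TR e H hres)

end Cfsg.Agent.Lib.Helper65.OOS
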