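import Mathlib
import Cfsg.Agent.Lib.Helper72.PQDefs
import Cfsg.Agent.Lib.Helper12.Ward8

/-!
# S4306, piece PQ-RED (helper65)

Minimal-counterexample reduction for a Frobenius operator group `Frob p ℓ A F`: copy of helper12's
`Ward7`/`Ward8` reduction (`MC`, `MC.exists_V`, `MC.exists_M`, `MC.false`, `ward_internal`) with the
operator group generalised.
-/

set_option autoImplicit false
set_option linter.style.haveILetI false
set_option maxHeartbeats 800000

namespace Cfsg.Agent.Lib.Helper65.PQ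

open Subgroup Pointwise
open scoped commutatorElement
open Cfsg.Agent.Lib.Helper55 (SylIn cj cj_eq_self_of_mem_normalizer mem_normalizer_of_cj_eq cj_mul
  cj_one sylIn_map_sylow)
open Cfsg.Agent.Lib.Helper12.Ward
open Cfsg.Agent.Lib.Helper72.PQ

universe u

theorem comm_of_isCyclic {α : Type*} [Group α] [IsCyclic α] (a b : α) : a * b = b * a := by
  obtain ⟨g, hg⟩ := IsCyclic.exists_generator (α := α)
  obtain ⟨i, rfl⟩ := Subgroup.mem_zpowers_iff.mp (hg a)
  obtain ⟨j, rfl⟩ := Subgroup.mem_zpowers_iff.mp (hg b)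
  exact zpow_mul_comm g i j

section Final
variable {Γ : Type u} [Group Γ] [Finite Γ]

theorem frob_solvable {p ℓ : ℕ} {A F : Subgroup Γ} (h : Frob p ℓ A F) : Group.IsSolvable A := by
  haveI := Fact.mk h.hp
  haveI := Fact.mk h.hℓ
  haveI hn : (F.subgroupOf A).Normal :=
    (Subgroup.normal_subgroupOf_iff_le_normalizer h.hFA).mpr h.hAF
  have hc1 : Nat.card (F.subgroupOf A) = p := by
    rw [Cfsg.Agent.Lib.Helper1.card_subgroupOf_of_le h.hFA]; exact h.hF
  have hc2 : Nat.card (↥A ⧸ F.subgroupOf A) = ℓ := by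
    have h1 := Subgroup.card_eq_card_quotient_mul_card_subgroup (F.subgroupOf A)
    rw [h.hA, hc1] at h1
    have h2 : p * ℓ = p * Nat.card (↥A ⧸ F.subgroupOf A) := by rw [h1]; ring
    exact (Nat.eq_of_mul_eq_mul_left h.hp.pos h2).symm
  haveI : IsCyclic (F.subgroupOf A) := isCyclic_of_prime_card hc1
  haveI : IsCyclic (↥A ⧸ F.subgroupOf A) := isCyclic_of_prime_card hc2
  haveI : Group.IsSolvable (F.subgroupOf A) := Group.isSolvable_of_comm comm_of_isCyclic
  haveI : Group.IsSolvable (↥A ⧸ F.subgroupOf A) := Group.isSolvable_of_comm comm_of_isCyclic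
  exact Group.isSolvable_of_ker_le_range (F.subgroupOf A).subtype
    (QuotientGroup.mk' (F.subgroupOf A)) (by rw [QuotientGroup.ker_mk', Subgroup.range_subtype])

omit [Finite Γ] in
theorem orderOf_coprime_of_pgroups {r q : ℕ} (hr : r.Prime) (hq : q.Prime) (hrq : r ≠ q)
    {V Q : Subgroup Γ} (hV : IsPGroup r V) (hQ : IsPGroup q Q) {v y : Γ} (hv : v ∈ V)
    (hy : y ∈ Q) : (orderOf v).Coprime (orderOf y) := by
  obtain ⟨a, ha⟩ := hV ⟨v, hv⟩
  obtain ⟨b, hb⟩ := hQ ⟨y, hy⟩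
  have h1 : orderOf v ∣ r ^ a := by
    apply orderOf_dvd_of_pow_eq_one
    have := congrArg Subtype.val ha
    simpa using this
  have h2 : orderOf y ∣ q ^ b := by
    apply orderOf_dvd_of_pow_eq_one
    have := congrArg Subtype.val hb
    simpa using this
  exact Nat.Coprime.coprime_dvd_left h1 (Nat.Coprime.coprime_dvd_right h2
    (Nat.Coprime.pow a b ((Nat.coprime_primes hr hq).mpr hrq)))

/-- minimal counterexample package (Frobenius operator group) -/
structure MCF (p ℓ : ℕ) (A F G : Subgroup Γ) : Prop where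
  frob : Frob p ℓ A F
  hAG : A ≤ normalizer (G : Set Γ)
  hfix : ∀ g ∈ G, (∀ x ∈ A, x * g = g * x) → g = 1
  hcop : (Nat.card G).Coprime (p * ℓ)
  hsub : ∀ H : Subgroup Γ, H ≤ G → H ≠ G → A ≤ normalizer (H : Set Γ) → MN H
  hquot : ∀ N : Subgroup Γ, N ≤ G → N ≠ ⊥ → G ≤ normalizer (N : Set Γ) →
    A ≤ normalizer (N : Set Γ) → ∃ k m : ℕ, (G.lowerCentralSeries k).lowerCentralSeries m ≤ N
  hnot : ¬ MN G
  hsolv : Group.IsSolvable G

theorem MCF.cop {p ℓ : ℕ} {A F G : Subgroup Γ} (h : MCF p ℓ A F G) {H : Subgroup Γ}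
    (hH : H ≤ G) : (Nat.card A).Coprime (Nat.card H) := by
  rw [h.frob.hA]
  exact Nat.Coprime.coprime_dvd_right (Subgroup.card_dvd_of_le hH) h.hcop.symm

theorem MCF.solvA {p ℓ : ℕ} {A F G : Subgroup Γ} (h : MCF p ℓ A F G) : Group.IsSolvable A :=
  frob_solvable h.frob

theorem MCF.exists_V {p ℓ : ℕ} {A F G : Subgroup Γ} (h : MCF p ℓ A F G) :
    ∃ (V : Subgroup Γ) (r : ℕ), r.Prime ∧ V ≤ G ∧ V ≠ ⊥ ∧ G ≤ normalizer (V : Set Γ) ∧
      A ≤ normalizer (V : Set Γ) ∧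
      (∀ N : Subgroup Γ, N ≤ V → N ≠ ⊥ → G ≤ normalizer (N : Set Γ) →
        A ≤ normalizer (N : Set Γ) → N = V) ∧
      (∀ v ∈ V, ∀ w ∈ V, v * w = w * v) ∧ IsPGroup r V := by
  have hG1 : G ≠ ⊥ := by
    intro hG
    apply h.hnot
    exact ⟨0, 0, hG⟩
  obtain ⟨V, ⟨hVG, hV1, hGV, hAV⟩, hmin⟩ := exists_min_subgroup
    (fun N : Subgroup Γ => N ≤ G ∧ N ≠ ⊥ ∧ G ≤ normalizer (N : Set Γ) ∧
      A ≤ normalizer (N : Set Γ))
    ⟨G, le_rfl, hG1, Subgroup.le_normalizer, h.hAG⟩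
  have hVmin : ∀ N : Subgroup Γ, N ≤ V → N ≠ ⊥ → G ≤ normalizer (N : Set Γ) →
        A ≤ normalizer (N : Set Γ) → N = V :=
    fun N hNV hN1 hGN hAN => hmin N hNV ⟨hNV.trans hVG, hN1, hGN, hAN⟩
  have hVV : ⁅V, V⁆ = ⊥ := by
    by_contra hne
    have h1 : ⁅V, V⁆ ≤ V :=
      Cfsg.Agent.Lib.Helper55.commutator_le_of_le_normalizer Subgroup.le_normalizer
    have h2 := hVmin ⁅V, V⁆ h1 hne (fun g hg => nz_comm (hGV hg) (hGV hg))
      (fun g hg => nz_comm (hAV hg) (hAV hg))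
    exact comm_ne_of_solvable (Cfsg.Agent.Lib.Helper1.isSolvable_of_le' hVG h.hsolv) hV1 h2
  have hVc := comm_of_commutator_eq_bot hVV
  have hcard1 : Nat.card V ≠ 1 := fun hc => hV1 (Subgroup.card_eq_one.mp hc)
  obtain ⟨r, hr, hrd⟩ := Nat.exists_prime_and_dvd hcard1
  haveI := Fact.mk hr
  obtain ⟨x, hx⟩ := exists_prime_orderOf_dvd_card' (G := ↥V) r hrd
  have hVr1 : omegaSub V hVc r ≠ ⊥ := by
    intro hb
    have hxm : (x : Γ) ∈ omegaSub V hVc r := by
      rw [mem_omegaSub]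
      refine ⟨x.2, ?_⟩
      have h3 := pow_orderOf_eq_one x
      rw [hx] at h3
      have h4 := congrArg Subtype.val h3
      simpa using h4
    rw [hb, Subgroup.mem_bot] at hxm
    have h5 : x = 1 := Subtype.ext hxm
    rw [h5, orderOf_one] at hx
    exact hr.one_lt.ne hx
  have hVrV' := hVmin (omegaSub V hVc r) (fun v hv => hv.1) hVr1
    (fun g hg => nz_omegaSub hVc r (hGV hg)) (fun g hg => nz_omegaSub hVc r (hAV hg))
  have hVr : IsPGroup r V := by
    intro v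
    refine ⟨1, ?_⟩
    have hv : (v : Γ) ∈ omegaSub V hVc r := by rw [hVrV']; exact v.2
    apply Subtype.ext
    rw [pow_one]
    simpa using hv.2
  exact ⟨V, r, hr, hVG, hV1, hGV, hAV, hVmin, hVc, hVr⟩

theorem MCF.exists_M {p ℓ : ℕ} {A F G : Subgroup Γ} (h : MCF p ℓ A F G) {V : Subgroup Γ} {r : ℕ}
    (hr : r.Prime) (hVG : V ≤ G) (hV1 : V ≠ ⊥) (hGV : G ≤ normalizer (V : Set Γ))
    (hAV : A ≤ normalizer (V : Set Γ))
    (hVmin : ∀ N : Subgroup Γ, N ≤ V → N ≠ ⊥ → G ≤ normalizer (N : Set Γ) →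
        A ≤ normalizer (N : Set Γ) → N = V)
    (hVc : ∀ v ∈ V, ∀ w ∈ V, v * w = w * v) (hVr : IsPGroup r V) :
    ∃ M : Subgroup Γ, M ≤ G ∧ A ≤ normalizer (M : Set Γ) ∧ G ≤ V ⊔ M ∧
      (∀ x ∈ M, x ∈ V → x = 1) ∧ (∀ x ∈ M, (∀ v ∈ V, x * v = v * x) → x = 1) := by
  haveI := Fact.mk hr
  obtain ⟨k, m, hkm⟩ := h.hquot V hVG hV1 hGV hAV
  have hdisj : ∀ N : Subgroup Γ, N ≤ G → G ≤ normalizer (N : Set Γ) →
      A ≤ normalizer (N : Set Γ) → (∀ x ∈ N, x ∈ V → x = 1) → N = ⊥ := by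
    intro N hNG hGN hAN hNV
    by_contra hN1
    obtain ⟨k', m', hkm'⟩ := h.hquot N hNG hN1 hGN hAN
    apply h.hnot
    refine ⟨max k k', max m m', ?_⟩
    rw [eq_bot_iff]
    intro x hx
    have h1 : x ∈ V := hkm (lcs_lcs_le G (le_max_left k k') (le_max_left m m') hx)
    have h2 : x ∈ N := hkm' (lcs_lcs_le G (le_max_right k k') (le_max_right m m') hx)
    rw [Subgroup.mem_bot]
    exact hNV x h2 h1
  have hLG : G.lowerCentralSeries k ≤ G := Subgroup.lowerCentralSeries_le_self G k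
  have hGL : G ≤ normalizer ((G.lowerCentralSeries k : Subgroup Γ) : Set Γ) :=
    G.self_le_normalizer_lowerCentralSeries k
  have hAL : A ≤ normalizer ((G.lowerCentralSeries k : Subgroup Γ) : Set Γ) :=
    fun a ha => nz_lcs (h.hAG ha) k
  have hLnn : ∀ j, (G.lowerCentralSeries k).lowerCentralSeries j ≠ ⊥ :=
    fun j hj => h.hnot ⟨k, j, hj⟩
  have hVL : V ≤ G.lowerCentralSeries k := by
    by_contra hnle
    have h1 : V ⊓ G.lowerCentralSeries k = ⊥ := by
      by_contra hne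
      have h2 := hVmin (V ⊓ G.lowerCentralSeries k) inf_le_left hne
        (fun g hg => nz_inf (hGV hg) (hGL hg)) (fun g hg => nz_inf (hAV hg) (hAL hg))
      exact hnle (inf_eq_left.mp h2)
    apply hLnn m
    rw [eq_bot_iff, ← h1]
    exact le_inf hkm (Subgroup.lowerCentralSeries_le_self _ m)
  have hq₁ : ∃ q₁ : ℕ, q₁.Prime ∧ q₁ ≠ r ∧ q₁ ∣ Nat.card (G.lowerCentralSeries k) := by
    by_contra hcon
    push Not at hcon
    have h1 : Nat.card (G.lowerCentralSeries k) =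
        r ^ (Nat.card (G.lowerCentralSeries k)).primeFactorsList.length := by
      apply Nat.eq_prime_pow_of_unique_prime_dvd Nat.card_pos.ne'
      intro d hd hdvd
      by_contra hne
      exact hcon d hd hne hdvd
    have h2 : IsPGroup r (G.lowerCentralSeries k) := IsPGroup.of_card h1
    have h3 : Group.IsNilpotent ↥(G.lowerCentralSeries k) := h2.isNilpotent
    obtain ⟨j, hj⟩ := (Subgroup.isNilpotent_iff_lowerCentralSeries _).mp h3
    exact hLnn j hj
  obtain ⟨q₁, hq₁p, hq₁r, hq₁d⟩ := hq₁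
  haveI := Fact.mk hq₁p
  obtain ⟨Q₁, hQ₁, hAQ₁⟩ := exists_inv_sylIn hAL (h.cop hLG) h.solvA q₁
  have hQ₁1 : Q₁ ≠ ⊥ := by
    intro hb
    apply hQ₁.2.2
    rw [hb, Subgroup.relIndex_bot_left]
    exact hq₁d
  have hVQ₁ : ∀ x ∈ V, x ∈ Q₁ → x = 1 := by
    intro x hxV hxQ
    exact Subgroup.disjoint_def.mp
      (IsPGroup.disjoint_of_ne r q₁ (Ne.symm hq₁r) V Q₁ hVr hQ₁.isPGroup) hxV hxQ
  have hMG : G ⊓ normalizer (Q₁ : Set Γ) ≤ G := inf_le_left
  have hMQ₁ : G ⊓ normalizer (Q₁ : Set Γ) ≤ normalizer (Q₁ : Set Γ) := inf_le_right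
  have hAM : A ≤ normalizer ((G ⊓ normalizer (Q₁ : Set Γ) : Subgroup Γ) : Set Γ) :=
    fun a ha => nz_inf (h.hAG ha) (Subgroup.le_normalizer (hAQ₁ ha))
  have hGVM : G ≤ V ⊔ (G ⊓ normalizer (Q₁ : Set Γ)) := by
    intro g hg
    obtain ⟨a, ha, n, hn, rfl⟩ := hQ₁.frattini hLG hGL g hg
    have h1 : G.lowerCentralSeries k ≤ V ⊔ (G.lowerCentralSeries k ⊓ normalizer (Q₁ : Set Γ)) :=
      frat_nil hQ₁ hVL hkm
    have h2 : G.lowerCentralSeries k ⊓ normalizer (Q₁ : Set Γ) ≤ G ⊓ normalizer (Q₁ : Set Γ) :=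
      inf_le_inf_right _ hLG
    have h3 : n ∈ V ⊔ (G ⊓ normalizer (Q₁ : Set Γ)) := (h1.trans (sup_le_sup_left h2 V)) hn
    exact Subgroup.mul_mem _ (Subgroup.mem_sup_right ha) h3
  have hCV : ∀ v ∈ V, (∀ y ∈ Q₁, y * v = v * y) → v = 1 := by
    have hGN : G ≤ normalizer ((V ⊓ centralizer (Q₁ : Set Γ) : Subgroup Γ) : Set Γ) :=
      hGVM.trans (sup_le (abelian_le_nz hVc inf_le_left)
        (fun x hx => nz_inf (hGV (hMG hx)) (nz_centralizer (hMQ₁ hx))))
    have hAN : A ≤ normalizer ((V ⊓ centralizer (Q₁ : Set Γ) : Subgroup Γ) : Set Γ) :=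
      fun a ha => nz_inf (hAV ha) (nz_centralizer (hAQ₁ ha))
    have hN1 : V ⊓ centralizer (Q₁ : Set Γ) = ⊥ := by
      by_contra hne
      have h1 := hVmin _ inf_le_left hne hGN hAN
      have h2 : V ≤ centralizer (Q₁ : Set Γ) := inf_eq_left.mp h1
      have h3 : G ≤ normalizer (Q₁ : Set Γ) :=
        hGVM.trans (sup_le (h2.trans (Subgroup.centralizer_le_normalizer _)) hMQ₁)
      have h4 := hdisj Q₁ (hQ₁.le.trans hLG) h3 hAQ₁ (fun x hxQ hxV => hVQ₁ x hxV hxQ)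
      exact hQ₁1 h4
    intro v hv hc
    have h5 : v ∈ V ⊓ centralizer (Q₁ : Set Γ) :=
      Subgroup.mem_inf.mpr ⟨hv, Subgroup.mem_centralizer_iff.mpr (fun y hy => hc y hy)⟩
    rw [hN1, Subgroup.mem_bot] at h5
    exact h5
  have hVM : ∀ x ∈ G ⊓ normalizer (Q₁ : Set Γ), x ∈ V → x = 1 := by
    intro x hxM hxV
    apply hCV x hxV
    intro y hy
    have h1 : ⁅x, y⁆ ∈ V := by
      have e : ⁅x, y⁆ = x * (y * x⁻¹ * y⁻¹) := by rw [commutatorElement_def]; group
      rw [e]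
      exact V.mul_mem hxV (conj_mem_of_nz (hGV (hLG (hQ₁.le hy))) (V.inv_mem hxV))
    have h2 : ⁅x, y⁆ ∈ Q₁ := by
      have e : ⁅x, y⁆ = (x * y * x⁻¹) * y⁻¹ := by rw [commutatorElement_def]
      rw [e]; exact Q₁.mul_mem (conj_mem_of_nz (hMQ₁ hxM) hy) (Q₁.inv_mem hy)
    have h3 := hVQ₁ _ h1 h2
    exact (commutatorElement_eq_one_iff_mul_comm.mp h3).symm
  have hCM : ∀ x ∈ G ⊓ normalizer (Q₁ : Set Γ), (∀ v ∈ V, x * v = v * x) → x = 1 := by
    have hD : (G ⊓ normalizer (Q₁ : Set Γ)) ⊓ centralizer (V : Set Γ) = ⊥ := by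
      apply hdisj _ (inf_le_left.trans hMG)
      · refine hGVM.trans (sup_le ?_ ?_)
        · intro v hv
          apply nz_of_comm
          intro d hd
          exact (Subgroup.mem_centralizer_iff.mp hd.2 v hv)
        · intro x hx
          exact nz_inf (Subgroup.le_normalizer hx) (nz_centralizer (hGV (hMG hx)))
      · intro a ha
        exact nz_inf (hAM ha) (nz_centralizer (hAV ha))
      · intro x hx hxV
        exact hVM x hx.1 hxV
    intro x hx hc
    have h5 : x ∈ (G ⊓ normalizer (Q₁ : Set Γ)) ⊓ centralizer (V : Set Γ) :=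
      Subgroup.mem_inf.mpr ⟨hx, Subgroup.mem_centralizer_iff.mpr (fun v hv => (hc v hv).symm)⟩
    rw [hD, Subgroup.mem_bot] at h5
    exact h5
  exact ⟨_, hMG, hAM, hGVM, hVM, hCM⟩

theorem MCF.false (h1 : EndStmt.{u}) (h3 : AStrStmt.{u}) {p ℓ : ℕ} {A F G : Subgroup Γ}
    (h : MCF p ℓ A F G) : False := by
  obtain ⟨V, r, hr, hVG, hV1, hGV, hAV, hVmin, hVc, hVr⟩ := h.exists_V
  obtain ⟨M, hMG, hAM, hGVM, hVM, hCM⟩ := h.exists_M hr hVG hV1 hGV hAV hVmin hVc hVr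
  haveI := Fact.mk hr
  have hMne : M ≠ G := by
    intro hMG'
    apply hV1
    rw [eq_bot_iff]
    intro v hv
    rw [Subgroup.mem_bot]
    exact hVM v (by rw [hMG']; exact hVG hv) hv
  have hMMN : MN M := h.hsub M hMG hMne hAM
  have hMnn : ∀ j, M.lowerCentralSeries j ≠ ⊥ := by
    intro j hj
    apply h.hnot
    refine ⟨j, 1, ?_⟩
    have h1 : G.lowerCentralSeries j ≤ V := by
      calc G.lowerCentralSeries j ≤ (V ⊔ M).lowerCentralSeries j :=
            Subgroup.lowerCentralSeries_mono j hGVM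
        _ ≤ V ⊔ M.lowerCentralSeries j := lcs_sup_le (hMG.trans hGV) j
        _ = V := by rw [hj, sup_bot_eq]
    rw [Subgroup.lowerCentralSeries_succ, Subgroup.lowerCentralSeries_zero]
    apply commutator_eq_bot_of_comm
    intro x hx y hy
    exact hVc x (h1 hx) y (h1 hy)
  obtain ⟨q, s, Q', S, hq, hs, hqs, hQ'M, hSM, hMQ', hAQ', hAS, hQ'q, hSs, hnc⟩ :=
    exists_QS hAM (h.cop hMG) h.solvA hMMN hMnn
  obtain ⟨Q, R, hQQ', hRS, hAQ, hAR, hRQ, hQ1, hQR, hE4⟩ :=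
    exists_QR hq hs hqs hQ'M hSM hMQ' hAQ' hAS hQ'q hSs hnc
  haveI := Fact.mk hq
  haveI := Fact.mk hs
  have hQM : Q ≤ M := hQQ'.trans hQ'M
  have hRM : R ≤ M := hRS.trans hSM
  have hQG : Q ≤ G := hQM.trans hMG
  have hRG : R ≤ G := hRM.trans hMG
  have hQq : IsPGroup q Q := hQ'q.to_le hQQ'
  have hRs : IsPGroup s R := hSs.to_le hRS
  have hQV : Q ≤ normalizer (V : Set Γ) := hQG.trans hGV
  have hRV : R ≤ normalizer (V : Set Γ) := hRG.trans hGV
  have hpne : ∀ (t : ℕ) (T : Subgroup Γ), t.Prime → IsPGroup t T → T ≤ G → T ≠ ⊥ →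
      p ≠ t ∧ ℓ ≠ t := by
    intro t T ht hT hTG hT1
    haveI := Fact.mk ht
    have h1' : t ∣ Nat.card T := by
      rcases hT.card_eq_or_dvd with h2 | h2
      · exact absurd (Subgroup.card_eq_one.mp h2) hT1
      · exact h2
    have h2 : t ∣ Nat.card G := h1'.trans (Subgroup.card_dvd_of_le hTG)
    have h3' : (Nat.card G).Coprime (p * ℓ) := h.hcop
    constructor
    · intro hpt
      subst hpt
      have h4 : Nat.Coprime p p :=
        Nat.Coprime.coprime_dvd_left h2 (Nat.Coprime.coprime_dvd_right (dvd_mul_right p ℓ) h3')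
      exact h.frob.hp.one_lt.ne' ((Nat.coprime_self p).mp h4)
    · intro hpt
      subst hpt
      have h4 : Nat.Coprime ℓ ℓ :=
        Nat.Coprime.coprime_dvd_left h2 (Nat.Coprime.coprime_dvd_right (dvd_mul_left ℓ p) h3')
      exact h.frob.hℓ.one_lt.ne' ((Nat.coprime_self ℓ).mp h4)
  have hR1 : R ≠ ⊥ := by
    intro hb
    apply hQ1
    rw [← hQR, hb]
    exact Subgroup.commutator_bot_right Q
  have hpr' := hpne r V hr hVr hVG hV1
  have hpq' := hpne q Q hq hQq hQG hQ1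
  have hps' := hpne s R hs hRs hRG hR1
  have hQ'1 : Q' ≠ ⊥ := fun hb => hQ1 (le_bot_iff.mp (hb ▸ hQQ'))
  have hqr : q ≠ r := by
    intro hqr
    subst hqr
    have hd : q ∣ Nat.card V := by
      rcases hVr.card_eq_or_dvd with h2 | h2
      · exact absurd (Subgroup.card_eq_one.mp h2) hV1
      · exact h2
    obtain ⟨t, htV, ht1, htfix⟩ := exists_fixed_of_dvd hQ'q ((hQ'M.trans hMG).trans hGV) hd
    have hN1 : V ⊓ centralizer (Q' : Set Γ) ≠ ⊥ := by
      intro hb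
      have h5 : t ∈ V ⊓ centralizer (Q' : Set Γ) :=
        Subgroup.mem_inf.mpr ⟨htV, Subgroup.mem_centralizer_iff.mpr (fun y hy => htfix y hy)⟩
      rw [hb, Subgroup.mem_bot] at h5
      exact ht1 h5
    have hGN : G ≤ normalizer ((V ⊓ centralizer (Q' : Set Γ) : Subgroup Γ) : Set Γ) := by
      refine hGVM.trans (sup_le (abelian_le_nz hVc inf_le_left) ?_)
      intro x hx
      exact nz_inf (hGV (hMG hx)) (nz_centralizer (hMQ' hx))
    have hAN : A ≤ normalizer ((V ⊓ centralizer (Q' : Set Γ) : Subgroup Γ) : Set Γ) :=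
      fun a ha => nz_inf (hAV ha) (nz_centralizer (hAQ' ha))
    have h3 := hVmin _ inf_le_left hN1 hGN hAN
    have h4 : V ≤ centralizer (Q' : Set Γ) := inf_eq_left.mp h3
    apply hQ'1
    rw [eq_bot_iff]
    intro y hy
    rw [Subgroup.mem_bot]
    apply hCM y (hQ'M hy)
    intro v hv
    exact Subgroup.mem_centralizer_iff.mp (h4 hv) y hy
  have hQnc : ¬ (∀ y ∈ Q, ∀ v ∈ V, y * v = v * y) := by
    intro hc
    apply hQ1
    rw [eq_bot_iff]
    intro y hy
    rw [Subgroup.mem_bot]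
    exact hCM y (hQM hy) (hc y hy)
  have hH : V ⊔ Q ⊔ R = G := by
    by_contra hne
    have hle : V ⊔ Q ⊔ R ≤ G := sup_le (sup_le hVG hQG) hRG
    have hAH : A ≤ normalizer ((V ⊔ Q ⊔ R : Subgroup Γ) : Set Γ) :=
      fun a ha => nz_sup (nz_sup (hAV ha) (hAQ ha)) (hAR ha)
    obtain ⟨k, m, hkm⟩ := h.hsub _ hle hne hAH
    exact hQnc (lmn hr hq hqr hkm (le_sup_left.trans le_sup_left) (hle.trans hGV)
      (le_sup_right.trans le_sup_left) le_sup_right hVr hQq hQR)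
  have hGle : G ≤ V ⊔ Q ⊔ R := hH.ge
  have hE2 : ∀ V₁ : Subgroup Γ, V₁ ≤ V → A ≤ normalizer (V₁ : Set Γ) →
      Q ≤ normalizer (V₁ : Set Γ) → R ≤ normalizer (V₁ : Set Γ) → V₁ = ⊥ ∨ V₁ = V := by
    intro V₁ hV₁ hAV₁ hQV₁ hRV₁
    by_cases hb : V₁ = ⊥
    · exact Or.inl hb
    · right
      exact hVmin V₁ hV₁ hb
        (hGle.trans (sup_le (sup_le (abelian_le_nz hVc hV₁) hQV₁) hRV₁)) hAV₁
  have hE2' : ∀ y ∈ Q, (∀ v ∈ V, y * v = v * y) → y = 1 := fun y hy hc => hCM y (hQM hy) hc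
  have hE1 : ∀ v ∈ V, (∀ y ∈ Q, y * v = v * y) → v = 1 := by
    have hN : V ⊓ centralizer (Q : Set Γ) = ⊥ := by
      by_contra hne
      have h3 := hVmin _ inf_le_left hne
        (hGle.trans (sup_le (sup_le (abelian_le_nz hVc inf_le_left)
          (fun x hx => nz_inf (hQV hx) (nz_centralizer (Subgroup.le_normalizer hx))))
          (fun x hx => nz_inf (hRV hx) (nz_centralizer (hRQ hx)))))
        (fun a ha => nz_inf (hAV ha) (nz_centralizer (hAQ ha)))
      have h4 : V ≤ centralizer (Q : Set Γ) := inf_eq_left.mp h3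
      apply hQnc
      intro y hy v hv
      exact Subgroup.mem_centralizer_iff.mp (h4 hv) y hy
    intro v hv hc
    have h5 : v ∈ V ⊓ centralizer (Q : Set Γ) :=
      Subgroup.mem_inf.mpr ⟨hv, Subgroup.mem_centralizer_iff.mpr hc⟩
    rw [hN, Subgroup.mem_bot] at h5
    exact h5
  have hQRt : ∀ x ∈ Q, x ∈ R → x = 1 := by
    intro x hxQ hxR
    exact Subgroup.disjoint_def.mp (IsPGroup.disjoint_of_ne q s hqs Q R hQq hRs) hxQ hxR
  have hE3 : ∀ Q₁ : Subgroup Γ, Q₁ ≤ Q → Q₁ ≠ Q → A ≤ normalizer (Q₁ : Set Γ) →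
      R ≤ normalizer (Q₁ : Set Γ) → ∀ y ∈ Q₁, ∀ x ∈ R, x * y = y * x := by
    intro Q₁ hQ₁ hne hAQ₁ hRQ₁
    have hQ₁M : Q₁ ≤ M := hQ₁.trans hQM
    have hle : V ⊔ Q₁ ⊔ R ≤ G := sup_le (sup_le hVG (hQ₁.trans hQG)) hRG
    have hneG : V ⊔ Q₁ ⊔ R ≠ G := by
      intro heq
      apply hne
      apply le_antisymm hQ₁
      intro y hy
      have hy' : y ∈ V ⊔ (Q₁ ⊔ R) := by rw [← sup_assoc, heq]; exact hQG hy
      have hQ₁RV : Q₁ ⊔ R ≤ normalizer (V : Set Γ) := sup_le ((hQ₁.trans hQG).trans hGV) hRV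
      obtain ⟨v, hv, z, hz, e⟩ := exists_mul_of_mem_sup hQ₁RV hy'
      have hzM : z ∈ M := (sup_le hQ₁M hRM) hz
      have hv1 : v = 1 := by
        apply hVM v _ hv
        have e3 : v = y * z⁻¹ := by rw [e]; group
        rw [e3]; exact M.mul_mem (hQM hy) (M.inv_mem hzM)
      rw [hv1, one_mul] at e
      obtain ⟨y₁, hy₁, x, hx, e'⟩ := exists_mul_of_mem_sup hRQ₁ hz
      have hx1 : x = 1 := by
        apply hQRt x _ hx
        have e3 : x = y₁⁻¹ * y := by rw [e, e']; group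
        rw [e3]; exact Q.mul_mem (Q.inv_mem (hQ₁ hy₁)) hy
      rw [e, e', hx1, mul_one]; exact hy₁
    have hAH : A ≤ normalizer ((V ⊔ Q₁ ⊔ R : Subgroup Γ) : Set Γ) :=
      fun a ha => nz_sup (nz_sup (hAV ha) (hAQ₁ ha)) (hAR ha)
    obtain ⟨k, m, hkm⟩ := h.hsub _ hle hneG hAH
    have hQ₁q : IsPGroup q Q₁ := hQq.to_le hQ₁
    have hnd : ¬ s ∣ Nat.card Q₁ := by
      obtain ⟨n, hn⟩ := IsPGroup.iff_card.mp hQ₁q
      rw [hn]
      intro hd
      exact hqs ((Nat.prime_dvd_prime_iff_eq hs hq).mp (hs.dvd_of_dvd_pow hd)).symm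
    have h1 := Cfsg.Agent.Lib.Helper55.coprime_le_commutator_sup_centralizer hnd hRs hRQ₁
    have h2 := Cfsg.Agent.Lib.Helper55.commutator_eq_commutator_commutator hRQ₁ h1
    have hXle : ⁅Q₁, R⁆ ≤ Q₁ := Cfsg.Agent.Lib.Helper55.commutator_le_of_le_normalizer hRQ₁
    have h3 := lmn hr hq hqr hkm (le_sup_left.trans le_sup_left) (hle.trans hGV)
      (hXle.trans (le_sup_right.trans le_sup_left)) le_sup_right hVr (hQ₁q.to_le hXle) h2.symm
    have h4 : ⁅Q₁, R⁆ = ⊥ := by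
      rw [eq_bot_iff]
      intro y hy
      rw [Subgroup.mem_bot]
      exact hCM y (hQ₁M (hXle hy)) (h3 y hy)
    intro y hy x hx
    exact (comm_of_commutator_eq_bot h4 y hy x hx).symm
  obtain ⟨⟨t, htA, htF⟩, hord, hgen, -⟩ := h3 Γ p ℓ A F h.frob
  have hmemC : ∀ x, x ∈ G ⊓ centralizer (F : Set Γ) ↔ x ∈ G ∧ ∀ a ∈ F, a * x = x * a :=
    fun x => by
      rw [Subgroup.mem_inf, Subgroup.mem_centralizer_iff]; rfl
  have hc1 : ∀ x ∈ G ⊓ centralizer (F : Set Γ), t * x * t⁻¹ ∈ G ⊓ centralizer (F : Set Γ) := by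
    intro x hx
    rw [hmemC] at hx ⊢
    refine ⟨conj_mem_of_nz (h.hAG htA) hx.1, ?_⟩
    intro a ha
    have h5 := hx.2 (t⁻¹ * a * t) (conj_mem_of_nz' (h.frob.hAF htA) ha)
    calc a * (t * x * t⁻¹) = t * ((t⁻¹ * a * t) * x) * t⁻¹ := by group
      _ = t * (x * (t⁻¹ * a * t)) * t⁻¹ := by rw [h5]
      _ = t * x * t⁻¹ * a := by group
  have hc2 : ∀ x ∈ G ⊓ centralizer (F : Set Γ), t⁻¹ * x * t ∈ G ⊓ centralizer (F : Set Γ) := by
    intro x hx
    rw [hmemC] at hx ⊢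
    refine ⟨conj_mem_of_nz' (h.hAG htA) hx.1, ?_⟩
    intro a ha
    have h5 := hx.2 (t * a * t⁻¹) (conj_mem_of_nz (h.frob.hAF htA) ha)
    calc a * (t⁻¹ * x * t) = t⁻¹ * ((t * a * t⁻¹) * x) * t := by group
      _ = t⁻¹ * (x * (t * a * t⁻¹)) * t := by rw [h5]
      _ = t⁻¹ * x * t * a := by group
  have hfpf : ∀ x ∈ G ⊓ centralizer (F : Set Γ), t * x = x * t → x = 1 := by
    intro x hx hcomm
    rw [hmemC] at hx
    apply h.hfix x hx.1
    intro a ha
    obtain ⟨f, hf, i, rfl⟩ := hgen t htA htF a ha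
    have e1 : Commute f x := hx.2 f hf
    have e2 : Commute t x := hcomm
    exact (e1.mul_left (e2.pow_left i)).eq
  have htℓ : t ^ ℓ = 1 := by rw [← hord t htA htF]; exact pow_orderOf_eq_one t
  haveI hnilC : Group.IsNilpotent ↥(G ⊓ centralizer (F : Set Γ)) :=
    Cfsg.Agent.Lib.Helper26.nilpotent_of_conj_fpf _ t ℓ h.frob.hℓ htℓ hc1 hc2 hfpf
  have hnilF : ∀ u ∈ G, ∀ w ∈ G, (∀ a ∈ F, a * u = u * a) → (∀ a ∈ F, a * w = w * a) →
      (orderOf u).Coprime (orderOf w) → u * w = w * u := by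
    intro u hu w hw hau haw hcop
    have h6 := Cfsg.Agent.Lib.Helper4.commute_of_coprime_of_isNilpotent
      ↥(G ⊓ centralizer (F : Set Γ)) ⟨u, (hmemC u).mpr ⟨hu, hau⟩⟩ ⟨w, (hmemC w).mpr ⟨hw, haw⟩⟩
      (by rw [Subgroup.orderOf_mk, Subgroup.orderOf_mk]; exact hcop)
    exact congrArg Subtype.val h6
  exact h1 Γ p ℓ r q s A F V Q R
    { frob := h.frob, hr := hr, hq := hq, hs := hs, hAV := hAV, hAQ := hAQ, hAR := hAR,
      hQV := hQV, hRV := hRV, hRQ := hRQ, hVc := hVc, hVr := hVr, hQq := hQq, hRs := hRs,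
      hqr := hqr, hqs := hqs, hpr := hpr'.1, hpq := hpq'.1, hps := hps'.1, hℓr := hpr'.2,
      hℓq := hpq'.2, hℓs := hps'.2, hV1 := hV1, hQ1 := hQ1, hE1 := hE1, hE2 := hE2,
      hE2' := hE2', hE3 := hE3, hE4 := hE4, hE5 := hQR,
      hfixV := fun v hv hc => h.hfix v (hVG hv) hc,
      hfixQ := fun y hy hc => h.hfix y (hQG hy) hc,
      hfixR := fun x hx hc => h.hfix x (hRG hx) hc,
      hnVQ := fun v hv y hy hav hay => hnilF v (hVG hv) y (hQG hy) hav hay
        (orderOf_coprime_of_pgroups hr hq (Ne.symm hqr) hVr hQq hv hy),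
      hnQR := fun y hy x hx hay hax => hnilF x (hRG hx) y (hQG hy) hax hay
        (orderOf_coprime_of_pgroups hs hq (Ne.symm hqs) hRs hQq hx hy) }

end Final

theorem disj_of_coprime {Γ : Type u} [Group Γ] [Finite Γ] {A N : Subgroup Γ}
    (h : (Nat.card A).Coprime (Nat.card N)) : ∀ x ∈ A, x ∈ N → x = 1 := by
  intro x hxA hxN
  have h1 : orderOf x ∣ Nat.card A := Subgroup.orderOf_dvd_natCard A hxA
  have h2 : orderOf x ∣ Nat.card N := Subgroup.orderOf_dvd_natCard N hxN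
  have h3 : orderOf x = 1 := Nat.eq_one_of_dvd_coprimes h h1 h2
  exact orderOf_eq_one_iff.mp h3

/-- The reduction, internal form, by induction on `|G|`. -/
theorem red_internal (h1 : EndStmt.{u}) (h2 : AFixStmt.{u}) (h3 : AStrStmt.{u}) :
    ∀ (n : ℕ) (Γ : Type u) [Group Γ] [Finite Γ] (p ℓ : ℕ) (A F G : Subgroup Γ), Nat.card G = n →
      Frob p ℓ A F → Group.IsSolvable G → A ≤ normalizer (G : Set Γ) →
      (Nat.card G).Coprime (p * ℓ) →
      (∀ g ∈ G, (∀ a ∈ A, a * g = g * a) → g = 1) → MN G := by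
  intro n
  induction n using Nat.strong_induction_on with
  | _ n ih =>
    intro Γ _ _ p ℓ A F G hn frob hsolv hAG hcop hfix
    by_contra hnot
    have hsub : ∀ H : Subgroup Γ, H ≤ G → H ≠ G → A ≤ normalizer (H : Set Γ) → MN H := by
      intro H hHG hne hAH
      have hlt : Nat.card H < n := by
        rw [← hn]
        by_contra hge
        exact hne (Subgroup.eq_of_le_of_card_ge hHG (not_lt.mp hge))
      exact ih (Nat.card H) hlt Γ p ℓ A F H rfl frob
        (Cfsg.Agent.Lib.Helper1.isSolvable_of_le' hHG hsolv) hAH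
        (Nat.Coprime.coprime_dvd_left (Subgroup.card_dvd_of_le hHG) hcop)
        (fun g hg hc => hfix g (hHG hg) hc)
    have hquot : ∀ N : Subgroup Γ, N ≤ G → N ≠ ⊥ → G ≤ normalizer (N : Set Γ) →
        A ≤ normalizer (N : Set Γ) →
        ∃ k m : ℕ, (G.lowerCentralSeries k).lowerCentralSeries m ≤ N := by
      intro N hNG hN1 hGN hAN
      have hlt : Nat.card (qmap N G) < n := by rw [← hn]; exact card_qmap_lt hNG hGN hN1
      have hNcop : (Nat.card N).Coprime (p * ℓ) :=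
        Nat.Coprime.coprime_dvd_left (Subgroup.card_dvd_of_le hNG) hcop
      have hAN1 : ∀ x ∈ A, x ∈ N → x = 1 := by
        apply disj_of_coprime
        rw [frob.hA]
        exact hNcop.symm
      have hFN1 : ∀ x ∈ F, x ∈ N → x = 1 := fun x hxF hxN => hAN1 x (frob.hFA hxF) hxN
      have hfrob' : Frob p ℓ (qmap N A) (qmap N F) :=
        { hp := frob.hp
          hℓ := frob.hℓ
          hpℓ := frob.hpℓ
          hA := (card_qmap_eq hAN hAN1).trans frob.hA
          hFA := by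
            intro y hy
            obtain ⟨x, hx, hxF, rfl⟩ := exists_of_mem_qmap hy
            exact qm_mem_qmap hx (frob.hFA hxF)
          hF := (card_qmap_eq (frob.hFA.trans hAN) hFN1).trans frob.hF
          hAF := qmap_le_normalizer frob.hAF
          hfrob := by
            intro a' ha' hna' x' hx' hcomm
            obtain ⟨a, haN, haA, rfl⟩ := exists_of_mem_qmap ha'
            obtain ⟨x, hxN, hxF, rfl⟩ := exists_of_mem_qmap hx'
            have haF : a ∉ F := fun haF => hna' (qm_mem_qmap haN haF)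
            have e1 : qm N (⟨a, haN⟩ * ⟨x, hxN⟩ * (⟨a, haN⟩ : ↥(normalizer (N : Set Γ)))⁻¹ *
                (⟨x, hxN⟩ : ↥(normalizer (N : Set Γ)))⁻¹) = 1 := by
              rw [map_mul, map_mul, map_mul, map_inv, map_inv, hcomm]; group
            have e2 : a * x * a⁻¹ * x⁻¹ ∈ N := (qm_eq_one_iff N _).mp e1
            have e3 : a * x * a⁻¹ * x⁻¹ ∈ F :=
              F.mul_mem (conj_mem_of_nz (frob.hAF haA) hxF) (F.inv_mem hxF)
            have e4 := hFN1 _ e3 e2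
            have e5 : a * x = x * a := by
              calc a * x = (a * x * a⁻¹ * x⁻¹) * (x * a) := by group
                _ = x * a := by rw [e4, one_mul]
            have e6 := frob.hfrob a haA haF x hxF e5
            subst e6
            exact (qm_eq_one_iff N _).mpr N.one_mem }
      have hcop' : (Nat.card (qmap N G)).Coprime (p * ℓ) := by
        apply Nat.Coprime.coprime_dvd_left _ hcop
        have e1 : Nat.card (qmap N G) ∣ Nat.card (G.subgroupOf (normalizer (N : Set Γ))) :=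
          Subgroup.card_map_dvd _ (qm N)
        rw [Cfsg.Agent.Lib.Helper1.card_subgroupOf_of_le hGN] at e1
        exact e1
      have hfix' : ∀ g ∈ qmap N G, (∀ x ∈ qmap N A, x * g = g * x) → g = 1 := by
        intro g' hg' hc
        obtain ⟨g, hgN, hgG, rfl⟩ := exists_of_mem_qmap hg'
        have hg : ∀ a ∈ A, a * g * a⁻¹ * g⁻¹ ∈ N := by
          intro a ha
          have haN : a ∈ normalizer (N : Set Γ) := hAN ha
          have e1 := hc (qm N ⟨a, haN⟩) (qm_mem_qmap haN ha)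
          have e2 : qm N (⟨a, haN⟩ * ⟨g, hgN⟩ * (⟨a, haN⟩ : ↥(normalizer (N : Set Γ)))⁻¹ *
              (⟨g, hgN⟩ : ↥(normalizer (N : Set Γ)))⁻¹) = 1 := by
            rw [map_mul, map_mul, map_mul, map_inv, map_inv, e1]; group
          exact (qm_eq_one_iff N _).mp e2
        obtain ⟨n', hn', hfixn⟩ := h2 Γ p ℓ A F N frob hAN hNcop g hgN hg
        have e3 : g * n' = 1 := hfix (g * n') (G.mul_mem hgG (hNG hn')) hfixn
        have e4 : g ∈ N := by
          have e : g = n'⁻¹ := eq_inv_of_mul_eq_one_left e3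
          rw [e]; exact N.inv_mem hn'
        exact (qm_eq_one_iff N _).mpr e4
      obtain ⟨k, m, hkm⟩ := ih (Nat.card (qmap N G)) hlt (QG N) p ℓ (qmap N A) (qmap N F)
        (qmap N G) rfl hfrob' (qmap_solvable hsolv) (qmap_le_normalizer hAG) hcop' hfix'
      exact ⟨k, m, lcs_le_of_quot hGN hkm⟩
    have hmc : MCF p ℓ A F G :=
      { frob := frob, hAG := hAG, hfix := hfix, hcop := hcop,
        hsub := hsub, hquot := hquot, hnot := hnot, hsolv := hsolv }
    exact hmc.false h1 h3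

/-- PQ-RED. -/
theorem red (h1 : EndStmt.{u}) (h2 : AFixStmt.{u}) (h3 : AStrStmt.{u}) : RedStmt.{u} := by
  intro Γ _ _ p ℓ A F G frob hsolv hAG hcop hfix
  exact red_internal h1 h2 h3 (Nat.card G) Γ p ℓ A F G rfl frob hsolv hAG hcop hfix

end Cfsg.Agent.Lib.Helper65.PQ
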