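import Mathlib
import Cfsg.Prelude.Def_GeometricClasses

/-!
# Project SLC/FR5 (helper65), piece D2q3: inside `SL_4(3)` the stabiliser of a decomposition into
two planes preserves, up to scalars, a symplectic form (the sum of the determinant forms of the
two planes)
-/

set_option autoImplicit false

namespace Cfsg.Agent.Lib.Helper65.FR5

open Matrix Cfsg.Geo

variable {F : Type*} [Field F]

/-- the determinant of a `4 × 4` matrix, expanded along the first row -/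
theorem d2q3_det4 (N : Matrix (Fin 4) (Fin 4) F) :
    N.det =
      N 0 0 * (N 1 1 * (N 2 2 * N 3 3 - N 2 3 * N 3 2) - N 1 2 * (N 2 1 * N 3 3 - N 2 3 * N 3 1)
        + N 1 3 * (N 2 1 * N 3 2 - N 2 2 * N 3 1))
      - N 0 1 * (N 1 0 * (N 2 2 * N 3 3 - N 2 3 * N 3 2) - N 1 2 * (N 2 0 * N 3 3 - N 2 3 * N 3 0)
        + N 1 3 * (N 2 0 * N 3 2 - N 2 2 * N 3 0))
      + N 0 2 * (N 1 0 * (N 2 1 * N 3 3 - N 2 3 * N 3 1) - N 1 1 * (N 2 0 * N 3 3 - N 2 3 * N 3 0)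
        + N 1 3 * (N 2 0 * N 3 1 - N 2 1 * N 3 0))
      - N 0 3 * (N 1 0 * (N 2 1 * N 3 2 - N 2 2 * N 3 1) - N 1 1 * (N 2 0 * N 3 2 - N 2 2 * N 3 0)
        + N 1 2 * (N 2 0 * N 3 1 - N 2 1 * N 3 0)) := by
  rw [Matrix.det_succ_row_zero]
  simp [Fin.sum_univ_succ, Matrix.det_fin_three, Fin.succAbove]
  ring

/-- the index equivalence `⟨i, a⟩ ↦ 2 i + a` -/
def d2q3_e4 : (Σ _ : Fin 2, Fin 2) ≃ Fin 4 :=
  (Equiv.sigmaEquivProd (Fin 2) (Fin 2)).trans finProdFinEquiv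

section frm

variable (B : Module.Basis (Fin 4) F (Fin 4 → F))

/-- the sum of the determinant forms of the coordinate planes `⟨B 0, B 1⟩` and `⟨B 2, B 3⟩` -/
noncomputable def d2q3_frm (x y : Fin 4 → F) : F :=
  (B.repr x 0 * B.repr y 1 - B.repr x 1 * B.repr y 0) +
    (B.repr x 2 * B.repr y 3 - B.repr x 3 * B.repr y 2)

theorem d2q3_frm_bilinear : IsBilinearForm (d2q3_frm B) := by
  refine ⟨?_, ?_, ?_, ?_⟩
  · intro x y v
    unfold d2q3_frm
    simp only [map_add, Finsupp.add_apply]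
    ring
  · intro c x v
    unfold d2q3_frm
    simp only [map_smul, Finsupp.smul_apply, smul_eq_mul]
    ring
  · intro v x y
    unfold d2q3_frm
    simp only [map_add, Finsupp.add_apply]
    ring
  · intro c v x
    unfold d2q3_frm
    simp only [map_smul, Finsupp.smul_apply, smul_eq_mul]
    ring

theorem d2q3_frm_skew (x y : Fin 4 → F) : d2q3_frm B x y = - d2q3_frm B y x := by
  unfold d2q3_frm
  ring

theorem d2q3_frm_self (x : Fin 4 → F) : d2q3_frm B x x = 0 := by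
  unfold d2q3_frm
  ring

theorem d2q3_frm_b0 (v : Fin 4 → F) : d2q3_frm B (B 0) v = B.repr v 1 := by
  unfold d2q3_frm
  rw [B.repr_self]
  simp

theorem d2q3_frm_b1 (v : Fin 4 → F) : d2q3_frm B (B 1) v = - B.repr v 0 := by
  unfold d2q3_frm
  rw [B.repr_self]
  simp

theorem d2q3_frm_b2 (v : Fin 4 → F) : d2q3_frm B (B 2) v = B.repr v 3 := by
  unfold d2q3_frm
  rw [B.repr_self]
  simp

theorem d2q3_frm_b3 (v : Fin 4 → F) : d2q3_frm B (B 3) v = - B.repr v 2 := by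
  unfold d2q3_frm
  rw [B.repr_self]
  simp

theorem d2q3_frm_nondegenerate : IsNondegenerateForm (d2q3_frm B) := by
  intro v hv
  have hex : ∃ k, B.repr v k ≠ 0 := by
    by_contra hcon
    push Not at hcon
    apply hv
    apply B.repr.injective
    rw [map_zero]
    exact Finsupp.ext hcon
  obtain ⟨k, hk⟩ := hex
  have key : ∃ x, d2q3_frm B x v ≠ 0 := by
    fin_cases k
    · exact ⟨B 1, by rw [d2q3_frm_b1]; exact neg_ne_zero.2 hk⟩
    · exact ⟨B 0, by rw [d2q3_frm_b0]; exact hk⟩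
    · exact ⟨B 3, by rw [d2q3_frm_b3]; exact neg_ne_zero.2 hk⟩
    · exact ⟨B 2, by rw [d2q3_frm_b2]; exact hk⟩
  obtain ⟨x, hx⟩ := key
  exact ⟨⟨x, hx⟩, ⟨x, by rw [d2q3_frm_skew]; exact neg_ne_zero.2 hx⟩⟩

end frm

/-- D2q3 -/
theorem D2q3 [Fintype F] (hq : Fintype.card F = 3) (D : Fin 2 → Submodule F (Fin 4 → F))
    (hD : IsMDecomposition 2 D) :
    ∃ f : (Fin 4 → F) → (Fin 4 → F) → F, IsSymplecticForm f ∧
      decompositionStabilizer D ⊓ specialLinear (Fin 4) F ≤ similarityGroup f := by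
  classical
  have h := DirectSum.isInternal_submodule_of_iSupIndep_of_iSup_eq_top hD.indep hD.iSup_eq_top
  obtain ⟨B0, hB0⟩ : ∃ B0 : Module.Basis (Σ _ : Fin 2, Fin 2) F (Fin 4 → F),
      B0 = h.collectedBasis (fun i => Module.finBasisOfFinrankEq F (D i) (hD.finrank_eq i)) :=
    ⟨_, rfl⟩
  have hP1 : ∀ p : Σ _ : Fin 2, Fin 2, B0 p ∈ D p.1 := by
    intro p
    rw [hB0]
    exact h.collectedBasis_mem _ p
  have hP2 : ∀ (k : Fin 2) (x : Fin 4 → F), x ∈ D k → ∀ i, i ≠ k → ∀ a : Fin 2,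
      B0.repr x ⟨i, a⟩ = 0 := by
    intro k x hx i hik a
    rw [hB0]
    exact h.collectedBasis_repr_of_mem_ne _ (Ne.symm hik) hx
  obtain ⟨B, hB⟩ : ∃ B : Module.Basis (Fin 4) F (Fin 4 → F), B = B0.reindex d2q3_e4 := ⟨_, rfl⟩
  have e0 : d2q3_e4.symm 0 = ⟨0, 0⟩ := by decide
  have e1 : d2q3_e4.symm 1 = ⟨0, 1⟩ := by decide
  have e2 : d2q3_e4.symm 2 = ⟨1, 0⟩ := by decide
  have e3 : d2q3_e4.symm 3 = ⟨1, 1⟩ := by decide
  have hb0 : B 0 ∈ D 0 := by
    have h1 := hP1 (d2q3_e4.symm 0)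
    rw [hB, Module.Basis.reindex_apply]
    rw [e0] at h1 ⊢
    exact h1
  have hb1 : B 1 ∈ D 0 := by
    have h1 := hP1 (d2q3_e4.symm 1)
    rw [hB, Module.Basis.reindex_apply]
    rw [e1] at h1 ⊢
    exact h1
  have hb2 : B 2 ∈ D 1 := by
    have h1 := hP1 (d2q3_e4.symm 2)
    rw [hB, Module.Basis.reindex_apply]
    rw [e2] at h1 ⊢
    exact h1
  have hb3 : B 3 ∈ D 1 := by
    have h1 := hP1 (d2q3_e4.symm 3)
    rw [hB, Module.Basis.reindex_apply]
    rw [e3] at h1 ⊢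
    exact h1
  have hr : ∀ (x : Fin 4 → F) (k : Fin 4), B.repr x k = B0.repr x (d2q3_e4.symm k) := by
    intro x k
    rw [hB, Module.Basis.repr_reindex_apply]
  have hz0 : ∀ x ∈ D 0, B.repr x 2 = 0 ∧ B.repr x 3 = 0 := by
    intro x hx
    constructor
    · rw [hr, e2]; exact hP2 0 x hx 1 (by decide) 0
    · rw [hr, e3]; exact hP2 0 x hx 1 (by decide) 1
  have hz1 : ∀ x ∈ D 1, B.repr x 0 = 0 ∧ B.repr x 1 = 0 := by
    intro x hx
    constructor
    · rw [hr, e0]; exact hP2 1 x hx 0 (by decide) 0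
    · rw [hr, e1]; exact hP2 1 x hx 0 (by decide) 1
  refine ⟨d2q3_frm B, ⟨d2q3_frm_bilinear B, d2q3_frm_skew B, d2q3_frm_self B,
    d2q3_frm_nondegenerate B⟩, ?_⟩
  rintro g ⟨⟨σ, hσ⟩, hdet⟩
  have hdet1 : (g : Matrix (Fin 4) (Fin 4) F).det = 1 := by
    have h1 : Matrix.GeneralLinearGroup.det g = 1 := hdet
    have h2 := congrArg Units.val h1
    simpa using h2
  have hTmem : ∀ i, ∀ x ∈ D i, (g : Matrix (Fin 4) (Fin 4) F) *ᵥ x ∈ D (σ i) := by
    intro i x hx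
    rw [← hσ i]
    exact ⟨x, hx, Matrix.toLin'_apply _ _⟩
  obtain ⟨N, hN⟩ : ∃ N : Matrix (Fin 4) (Fin 4) F,
      N = LinearMap.toMatrix B B (Matrix.toLin' (g : Matrix (Fin 4) (Fin 4) F)) := ⟨_, rfl⟩
  have hNdet : N.det = 1 := by
    rw [hN, LinearMap.det_toMatrix, LinearMap.det_toLin', hdet1]
  have hNapp : ∀ i j, N i j = B.repr ((g : Matrix (Fin 4) (Fin 4) F) *ᵥ B j) i := by
    intro i j
    rw [hN, LinearMap.toMatrix_apply, Matrix.toLin'_apply]
  have hcoord : ∀ (u : Fin 4 → F) (i : Fin 4),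
      B.repr ((g : Matrix (Fin 4) (Fin 4) F) *ᵥ u) i = ∑ j, N i j * B.repr u j := by
    intro u i
    have h1 := congrFun (LinearMap.toMatrix_mulVec_repr B B
      (Matrix.toLin' (g : Matrix (Fin 4) (Fin 4) F)) u) i
    rw [Matrix.toLin'_apply, ← hN] at h1
    rw [← h1]
    rfl
  have hfrm : ∀ u v : Fin 4 → F,
      d2q3_frm B ((g : Matrix (Fin 4) (Fin 4) F) *ᵥ u) ((g : Matrix (Fin 4) (Fin 4) F) *ᵥ v) =
      ((∑ j, N 0 j * B.repr u j) * (∑ j, N 1 j * B.repr v j) -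
        (∑ j, N 1 j * B.repr u j) * (∑ j, N 0 j * B.repr v j)) +
      ((∑ j, N 2 j * B.repr u j) * (∑ j, N 3 j * B.repr v j) -
        (∑ j, N 3 j * B.repr u j) * (∑ j, N 2 j * B.repr v j)) := by
    intro u v
    unfold d2q3_frm
    rw [hcoord u 0, hcoord u 1, hcoord u 2, hcoord u 3, hcoord v 0, hcoord v 1, hcoord v 2,
      hcoord v 3]
  have key : ∃ δ₀ δ₁ : F, δ₀ * δ₁ = 1 ∧ ∀ u v : Fin 4 → F,
      d2q3_frm B ((g : Matrix (Fin 4) (Fin 4) F) *ᵥ u) ((g : Matrix (Fin 4) (Fin 4) F) *ᵥ v) =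
        δ₀ * (B.repr u 0 * B.repr v 1 - B.repr u 1 * B.repr v 0) +
          δ₁ * (B.repr u 2 * B.repr v 3 - B.repr u 3 * B.repr v 2) := by
    have hσ0 : σ 0 = 0 ∨ σ 0 = 1 := by
      generalize σ 0 = a
      fin_cases a <;> simp
    have hσ1 : σ 1 = 0 ∨ σ 1 = 1 := by
      generalize σ 1 = a
      fin_cases a <;> simp
    have hne : σ 0 ≠ σ 1 := fun hh => absurd (σ.injective hh) (by decide)
    rcases hσ0 with h0 | h0
    · have h1 : σ 1 = 1 := by
        rcases hσ1 with h1 | h1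
        · exact absurd (h0.trans h1.symm) hne
        · exact h1
      have m0 : (g : Matrix (Fin 4) (Fin 4) F) *ᵥ B 0 ∈ D 0 := by
        have := hTmem 0 _ hb0; rwa [h0] at this
      have m1 : (g : Matrix (Fin 4) (Fin 4) F) *ᵥ B 1 ∈ D 0 := by
        have := hTmem 0 _ hb1; rwa [h0] at this
      have m2 : (g : Matrix (Fin 4) (Fin 4) F) *ᵥ B 2 ∈ D 1 := by
        have := hTmem 1 _ hb2; rwa [h1] at this
      have m3 : (g : Matrix (Fin 4) (Fin 4) F) *ᵥ B 3 ∈ D 1 := by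
        have := hTmem 1 _ hb3; rwa [h1] at this
      have z20 : N 2 0 = 0 := by rw [hNapp]; exact (hz0 _ m0).1
      have z30 : N 3 0 = 0 := by rw [hNapp]; exact (hz0 _ m0).2
      have z21 : N 2 1 = 0 := by rw [hNapp]; exact (hz0 _ m1).1
      have z31 : N 3 1 = 0 := by rw [hNapp]; exact (hz0 _ m1).2
      have z02 : N 0 2 = 0 := by rw [hNapp]; exact (hz1 _ m2).1
      have z12 : N 1 2 = 0 := by rw [hNapp]; exact (hz1 _ m2).2
      have z03 : N 0 3 = 0 := by rw [hNapp]; exact (hz1 _ m3).1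
      have z13 : N 1 3 = 0 := by rw [hNapp]; exact (hz1 _ m3).2
      refine ⟨N 0 0 * N 1 1 - N 1 0 * N 0 1, N 2 2 * N 3 3 - N 3 2 * N 2 3, ?_, ?_⟩
      · rw [← hNdet, d2q3_det4 N]
        simp only [z20, z30, z21, z31, z02, z12, z03, z13]
        ring
      · intro u v
        rw [hfrm]
        simp only [Fin.sum_univ_four, z20, z30, z21, z31, z02, z12, z03, z13]
        ring
    · have h1 : σ 1 = 0 := by
        rcases hσ1 with h1 | h1
        · exact h1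
        · exact absurd (h0.trans h1.symm) hne
      have m0 : (g : Matrix (Fin 4) (Fin 4) F) *ᵥ B 0 ∈ D 1 := by
        have := hTmem 0 _ hb0; rwa [h0] at this
      have m1 : (g : Matrix (Fin 4) (Fin 4) F) *ᵥ B 1 ∈ D 1 := by
        have := hTmem 0 _ hb1; rwa [h0] at this
      have m2 : (g : Matrix (Fin 4) (Fin 4) F) *ᵥ B 2 ∈ D 0 := by
        have := hTmem 1 _ hb2; rwa [h1] at this
      have m3 : (g : Matrix (Fin 4) (Fin 4) F) *ᵥ B 3 ∈ D 0 := by
        have := hTmem 1 _ hb3; rwa [h1] at this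
      have z00 : N 0 0 = 0 := by rw [hNapp]; exact (hz1 _ m0).1
      have z10 : N 1 0 = 0 := by rw [hNapp]; exact (hz1 _ m0).2
      have z01 : N 0 1 = 0 := by rw [hNapp]; exact (hz1 _ m1).1
      have z11 : N 1 1 = 0 := by rw [hNapp]; exact (hz1 _ m1).2
      have z22 : N 2 2 = 0 := by rw [hNapp]; exact (hz0 _ m2).1
      have z32 : N 3 2 = 0 := by rw [hNapp]; exact (hz0 _ m2).2
      have z23 : N 2 3 = 0 := by rw [hNapp]; exact (hz0 _ m3).1
      have z33 : N 3 3 = 0 := by rw [hNapp]; exact (hz0 _ m3).2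
      refine ⟨N 2 0 * N 3 1 - N 2 1 * N 3 0, N 0 2 * N 1 3 - N 0 3 * N 1 2, ?_, ?_⟩
      · rw [← hNdet, d2q3_det4 N]
        simp only [z00, z10, z01, z11, z22, z32, z23, z33]
        ring
      · intro u v
        rw [hfrm]
        simp only [Fin.sum_univ_four, z00, z10, z01, z11, z22, z32, z23, z33]
        ring
  obtain ⟨δ₀, δ₁, hδ, hform⟩ := key
  have hδ0 : δ₀ ≠ 0 := by
    rintro rfl
    rw [zero_mul] at hδ
    exact zero_ne_one hδ
  have hsq : δ₀ ^ 2 = 1 := by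
    have h1 := FiniteField.pow_card_sub_one_eq_one δ₀ hδ0
    rw [hq] at h1
    exact h1
  have heq : δ₀ = δ₁ := by
    linear_combination (-δ₀) * hδ + δ₁ * hsq
  refine ⟨Units.mk0 δ₀ hδ0, fun u v => ?_⟩
  rw [hform u v, ← heq, Units.val_mk0]
  unfold d2q3_frm
  ring

end Cfsg.Agent.Lib.Helper65.FR5
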