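import Mathlib
import Cfsg.Prelude.Def_GeometricClasses
import Cfsg.Prelude.Def_LieClassical
import Cfsg.Agent.Lib.Helper71.Asch0

/-! Project SP12 (helper65; S5868): piece `T2Sa1` (filled in place by helper89, job 3719). -/

set_option autoImplicit false

namespace Cfsg.Agent.Lib.Helper65.SP12

open Matrix Cfsg.Geo Cfsg.Agent.Lib.Helper71.Asch
open scoped Kronecker

variable {n : ℕ} {F : Type*} [Field F] [Fintype F]

omit [Fintype F] in
theorem T2Sa1_mulVec (M : Matrix (Fin 2) (Fin 2) F) (v : Fin 2 → F) (i : Fin 2) :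
    (M *ᵥ v) i = M i 0 * v 0 + M i 1 * v 1 := by
  simp [Matrix.mulVec, dotProduct, Fin.sum_univ_two]

omit [Fintype F] in
theorem T2Sa1_expand (f₂ : (Fin 2 → F) → (Fin 2 → F) → F) (hb : IsBilinearForm f₂)
    (u v : Fin 2 → F) :
    f₂ u v = f₂ (Pi.single 0 1) (Pi.single 0 1) * u 0 * v 0
      + f₂ (Pi.single 0 1) (Pi.single 1 1) * u 0 * v 1
      + f₂ (Pi.single 1 1) (Pi.single 0 1) * u 1 * v 0
      + f₂ (Pi.single 1 1) (Pi.single 1 1) * u 1 * v 1 := by
  have hu : u = u 0 • (Pi.single 0 1 : Fin 2 → F) + u 1 • (Pi.single 1 1 : Fin 2 → F) := by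
    funext i
    fin_cases i <;> simp
  have hv : v = v 0 • (Pi.single 0 1 : Fin 2 → F) + v 1 • (Pi.single 1 1 : Fin 2 → F) := by
    funext i
    fin_cases i <;> simp
  have key : f₂ (u 0 • (Pi.single 0 1 : Fin 2 → F) + u 1 • (Pi.single 1 1 : Fin 2 → F))
      (v 0 • (Pi.single 0 1 : Fin 2 → F) + v 1 • (Pi.single 1 1 : Fin 2 → F)) =
      u 0 * (v 0 * f₂ (Pi.single 0 1) (Pi.single 0 1) + v 1 * f₂ (Pi.single 0 1) (Pi.single 1 1))
        + u 1 * (v 0 * f₂ (Pi.single 1 1) (Pi.single 0 1)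
          + v 1 * f₂ (Pi.single 1 1) (Pi.single 1 1)) := by
    rw [hb.add_left, hb.smul_left, hb.smul_left, hb.add_right, hb.add_right, hb.smul_right,
      hb.smul_right, hb.smul_right, hb.smul_right]
  rw [← hu, ← hv] at key
  rw [key]
  ring

/-- T2Sa1 -/
theorem T2Sa1 (h2 : (2 : F) ≠ 0) (f₂ : (Fin 2 → F) → (Fin 2 → F) → F) (hs : IsSymmetricForm f₂)
    (hani : ∀ u, f₂ u u = 0 → u = 0) :
    ∃ (θ : Matrix (Fin 2) (Fin 2) F) (δ : F), θ * θ = δ • (1 : Matrix (Fin 2) (Fin 2) F) ∧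
      ¬ IsSquare δ ∧ (∀ u v, f₂ (θ *ᵥ u) v = - f₂ u (θ *ᵥ v)) ∧
      ∀ (b : GL (Fin 2) F) (lam : F), (∀ v v', f₂ (b.1 *ᵥ v) (b.1 *ᵥ v') = lam * f₂ v v') →
        b.1 * θ = θ * b.1 ∨ b.1 * θ = -(θ * b.1) := by
  classical
  obtain ⟨hbil, hsym, hnd⟩ := hs
  obtain ⟨a, ha⟩ : ∃ a, a = f₂ (Pi.single 0 1) (Pi.single 0 1) := ⟨_, rfl⟩
  obtain ⟨b, hb⟩ : ∃ b, b = f₂ (Pi.single 0 1) (Pi.single 1 1) := ⟨_, rfl⟩
  obtain ⟨c, hc⟩ : ∃ c, c = f₂ (Pi.single 1 1) (Pi.single 1 1) := ⟨_, rfl⟩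
  have hb' : f₂ (Pi.single 1 1) (Pi.single 0 1) = b := by rw [hsym, hb]
  have hF : ∀ u v : Fin 2 → F,
      f₂ u v = a * u 0 * v 0 + b * u 0 * v 1 + b * u 1 * v 0 + c * u 1 * v 1 := by
    intro u v
    rw [T2Sa1_expand f₂ hbil u v, hb', ← ha, ← hb, ← hc]
  have ha0 : a ≠ 0 := by
    intro h0
    have h1 : f₂ (Pi.single 0 1) (Pi.single 0 1) = 0 := by rw [← ha, h0]
    have h3 := congrFun (hani _ h1) 0
    simp at h3
  have hnsq : ¬ IsSquare (b * b - a * c) := by
    rintro ⟨s, hs⟩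
    have h1 : f₂ ![s - b, a] ![s - b, a] = 0 := by
      rw [hF]
      show a * (s - b) * (s - b) + b * (s - b) * a + b * a * (s - b) + c * a * a = 0
      linear_combination (-a) * hs
    have h3 := congrFun (hani _ h1) 1
    simp at h3
    exact ha0 h3
  have hD : a * c - b * b ≠ 0 := by
    intro h0
    apply hnsq
    refine ⟨0, ?_⟩
    linear_combination -h0
  obtain ⟨θ, hθ⟩ : ∃ θ : Matrix (Fin 2) (Fin 2) F, θ = !![-b, -c; a, b] := ⟨_, rfl⟩
  have hθ00 : θ 0 0 = -b := by rw [hθ]; rfl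
  have hθ01 : θ 0 1 = -c := by rw [hθ]; rfl
  have hθ10 : θ 1 0 = a := by rw [hθ]; rfl
  have hθ11 : θ 1 1 = b := by rw [hθ]; rfl
  refine ⟨θ, b * b - a * c, ?_, hnsq, ?_, ?_⟩
  · have h : ∀ i j, (θ * θ) i j = ((b * b - a * c) • (1 : Matrix (Fin 2) (Fin 2) F)) i j := by
      intro i j
      fin_cases i <;> fin_cases j <;>
        simp [Matrix.mul_apply, Fin.sum_univ_two, hθ00, hθ01, hθ10, hθ11] <;> ring
    exact Matrix.ext h
  · intro u v
    rw [hF, hF]
    simp only [T2Sa1_mulVec, hθ00, hθ01, hθ10, hθ11]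
    ring
  · intro g lam hsim
    have hv0 : ∀ i, (g.1 *ᵥ (Pi.single 0 1 : Fin 2 → F)) i = g.1 i 0 := by
      intro i
      rw [T2Sa1_mulVec]
      simp
    have hv1 : ∀ i, (g.1 *ᵥ (Pi.single 1 1 : Fin 2 → F)) i = g.1 i 1 := by
      intro i
      rw [T2Sa1_mulVec]
      simp
    have h00 : f₂ (g.1 *ᵥ (Pi.single 0 1 : Fin 2 → F)) (g.1 *ᵥ (Pi.single 0 1 : Fin 2 → F))
        = lam * a := by rw [hsim, ← ha]
    have h01 : f₂ (g.1 *ᵥ (Pi.single 0 1 : Fin 2 → F)) (g.1 *ᵥ (Pi.single 1 1 : Fin 2 → F))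
        = lam * b := by rw [hsim, ← hb]
    have h11 : f₂ (g.1 *ᵥ (Pi.single 1 1 : Fin 2 → F)) (g.1 *ᵥ (Pi.single 1 1 : Fin 2 → F))
        = lam * c := by rw [hsim, ← hc]
    rw [hF] at h00 h01 h11
    simp only [hv0, hv1] at h00 h01 h11
    have m00 : (g.1 * θ) 0 0 = g.1 0 0 * (-b) + g.1 0 1 * a := by
      rw [Matrix.mul_apply, Fin.sum_univ_two, hθ00, hθ10]
    have m01 : (g.1 * θ) 0 1 = g.1 0 0 * (-c) + g.1 0 1 * b := by
      rw [Matrix.mul_apply, Fin.sum_univ_two, hθ01, hθ11]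
    have m10 : (g.1 * θ) 1 0 = g.1 1 0 * (-b) + g.1 1 1 * a := by
      rw [Matrix.mul_apply, Fin.sum_univ_two, hθ00, hθ10]
    have m11 : (g.1 * θ) 1 1 = g.1 1 0 * (-c) + g.1 1 1 * b := by
      rw [Matrix.mul_apply, Fin.sum_univ_two, hθ01, hθ11]
    have n00 : (θ * g.1) 0 0 = (-b) * g.1 0 0 + (-c) * g.1 1 0 := by
      rw [Matrix.mul_apply, Fin.sum_univ_two, hθ00, hθ01]
    have n01 : (θ * g.1) 0 1 = (-b) * g.1 0 1 + (-c) * g.1 1 1 := by
      rw [Matrix.mul_apply, Fin.sum_univ_two, hθ00, hθ01]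
    have n10 : (θ * g.1) 1 0 = a * g.1 0 0 + b * g.1 1 0 := by
      rw [Matrix.mul_apply, Fin.sum_univ_two, hθ10, hθ11]
    have n11 : (θ * g.1) 1 1 = a * g.1 0 1 + b * g.1 1 1 := by
      rw [Matrix.mul_apply, Fin.sum_univ_two, hθ10, hθ11]
    have hdet : g.1 0 0 * g.1 1 1 - g.1 0 1 * g.1 1 0 ≠ 0 := by
      have h1 : IsUnit g.1.det := (Matrix.isUnit_iff_isUnit_det g.1).mp g.isUnit
      rw [Matrix.det_fin_two] at h1
      exact h1.ne_zero
    generalize g.1 0 0 = p at *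
    generalize g.1 0 1 = q at *
    generalize g.1 1 0 = r at *
    generalize g.1 1 1 = s at *
    have T00 : (a * c - b * b) *
        (lam * ((-b) * p + (-c) * r) - (p * s - q * r) * (p * (-b) + q * a)) = 0 := by
      linear_combination (-(c * s + b * q) * (-b)) * h00
        + (-(c * s + b * q) * a + (c * r + b * p) * (-b)) * h01 + ((c * r + b * p) * a) * h11
    have T01 : (a * c - b * b) *
        (lam * ((-b) * q + (-c) * s) - (p * s - q * r) * (p * (-c) + q * b)) = 0 := by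
      linear_combination (-(c * s + b * q) * (-c)) * h00
        + (-(c * s + b * q) * b + (c * r + b * p) * (-c)) * h01 + ((c * r + b * p) * b) * h11
    have T10 : (a * c - b * b) *
        (lam * (a * p + b * r) - (p * s - q * r) * (r * (-b) + s * a)) = 0 := by
      linear_combination ((b * s + a * q) * (-b)) * h00
        + ((b * s + a * q) * a - (b * r + a * p) * (-b)) * h01 + (-(b * r + a * p) * a) * h11
    have T11 : (a * c - b * b) *
        (lam * (a * q + b * s) - (p * s - q * r) * (r * (-c) + s * b)) = 0 := by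
      linear_combination ((b * s + a * q) * (-c)) * h00
        + ((b * s + a * q) * b - (b * r + a * p) * (-c)) * h01 + (-(b * r + a * p) * b) * h11
    have hdd : (a * c - b * b) * ((p * s - q * r) ^ 2 - lam ^ 2) = 0 := by
      linear_combination (a * q * q + b * q * s + b * s * q + c * s * s) * h00 + (lam * a) * h11
        - (a * p * q + b * p * s + b * r * q + c * r * s + lam * b) * h01
    have hd2 : (p * s - q * r) ^ 2 - lam ^ 2 = 0 := (mul_eq_zero.mp hdd).resolve_left hD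
    have hcases : p * s - q * r = lam ∨ p * s - q * r = -lam := by
      have h : (p * s - q * r - lam) * (p * s - q * r + lam) = 0 := by linear_combination hd2
      rcases mul_eq_zero.mp h with h | h
      · left
        linear_combination h
      · right
        linear_combination h
    rcases hcases with hd | hd
    · left
      have hlam : lam ≠ 0 := by
        rw [← hd]
        exact hdet
      have fin1 : ∀ X Y : F, (a * c - b * b) * (lam * X - (p * s - q * r) * Y) = 0 → Y = X := by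
        intro X Y h
        have h1 := (mul_eq_zero.mp h).resolve_left hD
        rw [hd] at h1
        have h2 : lam * (X - Y) = 0 := by linear_combination h1
        have h3 := (mul_eq_zero.mp h2).resolve_left hlam
        linear_combination -h3
      have e00 : (g.1 * θ) 0 0 = (θ * g.1) 0 0 := by rw [m00, n00]; exact fin1 _ _ T00
      have e01 : (g.1 * θ) 0 1 = (θ * g.1) 0 1 := by rw [m01, n01]; exact fin1 _ _ T01
      have e10 : (g.1 * θ) 1 0 = (θ * g.1) 1 0 := by rw [m10, n10]; exact fin1 _ _ T10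
      have e11 : (g.1 * θ) 1 1 = (θ * g.1) 1 1 := by rw [m11, n11]; exact fin1 _ _ T11
      have hall : ∀ i j, (g.1 * θ) i j = (θ * g.1) i j := by
        simp only [Fin.forall_fin_two]
        exact ⟨⟨e00, e01⟩, ⟨e10, e11⟩⟩
      exact Matrix.ext hall
    · right
      have hlam : lam ≠ 0 := by
        intro h0
        apply hdet
        rw [hd, h0, neg_zero]
      have fin2 : ∀ X Y : F, (a * c - b * b) * (lam * X - (p * s - q * r) * Y) = 0 → Y = -X := by
        intro X Y h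
        have h1 := (mul_eq_zero.mp h).resolve_left hD
        rw [hd] at h1
        have h2 : lam * (X + Y) = 0 := by linear_combination h1
        have h3 := (mul_eq_zero.mp h2).resolve_left hlam
        linear_combination h3
      have e00 : (g.1 * θ) 0 0 = (-(θ * g.1)) 0 0 := by
        rw [Matrix.neg_apply, m00, n00]; exact fin2 _ _ T00
      have e01 : (g.1 * θ) 0 1 = (-(θ * g.1)) 0 1 := by
        rw [Matrix.neg_apply, m01, n01]; exact fin2 _ _ T01
      have e10 : (g.1 * θ) 1 0 = (-(θ * g.1)) 1 0 := by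
        rw [Matrix.neg_apply, m10, n10]; exact fin2 _ _ T10
      have e11 : (g.1 * θ) 1 1 = (-(θ * g.1)) 1 1 := by
        rw [Matrix.neg_apply, m11, n11]; exact fin2 _ _ T11
      have hall : ∀ i j, (g.1 * θ) i j = (-(θ * g.1)) i j := by
        simp only [Fin.forall_fin_two]
        exact ⟨⟨e00, e01⟩, ⟨e10, e11⟩⟩
      exact Matrix.ext hall

end Cfsg.Agent.Lib.Helper65.SP12
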