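import Mathlib
import Cfsg.Prelude.Def_GeometricClasses
import Cfsg.Prelude.Def_LieClassical
import Cfsg.Agent.Lib.Helper71.Asch0
import Cfsg.Agent.Lib.Helper29.SPPTens

/-! Project SP12 (helper65; S5868): piece `T2Sa2` (filled by helper87): the field subalgebra
`{x • 1 + y • Θ}`, `Θ = P (1 ⊗ θ) P⁻¹`, attached to an anisotropic second factor. -/

set_option autoImplicit false

namespace Cfsg.Agent.Lib.Helper65.SP12

open Matrix Cfsg.Geo Cfsg.Agent.Lib.Helper71.Asch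
open scoped Kronecker

variable {n : ℕ} {F : Type*} [Field F] [Fintype F]

open Cfsg.Agent.Lib.Helper29.SPPTens

omit [Fintype F] in
theorem T2Sa2_tmat_mul {d k : ℕ} (e : Fin n ≃ Fin d × Fin k) (P : GL (Fin n) F)
    (a a' : Matrix (Fin d) (Fin d) F) (b b' : Matrix (Fin k) (Fin k) F) :
    tmat e P a b * tmat e P a' b' = tmat e P (a * a') (b * b') := by
  have hP : (P⁻¹ : GL (Fin n) F).1 * P.1 = 1 := by
    rw [← Units.val_mul, inv_mul_cancel, Units.val_one]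
  unfold tmat
  have hre : Matrix.reindex e.symm e.symm (a ⊗ₖ b) * Matrix.reindex e.symm e.symm (a' ⊗ₖ b') =
      Matrix.reindex e.symm e.symm ((a * a') ⊗ₖ (b * b')) := by
    rw [Matrix.mul_kronecker_mul]
    simp only [Matrix.reindex_apply, Equiv.symm_symm]
    rw [Matrix.submatrix_mul_equiv]
  calc P.1 * Matrix.reindex e.symm e.symm (a ⊗ₖ b) * (P⁻¹ : GL (Fin n) F).1 *
        (P.1 * Matrix.reindex e.symm e.symm (a' ⊗ₖ b') * (P⁻¹ : GL (Fin n) F).1)
      = P.1 * Matrix.reindex e.symm e.symm (a ⊗ₖ b) * ((P⁻¹ : GL (Fin n) F).1 * P.1) *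
          Matrix.reindex e.symm e.symm (a' ⊗ₖ b') * (P⁻¹ : GL (Fin n) F).1 := by
        simp only [Matrix.mul_assoc]
    _ = P.1 * (Matrix.reindex e.symm e.symm (a ⊗ₖ b) * Matrix.reindex e.symm e.symm (a' ⊗ₖ b')) *
          (P⁻¹ : GL (Fin n) F).1 := by
        rw [hP, Matrix.mul_one, Matrix.mul_assoc P.1]
    _ = _ := by rw [hre]

omit [Fintype F] in
theorem T2Sa2_tmat_one {d k : ℕ} (e : Fin n ≃ Fin d × Fin k) (P : GL (Fin n) F) :
    tmat e P (1 : Matrix (Fin d) (Fin d) F) (1 : Matrix (Fin k) (Fin k) F) = 1 := by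
  unfold tmat
  have h2 : Matrix.reindex e.symm e.symm
      ((1 : Matrix (Fin d) (Fin d) F) ⊗ₖ (1 : Matrix (Fin k) (Fin k) F)) = 1 := by
    rw [Matrix.one_kronecker_one]
    simp [Matrix.reindex_apply]
  rw [h2, mul_one, ← Units.val_mul, mul_inv_cancel, Units.val_one]

omit [Fintype F] in
theorem T2Sa2_tmat_smul {d k : ℕ} (e : Fin n ≃ Fin d × Fin k) (P : GL (Fin n) F)
    (a : Matrix (Fin d) (Fin d) F) (t : F) (b : Matrix (Fin k) (Fin k) F) :
    tmat e P a (t • b) = t • tmat e P a b := by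
  unfold tmat
  have h2 : Matrix.reindex e.symm e.symm (a ⊗ₖ (t • b)) =
      t • Matrix.reindex e.symm e.symm (a ⊗ₖ b) := by
    rw [Matrix.kronecker_smul]
    ext i j
    simp [Matrix.reindex_apply]
  rw [h2, Matrix.mul_smul, Matrix.smul_mul]

omit [Fintype F] in
theorem T2Sa2_gram_skew (f₂ : (Fin 2 → F) → (Fin 2 → F) → F) (hb2 : IsBilinearForm f₂)
    (θ : Matrix (Fin 2) (Fin 2) F) (hskew : ∀ u v, f₂ (θ *ᵥ u) v = - f₂ u (θ *ᵥ v)) :
    θᵀ * gramMatrix f₂ = (-1 : F) • (gramMatrix f₂ * θ) := by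
  ext a b
  have h := hskew (Pi.single a 1) (Pi.single b 1)
  rw [tens_gram f₂ hb2, tens_gram f₂ hb2] at h
  fin_cases a <;> fin_cases b <;>
    simp [Fin.sum_univ_two, Matrix.mulVec, dotProduct, Matrix.mul_apply] at h ⊢ <;>
    linear_combination h

omit [Fintype F] in
theorem T2Sa2_theta_skew (f : (Fin n → F) → (Fin n → F) → F) {d : ℕ}
    (e : Fin n ≃ Fin d × Fin 2) (P : GL (Fin n) F) (f₁ : (Fin d → F) → (Fin d → F) → F)
    (f₂ : (Fin 2 → F) → (Fin 2 → F) → F) (hb2 : IsBilinearForm f₂)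
    (ht : IsTensorFormStructure id f f₁ f₂ e P) (θ : Matrix (Fin 2) (Fin 2) F)
    (hskew : ∀ u v, f₂ (θ *ᵥ u) v = - f₂ u (θ *ᵥ v)) (u v : Fin n → F) :
    f (tmat e P (1 : Matrix (Fin d) (Fin d) F) θ *ᵥ u) v =
      - f u (tmat e P (1 : Matrix (Fin d) (Fin d) F) θ *ᵥ v) := by
  classical
  obtain ⟨c, hc, hform⟩ := ht
  obtain ⟨x, rfl⟩ := tT_surjective e P u
  obtain ⟨y, rfl⟩ := tT_surjective e P v
  rw [tT_apply, tT_apply, tmat_mulVec, tmat_mulVec, hform, hform]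
  have hfg : ∀ (G : Matrix (Fin d × Fin 2) (Fin d × Fin 2) F) (x y : Fin d × Fin 2 → F),
      formOfGram id G x y = x ⬝ᵥ (G *ᵥ y) := by
    intro G x y
    simp only [formOfGram, dotProduct, Matrix.mulVec, Finset.mul_sum, mul_assoc, id]
  rw [hfg, hfg]
  have hM : ((1 : Matrix (Fin d) (Fin d) F) ⊗ₖ θ)ᵀ * (gramMatrix f₁ ⊗ₖ gramMatrix f₂) =
      (-1 : F) • ((gramMatrix f₁ ⊗ₖ gramMatrix f₂) * ((1 : Matrix (Fin d) (Fin d) F) ⊗ₖ θ)) := by
    have e1 : ((1 : Matrix (Fin d) (Fin d) F) ⊗ₖ θ)ᵀ = (1 : Matrix (Fin d) (Fin d) F) ⊗ₖ θᵀ := by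
      have e2 := Matrix.kroneckerMap_transpose (fun a b : F => a * b)
        (1 : Matrix (Fin d) (Fin d) F) θ
      rw [Matrix.transpose_one] at e2
      exact e2.symm
    rw [e1, ← Matrix.mul_kronecker_mul, ← Matrix.mul_kronecker_mul, Matrix.one_mul,
      Matrix.mul_one, T2Sa2_gram_skew f₂ hb2 θ hskew, Matrix.kronecker_smul]
  have e3 : x ⬝ᵥ ((((1 : Matrix (Fin d) (Fin d) F) ⊗ₖ θ)ᵀ * (gramMatrix f₁ ⊗ₖ gramMatrix f₂)) *ᵥ y)
      = (((1 : Matrix (Fin d) (Fin d) F) ⊗ₖ θ) *ᵥ x) ⬝ᵥ ((gramMatrix f₁ ⊗ₖ gramMatrix f₂) *ᵥ y) := by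
    rw [← Matrix.mulVec_mulVec, Matrix.dotProduct_mulVec x, Matrix.vecMul_transpose]
  rw [← e3, hM, Matrix.smul_mulVec, dotProduct_smul, ← Matrix.mulVec_mulVec, smul_eq_mul]
  ring

/-- the subalgebra `{x • 1 + y • Θ}` for `Θ * Θ = δ • 1` -/
def T2Sa2_K (Θ : Matrix (Fin n) (Fin n) F) (δ : F)
    (hΘ : Θ * Θ = δ • (1 : Matrix (Fin n) (Fin n) F)) :
    Subalgebra F (Matrix (Fin n) (Fin n) F) where
  carrier := {M | ∃ x y : F, M = x • (1 : Matrix (Fin n) (Fin n) F) + y • Θ}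
  mul_mem' := by
    rintro _ _ ⟨x, y, rfl⟩ ⟨x', y', rfl⟩
    refine ⟨x * x' + y * y' * δ, x * y' + y * x', ?_⟩
    simp only [add_mul, mul_add, Matrix.smul_mul, Matrix.mul_smul, Matrix.one_mul,
      Matrix.mul_one, hΘ]
    module
  add_mem' := by
    rintro _ _ ⟨x, y, rfl⟩ ⟨x', y', rfl⟩
    exact ⟨x + x', y + y', by module⟩
  algebraMap_mem' := fun r =>
    ⟨r, 0, by rw [zero_smul, add_zero, Algebra.algebraMap_eq_smul_one]⟩

/-- T2Sa2 -/
theorem T2Sa2 (h2 : (2 : F) ≠ 0) (f : (Fin n → F) → (Fin n → F) → F) (hf : IsSymplecticForm f)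
    (H : Subgroup (GL (Fin n) F)) (hfix : FixesForm (matrixSet H) f) {d : ℕ} (hd : 1 ≤ d)
    (e : Fin n ≃ Fin d × Fin 2) (P : GL (Fin n) F) (f₁ : (Fin d → F) → (Fin d → F) → F)
    (f₂ : (Fin 2 → F) → (Fin 2 → F) → F) (h1 : IsSymplecticForm f₁) (hs : IsSymmetricForm f₂)
    (ht : IsTensorFormStructure id f f₁ f₂ e P) (hH : H ≤ tensorProductSubgroup d 2 e P)
    (θ : Matrix (Fin 2) (Fin 2) F) (δ : F) (hθ : θ * θ = δ • (1 : Matrix (Fin 2) (Fin 2) F))
    (hδ : ¬ IsSquare δ) (hskew : ∀ u v, f₂ (θ *ᵥ u) v = - f₂ u (θ *ᵥ v))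
    (hnorm : ∀ (b : GL (Fin 2) F) (lam : F),
      (∀ v v', f₂ (b.1 *ᵥ v) (b.1 *ᵥ v') = lam * f₂ v v') →
        b.1 * θ = θ * b.1 ∨ b.1 * θ = -(θ * b.1)) :
    ∃ K : Subalgebra F (Matrix (Fin n) (Fin n) F), IsFieldSubalgebra 2 K ∧
      IsAdjointClosedFor f K ∧ ¬ IsSelfAdjointFor f K ∧ H ≤ subalgebraNormalizer K := by
  classical
  have hb2 := hs.bilinear
  obtain ⟨i0⟩ : Nonempty (Fin n) := ⟨e.symm (⟨0, hd⟩, 0)⟩
  have hone : (1 : Matrix (Fin n) (Fin n) F) ≠ 0 := by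
    intro h0
    have h3 := congrFun (congrFun h0 i0) i0
    simp at h3
  obtain ⟨Θ, hΘdef⟩ : ∃ Θ, Θ = tmat e P (1 : Matrix (Fin d) (Fin d) F) θ := ⟨_, rfl⟩
  have hΘ : Θ * Θ = δ • (1 : Matrix (Fin n) (Fin n) F) := by
    rw [hΘdef, T2Sa2_tmat_mul, hθ, mul_one, T2Sa2_tmat_smul, T2Sa2_tmat_one]
  have hδ0 : δ ≠ 0 := fun h0 => hδ ⟨0, by rw [h0, mul_zero]⟩
  have hsk : ∀ u v, f (Θ *ᵥ u) v = - f u (Θ *ᵥ v) := by
    intro u v
    rw [hΘdef]
    exact T2Sa2_theta_skew f e P f₁ f₂ hb2 ht θ hskew u v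
  -- `1` and `Θ` are linearly independent
  have hind : ∀ x y : F, x • (1 : Matrix (Fin n) (Fin n) F) + y • Θ = 0 → x = 0 ∧ y = 0 := by
    intro x y hxy
    have hy : y = 0 := by
      by_contra hy
      have hΘeq : Θ = (-(x / y)) • (1 : Matrix (Fin n) (Fin n) F) := by
        have h3 : y • Θ = -(x • (1 : Matrix (Fin n) (Fin n) F)) := eq_neg_of_add_eq_zero_right hxy
        calc Θ = y⁻¹ • (y • Θ) := by rw [smul_smul, inv_mul_cancel₀ hy, one_smul]
          _ = (-(x / y)) • (1 : Matrix (Fin n) (Fin n) F) := by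
            rw [h3, smul_neg, smul_smul, neg_smul, div_eq_inv_mul]
      have h4 : Θ * Θ = ((x / y) * (x / y)) • (1 : Matrix (Fin n) (Fin n) F) := by
        rw [hΘeq, Matrix.smul_mul, Matrix.mul_smul, Matrix.one_mul, smul_smul]
        congr 1
        ring
      rw [hΘ] at h4
      have h5 : (δ - (x / y) * (x / y)) • (1 : Matrix (Fin n) (Fin n) F) = 0 := by
        rw [sub_smul, h4, sub_self]
      rcases smul_eq_zero.mp h5 with h6 | h6
      · exact hδ ⟨x / y, sub_eq_zero.mp h6⟩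
      · exact hone h6
    refine ⟨?_, hy⟩
    rw [hy, zero_smul, add_zero] at hxy
    exact (smul_eq_zero.mp hxy).resolve_right hone
  refine ⟨T2Sa2_K Θ δ hΘ, ⟨?_, ?_, ?_⟩, ?_, ?_, ?_⟩
  · -- commutative
    rintro _ ⟨x, y, rfl⟩ _ ⟨x', y', rfl⟩
    simp only [add_mul, mul_add, Matrix.smul_mul, Matrix.mul_smul, Matrix.one_mul,
      Matrix.mul_one, hΘ]
    module
  · -- inverses
    rintro _ ⟨x, y, rfl⟩ hne
    have hN : x * x - y * y * δ ≠ 0 := by
      intro hN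
      by_cases hy : y = 0
      · rw [hy] at hN hne
        have hx : x = 0 := by
          have h3 : x * x = 0 := by linear_combination hN
          exact mul_self_eq_zero.mp h3
        apply hne
        rw [hx, zero_smul, zero_smul, add_zero]
      · apply hδ
        refine ⟨x / y, ?_⟩
        have hy2 : y * y ≠ 0 := mul_ne_zero hy hy
        have h3 : δ = (x * x) / (y * y) := by
          rw [eq_div_iff hy2]
          linear_combination -hN
        rw [h3]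
        field_simp
    refine ⟨(x * x - y * y * δ)⁻¹ • (x • (1 : Matrix (Fin n) (Fin n) F) + (-y) • Θ),
      ⟨(x * x - y * y * δ)⁻¹ * x, (x * x - y * y * δ)⁻¹ * (-y), by module⟩, ?_⟩
    rw [Matrix.mul_smul]
    have h3 : (x • (1 : Matrix (Fin n) (Fin n) F) + y • Θ) *
        (x • (1 : Matrix (Fin n) (Fin n) F) + (-y) • Θ) =
        (x * x - y * y * δ) • (1 : Matrix (Fin n) (Fin n) F) := by
      simp only [add_mul, mul_add, Matrix.smul_mul, Matrix.mul_smul, Matrix.one_mul,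
        Matrix.mul_one, hΘ]
      module
    rw [h3, smul_smul, inv_mul_cancel₀ hN, one_smul]
  · -- dimension 2
    let φ : F × F →ₗ[F] Matrix (Fin n) (Fin n) F :=
      (LinearMap.fst F F F).smulRight (1 : Matrix (Fin n) (Fin n) F) +
        (LinearMap.snd F F F).smulRight Θ
    have hφ : ∀ p : F × F, φ p = p.1 • (1 : Matrix (Fin n) (Fin n) F) + p.2 • Θ := fun p => rfl
    have hinj : Function.Injective φ := by
      rw [← LinearMap.ker_eq_bot, LinearMap.ker_eq_bot']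
      intro p hp
      rw [hφ] at hp
      obtain ⟨h3, h4⟩ := hind p.1 p.2 hp
      exact Prod.ext h3 h4
    have hrange : Subalgebra.toSubmodule (T2Sa2_K Θ δ hΘ) = LinearMap.range φ := by
      ext M
      constructor
      · rintro ⟨x, y, rfl⟩
        exact ⟨(x, y), rfl⟩
      · rintro ⟨p, rfl⟩
        exact ⟨p.1, p.2, rfl⟩
    have h3 : Module.finrank F (T2Sa2_K Θ δ hΘ) =
        Module.finrank F (Subalgebra.toSubmodule (T2Sa2_K Θ δ hΘ)) := rfl
    rw [h3, hrange, LinearMap.finrank_range_of_inj hinj]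
    simp
  · -- closed under adjoints
    rintro _ ⟨x, y, rfl⟩
    refine ⟨x • (1 : Matrix (Fin n) (Fin n) F) + (-y) • Θ, ⟨x, -y, rfl⟩, ?_⟩
    intro u v
    simp only [Matrix.add_mulVec, Matrix.smul_mulVec, Matrix.one_mulVec]
    rw [hf.bilinear.add_left, hf.bilinear.smul_left, hf.bilinear.smul_left,
      hf.bilinear.add_right, hf.bilinear.smul_right, hf.bilinear.smul_right, hsk]
    ring
  · -- not self-adjoint
    intro hsa
    have hΘK : Θ ∈ T2Sa2_K Θ δ hΘ := ⟨0, 1, by rw [zero_smul, zero_add, one_smul]⟩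
    have hz : ∀ u v, f (Θ *ᵥ u) v = 0 := by
      intro u v
      have h3 := hsa Θ hΘK u v
      have h4 := hsk u v
      have h5 : (2 : F) * f (Θ *ᵥ u) v = 0 := by linear_combination h3 + h4
      exact (mul_eq_zero.mp h5).resolve_left h2
    have hΘ0 : ∀ u, Θ *ᵥ u = 0 := by
      intro u
      by_contra hne
      obtain ⟨w, hw⟩ := (hf.nondegenerate _ hne).2
      exact hw (hz u w)
    have h5 : (Θ * Θ) *ᵥ (Pi.single i0 (1 : F)) = 0 := by
      rw [← Matrix.mulVec_mulVec, hΘ0]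
    rw [hΘ, Matrix.smul_mulVec, Matrix.one_mulVec] at h5
    have h6 := congrFun h5 i0
    simp at h6
    exact hδ0 h6
  · -- normalised by `H`
    have hconj : ∀ g ∈ H, ∀ k ∈ T2Sa2_K Θ δ hΘ,
        g.1 * k * (g⁻¹ : GL (Fin n) F).1 ∈ T2Sa2_K Θ δ hΘ := by
      intro g hg k hk
      obtain ⟨x, y, rfl⟩ := hk
      obtain ⟨a, b, lam, hab, hlam, hb⟩ := tens_factor f H hfix hd (by norm_num) e P f₁ f₂
        h1.bilinear h1.nondegenerate hb2 hs.nondegenerate ht hH g hg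
      have hgg : g.1 * (g⁻¹ : GL (Fin n) F).1 = 1 := by
        rw [← Units.val_mul, mul_inv_cancel, Units.val_one]
      obtain ⟨s, hs'⟩ : ∃ s : F, g.1 * Θ = s • (Θ * g.1) := by
        rcases hnorm b lam hb with hc | hc
        · refine ⟨1, ?_⟩
          rw [one_smul, hab, hΘdef, T2Sa2_tmat_mul, T2Sa2_tmat_mul, mul_one, one_mul, hc]
        · refine ⟨-1, ?_⟩
          rw [hab, hΘdef, T2Sa2_tmat_mul, T2Sa2_tmat_mul, mul_one, one_mul, hc,
            ← neg_one_smul F (θ * b.1), T2Sa2_tmat_smul]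
      refine ⟨x, y * s, ?_⟩
      have h3 : g.1 * Θ * (g⁻¹ : GL (Fin n) F).1 = s • Θ := by
        rw [hs', Matrix.smul_mul, mul_assoc, hgg, mul_one]
      calc g.1 * (x • (1 : Matrix (Fin n) (Fin n) F) + y • Θ) * (g⁻¹ : GL (Fin n) F).1
          = x • (g.1 * (g⁻¹ : GL (Fin n) F).1) + y • (g.1 * Θ * (g⁻¹ : GL (Fin n) F).1) := by
            simp only [mul_add, add_mul, Matrix.mul_smul, Matrix.smul_mul, Matrix.mul_one]
        _ = x • (1 : Matrix (Fin n) (Fin n) F) + (y * s) • Θ := by rw [hgg, h3, smul_smul]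
    intro g hg
    show ∀ k : Matrix (Fin n) (Fin n) F, k ∈ T2Sa2_K Θ δ hΘ ↔
      g.1 * k * (g⁻¹ : GL (Fin n) F).1 ∈ T2Sa2_K Θ δ hΘ
    intro k
    constructor
    · exact hconj g hg k
    · intro hk
      have h4 := hconj g⁻¹ (H.inv_mem hg) _ hk
      rw [inv_inv] at h4
      have hgi : (g⁻¹ : GL (Fin n) F).1 * g.1 = 1 := by
        rw [← Units.val_mul, inv_mul_cancel, Units.val_one]
      have h5 : (g⁻¹ : GL (Fin n) F).1 * (g.1 * k * (g⁻¹ : GL (Fin n) F).1) * g.1 = k := by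
        calc (g⁻¹ : GL (Fin n) F).1 * (g.1 * k * (g⁻¹ : GL (Fin n) F).1) * g.1
            = ((g⁻¹ : GL (Fin n) F).1 * g.1) * k * ((g⁻¹ : GL (Fin n) F).1 * g.1) := by
              simp only [mul_assoc]
          _ = k := by rw [hgi, one_mul, mul_one]
      rw [h5] at h4
      exact h4

end Cfsg.Agent.Lib.Helper65.SP12
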