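import Mathlib
import Cfsg.Prelude.Def_GeometricClasses
import Cfsg.Prelude.Def_LieClassical
import Cfsg.Agent.Lib.Helper71.Asch0
import Cfsg.Agent.Lib.Helper29.SPPTens

/-! Project SP12 (helper65; S5868): piece `T2Sh` (filled by helper80). -/

set_option autoImplicit false

namespace Cfsg.Agent.Lib.Helper65.SP12

open Matrix Cfsg.Geo Cfsg.Agent.Lib.Helper71.Asch
open scoped Kronecker

variable {n : ℕ} {F : Type*} [Field F] [Fintype F]

open Cfsg.Agent.Lib.Helper29.SPPTens

/-- the linear map `x ↦ P (x ⊗ u)` -/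
def T2Sh_L {d : ℕ} (e : Fin n ≃ Fin d × Fin 2) (P : GL (Fin n) F) (u : Fin 2 → F) :
    (Fin d → F) →ₗ[F] (Fin n → F) where
  toFun x := P.1 *ᵥ (ptens x u ∘ e)
  map_add' x y := by
    rw [← Matrix.mulVec_add]
    congr 1
    funext i
    simp [ptens, add_mul]
  map_smul' c x := by
    rw [RingHom.id_apply, ← Matrix.mulVec_smul]
    congr 1
    funext i
    simp [ptens, mul_assoc]

omit [Fintype F] in
theorem T2Sh_L_apply {d : ℕ} (e : Fin n ≃ Fin d × Fin 2) (P : GL (Fin n) F) (u : Fin 2 → F)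
    (x : Fin d → F) : T2Sh_L e P u x = P.1 *ᵥ (ptens x u ∘ e) := rfl

omit [Fintype F] in
theorem T2Sh_L_inj {d : ℕ} (e : Fin n ≃ Fin d × Fin 2) (P : GL (Fin n) F) (u : Fin 2 → F)
    (hu : u ≠ 0) : Function.Injective (T2Sh_L e P u) := by
  intro x y hxy
  rw [T2Sh_L_apply, T2Sh_L_apply] at hxy
  have hxy' : tT e P (ptens x u) = tT e P (ptens y u) := hxy
  have h1 : ptens x u = ptens y u := tT_injective e P hxy'
  obtain ⟨j, hj⟩ : ∃ j, u j ≠ 0 := by
    by_contra hcon
    simp only [not_exists, not_not] at hcon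
    exact hu (funext hcon)
  funext i
  have h2 := congrFun h1 (i, j)
  simp only [ptens] at h2
  exact mul_right_cancel₀ hj h2

/-- T2Sh -/
theorem T2Sh (h2 : (2 : F) ≠ 0) (f : (Fin n → F) → (Fin n → F) → F) (hf : IsSymplecticForm f)
    (H : Subgroup (GL (Fin n) F)) (hfix : FixesForm (matrixSet H) f) {d : ℕ} (hd : 1 ≤ d)
    (e : Fin n ≃ Fin d × Fin 2) (P : GL (Fin n) F) (f₁ : (Fin d → F) → (Fin d → F) → F)
    (f₂ : (Fin 2 → F) → (Fin 2 → F) → F) (h1 : IsSymplecticForm f₁) (hs : IsSymmetricForm f₂)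
    (hiso : ∃ u, u ≠ 0 ∧ f₂ u u = 0)
    (ht : IsTensorFormStructure id f f₁ f₂ e P) (hH : H ≤ tensorProductSubgroup d 2 e P) :
    ∃ D : Fin 2 → Submodule F (Fin n → F), IsMDecomposition d D ∧
      (∀ i, IsTotallySingularFor f (D i)) ∧ H ≤ decompositionStabilizer D := by
  classical
  have hb1 := h1.bilinear
  have hn1 := h1.nondegenerate
  have hb2 := hs.bilinear
  have hn2 := hs.nondegenerate
  obtain ⟨c, hc, hform⟩ := id ht
  obtain ⟨u₁, hu1, h11⟩ := hiso
  obtain ⟨w, hw⟩ := (hn2 u₁ hu1).2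
  have hz : ∀ v, f₂ 0 v = 0 := fun v => by
    have := hb2.smul_left 0 0 v
    simpa using this
  have hz' : ∀ v, f₂ v 0 = 0 := fun v => by
    have := hb2.smul_right 0 v 0
    simpa using this
  obtain ⟨β, hβ⟩ : ∃ β, β = f₂ u₁ w := ⟨_, rfl⟩
  rw [← hβ] at hw
  obtain ⟨u₂, h22, h12⟩ : ∃ u₂, f₂ u₂ u₂ = 0 ∧ f₂ u₁ u₂ = β := by
    refine ⟨w + (-(f₂ w w / (2 * β))) • u₁, ?_, ?_⟩
    · simp only [hb2.add_left, hb2.add_right, hb2.smul_left, hb2.smul_right, h11, hs.symm w u₁,
        ← hβ]
      field_simp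
      ring
    · simp only [hb2.add_right, hb2.smul_right, h11, ← hβ]
      ring
  have h21 : f₂ u₂ u₁ = β := by rw [hs.symm]; exact h12
  have hu2 : u₂ ≠ 0 := by
    intro h0
    rw [h0, hz'] at h12
    exact hw h12.symm
  have hform2 : ∀ x y x' y' : F,
      f₂ (x • u₁ + y • u₂) (x' • u₁ + y' • u₂) = (x * y' + y * x') * β := by
    intro x y x' y'
    simp only [hb2.add_left, hb2.add_right, hb2.smul_left, hb2.smul_right, h11, h22, h12, h21]
    ring
  have hind : ∀ x y : F, x • u₁ + y • u₂ = 0 → x = 0 ∧ y = 0 := by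
    intro x y hxy
    have e1 := hform2 x y 0 1
    have e2 := hform2 x y 1 0
    rw [hxy, hz] at e1 e2
    constructor
    · have h3 : x * β = 0 := by linear_combination -e1
      exact (mul_eq_zero.mp h3).resolve_right hw
    · have h3 : y * β = 0 := by linear_combination -e2
      exact (mul_eq_zero.mp h3).resolve_right hw
  have hspan : ∀ v : Fin 2 → F, ∃ x y : F, v = x • u₁ + y • u₂ := by
    have hli : LinearIndependent F ![u₁, u₂] := by
      rw [LinearIndependent.pair_iff]
      intro s t hst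
      exact hind s t hst
    have htop : Submodule.span F (Set.range ![u₁, u₂]) = ⊤ :=
      hli.span_eq_top_of_card_eq_finrank' (by simp)
    intro v
    have hv : v ∈ Submodule.span F (Set.range ![u₁, u₂]) := by
      rw [htop]
      exact Submodule.mem_top
    rw [Matrix.range_cons_cons_empty, Submodule.mem_span_pair] at hv
    obtain ⟨x, y, hxy⟩ := hv
    exact ⟨x, y, hxy.symm⟩
  -- the two isotropic directions and the decomposition
  obtain ⟨U, hU0, hU1⟩ : ∃ U : Fin 2 → (Fin 2 → F), U 0 = u₁ ∧ U 1 = u₂ :=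
    ⟨![u₁, u₂], rfl, rfl⟩
  have hUne : ∀ i, U i ≠ 0 := by
    intro i
    fin_cases i
    · show U 0 ≠ 0
      rw [hU0]
      exact hu1
    · show U 1 ≠ 0
      rw [hU1]
      exact hu2
  have hUiso : ∀ i, f₂ (U i) (U i) = 0 := by
    intro i
    fin_cases i
    · show f₂ (U 0) (U 0) = 0
      rw [hU0]
      exact h11
    · show f₂ (U 1) (U 1) = 0
      rw [hU1]
      exact h22
  let D : Fin 2 → Submodule F (Fin n → F) := fun i => LinearMap.range (T2Sh_L e P (U i))
  have hDmem : ∀ i (x : Fin d → F), P.1 *ᵥ (ptens x (U i) ∘ e) ∈ D i := fun i x => ⟨x, rfl⟩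
  have hfin : ∀ i, Module.finrank F (D i) = d := by
    intro i
    show Module.finrank F (LinearMap.range (T2Sh_L e P (U i))) = d
    rw [LinearMap.finrank_range_of_inj (T2Sh_L_inj e P (U i) (hUne i)), Module.finrank_fin_fun]
  have hdisj : Disjoint (D 0) (D 1) := by
    rw [Submodule.disjoint_def]
    intro v hv0 hv1
    obtain ⟨x, rfl⟩ := hv0
    obtain ⟨x', hx'⟩ := hv1
    rw [T2Sh_L_apply, T2Sh_L_apply, hU0, hU1] at hx'
    have hx'' : tT e P (ptens x' u₂) = tT e P (ptens x u₁) := hx'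
    have h3 : ptens x' u₂ = ptens x u₁ := tT_injective e P hx''
    have hx0 : x = 0 := by
      funext i
      have h4 : x i • u₁ + (- x' i) • u₂ = 0 := by
        funext j
        have h5 := congrFun h3 (i, j)
        simp only [ptens] at h5
        simp only [Pi.add_apply, Pi.smul_apply, smul_eq_mul, Pi.zero_apply]
        linear_combination -h5
      exact (hind _ _ h4).1
    rw [hx0, map_zero]
  have hn : n = d * 2 := by
    have h3 := Fintype.card_congr e
    simpa using h3
  have hsup : D 0 ⊔ D 1 = ⊤ := by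
    apply Submodule.eq_top_of_finrank_eq
    rw [Module.finrank_fin_fun]
    have h3 := Submodule.finrank_sup_add_finrank_inf_eq (D 0) (D 1)
    rw [disjoint_iff.mp hdisj, finrank_bot, hfin 0, hfin 1] at h3
    omega
  have hdec : IsMDecomposition d D := by
    refine ⟨le_refl 2, hd, hfin, ?_, ?_⟩
    · rw [iSupIndep_pair (i := (0 : Fin 2)) (j := 1) (by decide) (by decide)]
      exact hdisj
    · apply top_le_iff.mp
      rw [← hsup]
      exact sup_le (le_iSup D 0) (le_iSup D 1)
  refine ⟨D, hdec, ?_, ?_⟩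
  · intro i u hu v hv
    obtain ⟨x, rfl⟩ := hu
    obtain ⟨x', rfl⟩ := hv
    rw [T2Sh_L_apply, T2Sh_L_apply, hform, formOfGram_ptens f₁ f₂ hb1 hb2, hUiso, mul_zero,
      mul_zero]
  · intro g hg
    obtain ⟨a, b, lam, hab, hlam, hsim⟩ :=
      tens_factor f H hfix hd (by norm_num : 0 < 2) e P f₁ f₂ hb1 hn1 hb2 hn2 ht hH g hg
    obtain ⟨x, y, hxy⟩ := hspan (b.1 *ᵥ u₁)
    obtain ⟨x', y', hxy'⟩ := hspan (b.1 *ᵥ u₂)
    have i1 : x * y = 0 := by
      have h3 := hsim u₁ u₁
      rw [hxy, hform2, h11, mul_zero] at h3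
      have h4 : (2 : F) * (x * y * β) = 0 := by linear_combination h3
      rcases mul_eq_zero.mp h4 with h5 | h5
      · exact absurd h5 h2
      · exact (mul_eq_zero.mp h5).resolve_right hw
    have i2 : x' * y' = 0 := by
      have h3 := hsim u₂ u₂
      rw [hxy', hform2, h22, mul_zero] at h3
      have h4 : (2 : F) * (x' * y' * β) = 0 := by linear_combination h3
      rcases mul_eq_zero.mp h4 with h5 | h5
      · exact absurd h5 h2
      · exact (mul_eq_zero.mp h5).resolve_right hw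
    have i3 : (x * y' + y * x') * β ≠ 0 := by
      have h3 := hsim u₁ u₂
      rw [hxy, hxy', hform2, h12] at h3
      rw [h3]
      exact mul_ne_zero hlam hw
    have hperm : ∃ (σ : Equiv.Perm (Fin 2)) (s : Fin 2 → F),
        ∀ i, b.1 *ᵥ U i = s i • U (σ i) := by
      rcases mul_eq_zero.mp i1 with hx | hy
      · rcases mul_eq_zero.mp i2 with hx' | hy'
        · exfalso
          apply i3
          rw [hx, hx']
          ring
        · refine ⟨Equiv.swap 0 1, ![y, x'], ?_⟩
          intro i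
          fin_cases i
          · show b.1 *ᵥ U 0 = y • U (Equiv.swap (0 : Fin 2) 1 0)
            rw [Equiv.swap_apply_left, hU0, hU1, hxy, hx, zero_smul, zero_add]
          · show b.1 *ᵥ U 1 = x' • U (Equiv.swap (0 : Fin 2) 1 1)
            rw [Equiv.swap_apply_right, hU0, hU1, hxy', hy', zero_smul, add_zero]
      · rcases mul_eq_zero.mp i2 with hx' | hy'
        · refine ⟨1, ![x, y'], ?_⟩
          intro i
          fin_cases i
          · show b.1 *ᵥ U 0 = x • U 0
            rw [hU0, hxy, hy, zero_smul, add_zero]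
          · show b.1 *ᵥ U 1 = y' • U 1
            rw [hU1, hxy', hx', zero_smul, zero_add]
        · exfalso
          apply i3
          rw [hy, hy']
          ring
    obtain ⟨σ, s, hσ⟩ := hperm
    have hinj : Function.Injective (Matrix.toLin' g.1) := by
      intro z z' hzz
      rw [Matrix.toLin'_apply, Matrix.toLin'_apply] at hzz
      have h3 : (g⁻¹ : GL (Fin n) F).1 *ᵥ (g.1 *ᵥ z) = (g⁻¹ : GL (Fin n) F).1 *ᵥ (g.1 *ᵥ z') := by
        rw [hzz]
      rw [Matrix.mulVec_mulVec, Matrix.mulVec_mulVec, ← Units.val_mul, inv_mul_cancel,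
        Units.val_one, Matrix.one_mulVec, Matrix.one_mulVec] at h3
      exact h3
    refine ⟨σ, fun i => ?_⟩
    have hle : (D i).map (Matrix.toLin' g.1) ≤ D (σ i) := by
      rintro _ ⟨_, ⟨z, rfl⟩, rfl⟩
      rw [Matrix.toLin'_apply, T2Sh_L_apply, hab, tmat_mulVec, kron_mulVec_ptens, hσ i]
      have h3 : ptens (a.1 *ᵥ z) (s i • U (σ i)) = ptens (s i • (a.1 *ᵥ z)) (U (σ i)) := by
        funext p
        simp only [ptens, Pi.smul_apply, smul_eq_mul]
        ring
      rw [h3]
      exact hDmem (σ i) _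
    apply Submodule.eq_of_le_of_finrank_eq hle
    rw [hfin, ← (Submodule.equivMapOfInjective (Matrix.toLin' g.1) hinj (D i)).finrank_eq, hfin]

end Cfsg.Agent.Lib.Helper65.SP12
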