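import Mathlib
import Cfsg.Prelude.Def_GeometricClasses
import Cfsg.Prelude.Def_LieClassical
import Cfsg.Agent.Lib.Helper71.Asch0

/-! Project SP4C (helper65; statement S5790: maximal subgroups of `Sp_4(q)`, `q` even):
the pure tensors of a tensor structure `(e, P)`. -/

set_option autoImplicit false

namespace Cfsg.Agent.Lib.Helper65.SP4C

open Matrix Cfsg.Geo

variable {n : ℕ} {F : Type*} [Field F]

/-- the pure tensor `P (u ⊗ w)` for a tensor structure `(e, P)` -/
def ten {d k : ℕ} (e : Fin n ≃ Fin d × Fin k) (P : GL (Fin n) F) (u : Fin d → F)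
    (w : Fin k → F) : Fin n → F :=
  P.1 *ᵥ (fun i => u (e i).1 * w (e i).2)


end Cfsg.Agent.Lib.Helper65.SP4C
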