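import Mathlib
import Cfsg.Prelude.Def_GeometricClasses
import Cfsg.Prelude.Def_LieClassical
import Cfsg.Agent.Lib.Helper71.Asch0
import Cfsg.Agent.Lib.Helper65.SP4CDefs
import Cfsg.Agent.Lib.Helper29.SPPTens

/-! Project SP4C (helper65; S5790): piece `TEN1` (PLACEHOLDER: replace the `sorry`, keep the
statement, the theorem name and the namespace; auxiliary lemmas above it, names prefixed `TEN1_`). -/

set_option autoImplicit false

namespace Cfsg.Agent.Lib.Helper65.SP4C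

open Matrix Cfsg.Geo Cfsg.Agent.Lib.Helper71.Asch

variable {n : ℕ} {F : Type*} [Field F] [Fintype F]

/-- TEN1 -/
theorem TEN1 {d k : ℕ} (e : Fin n ≃ Fin d × Fin k) (P : GL (Fin n) F)
    (a : Matrix (Fin d) (Fin d) F) (b : Matrix (Fin k) (Fin k) F) (u : Fin d → F)
    (w : Fin k → F) : tmat e P a b *ᵥ ten e P u w = ten e P (a *ᵥ u) (b *ᵥ w) := by
  have h1 : ∀ (u' : Fin d → F) (w' : Fin k → F), ten e P u' w' =
      P.1 *ᵥ (Cfsg.Agent.Lib.Helper29.SPPTens.ptens u' w' ∘ e) := fun _ _ => rfl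
  rw [h1, h1, Cfsg.Agent.Lib.Helper29.SPPTens.tmat_mulVec,
    Cfsg.Agent.Lib.Helper29.SPPTens.kron_mulVec_ptens]

end Cfsg.Agent.Lib.Helper65.SP4C
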