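import Mathlib
import Cfsg.Prelude.Def_GeometricClasses
import Cfsg.Prelude.Def_LieClassical
import Cfsg.Agent.Lib.Helper71.Asch0
import Cfsg.Agent.Lib.Helper65.SP4CDefs

/-! Project SP4C (helper65; S5790): piece `TEN2` (filled by helper51; statement unchanged). -/

set_option autoImplicit false

namespace Cfsg.Agent.Lib.Helper65.SP4C

open Matrix Cfsg.Geo Cfsg.Agent.Lib.Helper71.Asch

variable {n : ℕ} {F : Type*} [Field F] [Fintype F]

/-- TEN2 -/
theorem TEN2 {d k : ℕ} (e : Fin n ≃ Fin d × Fin k) (P : GL (Fin n) F) (v : Fin n → F) :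
    v = ∑ i : Fin d, ∑ j : Fin k, ((P⁻¹ : GL (Fin n) F).1 *ᵥ v) (e.symm (i, j)) •
      ten e P (Pi.single i 1) (Pi.single j 1) := by
  have hsingle : ∀ (i : Fin d) (j : Fin k),
      (fun i' => (Pi.single i 1 : Fin d → F) (e i').1 * (Pi.single j 1 : Fin k → F) (e i').2) =
        Pi.single (e.symm (i, j)) 1 := by
    intro i j
    funext i'
    by_cases h : i' = e.symm (i, j)
    · subst h; simp
    · rw [Pi.single_eq_of_ne h]
      have hne : e i' ≠ (i, j) := fun h' => h (by rw [← h', Equiv.symm_apply_apply])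
      by_cases h1 : (e i').1 = i
      · have h2 : (e i').2 ≠ j := fun h2 => hne (Prod.ext h1 h2)
        rw [Pi.single_eq_of_ne h2, mul_zero]
      · rw [Pi.single_eq_of_ne h1, zero_mul]
  have hsum : ∀ x : Fin n → F, ∑ i : Fin d, ∑ j : Fin k,
      x (e.symm (i, j)) • (Pi.single (e.symm (i, j)) 1 : Fin n → F) = x := by
    intro x
    rw [← Fintype.sum_prod_type
      (f := fun p : Fin d × Fin k => x (e.symm p) • (Pi.single (e.symm p) 1 : Fin n → F))]
    rw [Equiv.sum_comp e.symm (fun i' => x i' • (Pi.single i' 1 : Fin n → F))]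
    funext i'
    simp [Finset.sum_apply, Pi.single_apply]
  have hPv : P.1 *ᵥ ((P⁻¹ : GL (Fin n) F).1 *ᵥ v) = v := by
    rw [Matrix.mulVec_mulVec, ← Units.val_mul, mul_inv_cancel, Units.val_one, Matrix.one_mulVec]
  calc v = P.1 *ᵥ ((P⁻¹ : GL (Fin n) F).1 *ᵥ v) := hPv.symm
    _ = P.1 *ᵥ (∑ i : Fin d, ∑ j : Fin k, ((P⁻¹ : GL (Fin n) F).1 *ᵥ v) (e.symm (i, j)) •
          (Pi.single (e.symm (i, j)) 1 : Fin n → F)) := by rw [hsum]
    _ = ∑ i : Fin d, ∑ j : Fin k, ((P⁻¹ : GL (Fin n) F).1 *ᵥ v) (e.symm (i, j)) •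
          ten e P (Pi.single i 1) (Pi.single j 1) := by
      rw [Matrix.mulVec_sum]
      refine Finset.sum_congr rfl fun i _ => ?_
      rw [Matrix.mulVec_sum]
      refine Finset.sum_congr rfl fun j _ => ?_
      rw [Matrix.mulVec_smul]
      unfold ten
      rw [hsingle]

end Cfsg.Agent.Lib.Helper65.SP4C
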