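import Mathlib
import Cfsg.Prelude.Def_GeometricClasses
import Cfsg.Prelude.Def_LieClassical
import Cfsg.Agent.Lib.Helper71.Asch0
import Cfsg.Agent.Lib.Helper29.SPPTens
import Cfsg.Agent.Lib.Helper65.SP4CDefs
import Cfsg.Agent.Lib.Helper65.SP4CTEN1
import Cfsg.Agent.Lib.Helper65.SP4CTEN2

/-! Project SP12 (helper65; S5868): piece `TAA` (filled by helper93): in characteristic 2 a
tensor structure `f = c • (f₁ ⊗ f₂)` with `f₁` symplectic and `f₂` symmetric and alternating
carries an invariant quadratic form with polar form `f`. -/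

set_option autoImplicit false
set_option linter.unusedSectionVars false
set_option linter.unusedVariables false

namespace Cfsg.Agent.Lib.Helper65.SP12

open Matrix Cfsg.Geo Cfsg.Agent.Lib.Helper71.Asch
open scoped Kronecker

variable {n : ℕ} {F : Type*} [Field F] [Fintype F]

theorem TAA_two (heven : ¬ Odd (Fintype.card F)) : (2 : F) = 0 := by
  obtain ⟨p, hp⟩ := CharP.exists F
  have := hp
  have : Fact p.Prime := ⟨CharP.char_is_prime F p⟩
  obtain ⟨m, hpn, hn⟩ := FiniteField.card F p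
  have hev : Even (Fintype.card F) := Nat.not_odd_iff_even.mp heven
  rw [hn] at hev
  have hp2 : p = 2 := by
    have h2p : 2 ∣ p := Nat.Prime.dvd_of_dvd_pow Nat.prime_two hev.two_dvd
    exact ((Nat.prime_dvd_prime_iff_eq Nat.prime_two hpn).mp h2p).symm
  subst hp2
  exact_mod_cast CharP.cast_eq_zero F 2

/-- the quadratic form `Σ_{i<j} x_i x_j G_ij` in coordinates -/
def TAA_Q (G : Matrix (Fin n) (Fin n) F) (x : Fin n → F) : F :=
  ∑ i, ∑ j, if i < j then x i * x j * G i j else 0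

theorem TAA_Q_smul (G : Matrix (Fin n) (Fin n) F) (c : F) (x : Fin n → F) :
    TAA_Q G (c • x) = c ^ 2 * TAA_Q G x := by
  unfold TAA_Q
  rw [Finset.mul_sum]
  refine Finset.sum_congr rfl fun i _ => ?_
  rw [Finset.mul_sum]
  refine Finset.sum_congr rfl fun j _ => ?_
  split_ifs
  · simp only [Pi.smul_apply, smul_eq_mul]
    ring
  · rw [mul_zero]

theorem TAA_Q_polar (G : Matrix (Fin n) (Fin n) F) (hdiag : ∀ i, G i i = 0)
    (hsymm : ∀ i j, G j i = G i j) (x z : Fin n → F) :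
    TAA_Q G (x + z) - TAA_Q G x - TAA_Q G z = ∑ i, ∑ j, x i * G i j * z j := by
  have hL : TAA_Q G (x + z) - TAA_Q G x - TAA_Q G z =
      ∑ i, ∑ j, ((if i < j then x i * z j * G i j else 0) +
        (if i < j then x j * z i * G j i else 0)) := by
    unfold TAA_Q
    rw [← Finset.sum_sub_distrib, ← Finset.sum_sub_distrib]
    refine Finset.sum_congr rfl fun i _ => ?_
    rw [← Finset.sum_sub_distrib, ← Finset.sum_sub_distrib]
    refine Finset.sum_congr rfl fun j _ => ?_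
    split_ifs
    · simp only [Pi.add_apply]
      rw [hsymm i j]
      ring
    · ring
  have hR : ∑ i, ∑ j, x i * G i j * z j =
      ∑ i, ∑ j, ((if i < j then x i * z j * G i j else 0) +
        (if j < i then x i * z j * G i j else 0)) := by
    refine Finset.sum_congr rfl fun i _ => Finset.sum_congr rfl fun j _ => ?_
    rcases lt_trichotomy i j with h | h | h
    · rw [if_pos h, if_neg (not_lt_of_gt h)]
      ring
    · subst h
      rw [if_neg (lt_irrefl i), hdiag]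
      ring
    · rw [if_neg (not_lt_of_gt h), if_pos h]
      ring
  rw [hL, hR]
  simp only [Finset.sum_add_distrib]
  congr 1
  rw [Finset.sum_comm]

theorem TAA_sum {M : Type*} [AddCommGroup M] (ψ : M → F)
    (hadd : ∀ a b, ψ (a + b) = ψ a + ψ b) {ι : Type*} (s : Finset ι) (x : ι → M) :
    ψ (∑ i ∈ s, x i) = ∑ i ∈ s, ψ (x i) := by
  classical
  have h0 : ψ 0 = 0 := by
    have h := hadd 0 0
    rw [add_zero] at h
    linear_combination (-1 : F) * h
  induction s using Finset.induction_on with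
  | empty => simp [h0]
  | insert a s ha ih => rw [Finset.sum_insert ha, Finset.sum_insert ha, hadd, ih]

theorem TAA_basis_zero {d k : ℕ} (e : Fin n ≃ Fin d × Fin k) (G : Matrix (Fin n) (Fin n) F)
    (i : Fin d) (j : Fin k) :
    TAA_Q G (fun l => (Pi.single i (1 : F) : Fin d → F) (e l).1 *
      (Pi.single j (1 : F) : Fin k → F) (e l).2) = 0 := by
  have key : ∀ l : Fin n, e l ≠ (i, j) → (Pi.single i (1 : F) : Fin d → F) (e l).1 *
      (Pi.single j (1 : F) : Fin k → F) (e l).2 = 0 := by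
    intro l hl
    by_cases h1 : (e l).1 = i
    · have h2 : (e l).2 ≠ j := fun h2 => hl (Prod.ext h1 h2)
      rw [Pi.single_eq_of_ne h2, mul_zero]
    · rw [Pi.single_eq_of_ne h1, zero_mul]
  unfold TAA_Q
  refine Finset.sum_eq_zero fun i' _ => Finset.sum_eq_zero fun j' _ => ?_
  split_ifs with hlt
  · beta_reduce
    by_cases h1 : e i' = (i, j)
    · have h2 : e j' ≠ (i, j) := fun h => (ne_of_lt hlt) (e.injective (h1.trans h.symm))
      rw [key j' h2, mul_zero, zero_mul]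
    · rw [key i' h1, zero_mul, zero_mul]
  · rfl

/-- TAA -/
theorem TAA (hq : ¬ Odd (Fintype.card F)) (f : (Fin n → F) → (Fin n → F) → F)
    (hf : IsSymplecticForm f) (H : Subgroup (GL (Fin n) F)) (hfix : FixesForm (matrixSet H) f)
    {d k : ℕ} (e : Fin n ≃ Fin d × Fin k) (P : GL (Fin n) F)
    (f₁ : (Fin d → F) → (Fin d → F) → F) (f₂ : (Fin k → F) → (Fin k → F) → F)
    (h1 : IsSymplecticForm f₁) (h2 : IsSymmetricForm f₂) (halt : ∀ v, f₂ v v = 0)
    (ht : IsTensorFormStructure id f f₁ f₂ e P) (hH : H ≤ tensorProductSubgroup d k e P) :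
    ∃ Q : (Fin n → F) → F, IsNondegenerateQuadraticForm Q ∧
      (∀ u v : Fin n → F, QuadraticMap.polar Q u v = f u v) ∧ H ≤ quadSimilarityGroup Q := by
  have h20 : (2 : F) = 0 := TAA_two hq
  obtain ⟨c, hc, hten⟩ := ht
  obtain ⟨Pi', hPi'⟩ : ∃ M : Matrix (Fin n) (Fin n) F, M = (P⁻¹ : GL (Fin n) F).1 := ⟨_, rfl⟩
  have hPP : ∀ v : Fin n → F, P.1 *ᵥ (Pi' *ᵥ v) = v := by
    intro v
    rw [hPi', Matrix.mulVec_mulVec, ← Units.val_mul, mul_inv_cancel, Units.val_one,
      Matrix.one_mulVec]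
  have hPP' : ∀ x : Fin n → F, Pi' *ᵥ (P.1 *ᵥ x) = x := by
    intro x
    rw [hPi', Matrix.mulVec_mulVec, ← Units.val_mul, inv_mul_cancel, Units.val_one,
      Matrix.one_mulVec]
  -- the form in coordinates
  obtain ⟨f', hf'⟩ : ∃ f' : (Fin n → F) → (Fin n → F) → F,
      ∀ x z, f' x z = f (P.1 *ᵥ x) (P.1 *ᵥ z) := ⟨fun x z => f (P.1 *ᵥ x) (P.1 *ᵥ z), fun _ _ => rfl⟩
  have hb' : IsBilinearForm f' := by
    refine ⟨fun x y v => ?_, fun c x v => ?_, fun v x y => ?_, fun c v x => ?_⟩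
    · rw [hf', hf', hf', Matrix.mulVec_add]
      exact hf.bilinear.add_left _ _ _
    · rw [hf', hf', Matrix.mulVec_smul]
      exact hf.bilinear.smul_left _ _ _
    · rw [hf', hf', hf', Matrix.mulVec_add]
      exact hf.bilinear.add_right _ _ _
    · rw [hf', hf', Matrix.mulVec_smul]
      exact hf.bilinear.smul_right _ _ _
  obtain ⟨G, hGdef⟩ : ∃ G : Matrix (Fin n) (Fin n) F, G = gramMatrix f' := ⟨_, rfl⟩
  have hdiag : ∀ i, G i i = 0 := by
    intro i
    rw [hGdef]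
    show f' (Pi.single i 1) (Pi.single i 1) = 0
    rw [hf']
    exact hf.alternating _
  have hsymm : ∀ i j, G j i = G i j := by
    intro i j
    rw [hGdef]
    show f' (Pi.single j 1) (Pi.single i 1) = f' (Pi.single i 1) (Pi.single j 1)
    rw [hf', hf', hf.skew]
    linear_combination (-(f (P.1 *ᵥ Pi.single i 1) (P.1 *ᵥ Pi.single j 1))) * h20
  obtain ⟨Q, hQ⟩ : ∃ Q : (Fin n → F) → F, ∀ v, Q v = TAA_Q G (Pi' *ᵥ v) := ⟨_, fun _ => rfl⟩
  have hQadd : ∀ u v, Q (u + v) - Q u - Q v = f u v := by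
    intro u v
    rw [hQ, hQ, hQ, Matrix.mulVec_add, TAA_Q_polar G hdiag hsymm, hGdef,
      ← Cfsg.Agent.Lib.Helper29.SPPTens.tens_gram f' hb', hf', hPP, hPP]
  have hQs : ∀ (t : F) (x : Fin n → F), Q (t • x) = t ^ 2 * Q x := by
    intro t x
    rw [hQ, hQ, Matrix.mulVec_smul, TAA_Q_smul]
  have hpol : QuadraticMap.polar Q = f := by
    funext u v
    exact hQadd u v
  refine ⟨Q, ⟨hQs, ?_, ?_⟩, fun u v => hQadd u v, ?_⟩
  · rw [hpol]
    exact hf.bilinear
  · rw [hpol]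
    exact hf.nondegenerate
  intro g hg
  refine ⟨1, fun v => ?_⟩
  rw [Units.val_one, one_mul]
  obtain ⟨a, b, hab⟩ := (mem_tensorProductSubgroup_iff e P g).mp (hH hg)
  have hQa : ∀ x z, Q (x + z) = Q x + Q z + f x z := by
    intro x z
    linear_combination hQadd x z
  -- pure tensors
  obtain ⟨T, hT⟩ : ∃ T : (Fin d → F) → (Fin k → F) → (Fin n → F),
      ∀ u w, T u w = Cfsg.Agent.Lib.Helper65.SP4C.ten e P u w := ⟨_, fun _ _ => rfl⟩
  have hTf : ∀ u u' w w', f (T u w) (T u' w') = c * (f₁ u u' * f₂ w w') := by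
    intro u u' w w'
    have h := hten (Cfsg.Agent.Lib.Helper29.SPPTens.ptens u w)
      (Cfsg.Agent.Lib.Helper29.SPPTens.ptens u' w')
    rw [Cfsg.Agent.Lib.Helper29.SPPTens.formOfGram_ptens f₁ f₂ h1.bilinear h2.bilinear] at h
    rw [hT, hT]
    exact h
  have hTaddL : ∀ u u' w, T (u + u') w = T u w + T u' w := by
    intro u u' w
    rw [hT, hT, hT]
    unfold Cfsg.Agent.Lib.Helper65.SP4C.ten
    rw [← Matrix.mulVec_add]
    congr 1
    funext i
    simp only [Pi.add_apply]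
    ring
  have hTaddR : ∀ u w w', T u (w + w') = T u w + T u w' := by
    intro u w w'
    rw [hT, hT, hT]
    unfold Cfsg.Agent.Lib.Helper65.SP4C.ten
    rw [← Matrix.mulVec_add]
    congr 1
    funext i
    simp only [Pi.add_apply]
    ring
  have hTsmulL : ∀ (t : F) u w, T (t • u) w = t • T u w := by
    intro t u w
    rw [hT, hT]
    unfold Cfsg.Agent.Lib.Helper65.SP4C.ten
    rw [← Matrix.mulVec_smul]
    congr 1
    funext i
    simp only [Pi.smul_apply, smul_eq_mul]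
    ring
  have hTsmulR : ∀ (t : F) u w, T u (t • w) = t • T u w := by
    intro t u w
    rw [hT, hT]
    unfold Cfsg.Agent.Lib.Helper65.SP4C.ten
    rw [← Matrix.mulVec_smul]
    congr 1
    funext i
    simp only [Pi.smul_apply, smul_eq_mul]
    ring
  have hQbas : ∀ i j, Q (T (Pi.single i 1) (Pi.single j 1)) = 0 := by
    intro i j
    rw [hT, hQ]
    unfold Cfsg.Agent.Lib.Helper65.SP4C.ten
    rw [hPP']
    exact TAA_basis_zero e G i j
  have hdecd : ∀ u : Fin d → F, u = ∑ i, u i • (Pi.single i (1 : F) : Fin d → F) := by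
    intro u
    funext l
    simp [Finset.sum_apply, Pi.single_apply]
  have hdeck : ∀ w : Fin k → F, w = ∑ j, w j • (Pi.single j (1 : F) : Fin k → F) := by
    intro w
    funext l
    simp [Finset.sum_apply, Pi.single_apply]
  have hQT1 : ∀ (i : Fin d) (w : Fin k → F), Q (T (Pi.single i 1) w) = 0 := by
    intro i w
    obtain ⟨ψ, hψ⟩ : ∃ ψ : (Fin k → F) → F, ∀ w', ψ w' = Q (T (Pi.single i 1) w') :=
      ⟨_, fun _ => rfl⟩
    have hadd : ∀ w' w'' : Fin k → F, ψ (w' + w'') = ψ w' + ψ w'' := by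
      intro w' w''
      rw [hψ, hψ, hψ, hTaddR, hQa, hTf, h1.alternating, zero_mul, mul_zero, add_zero]
    rw [← hψ, hdeck w, TAA_sum ψ hadd]
    refine Finset.sum_eq_zero fun j _ => ?_
    rw [hψ, hTsmulR, hQs, hQbas, mul_zero]
  have hQT : ∀ u w, Q (T u w) = 0 := by
    intro u w
    obtain ⟨ψ, hψ⟩ : ∃ ψ : (Fin d → F) → F, ∀ u', ψ u' = Q (T u' w) := ⟨_, fun _ => rfl⟩
    have hadd : ∀ u' u'' : Fin d → F, ψ (u' + u'') = ψ u' + ψ u'' := by
      intro u' u''
      rw [hψ, hψ, hψ, hTaddL, hQa, hTf, halt, mul_zero, mul_zero, add_zero]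
    rw [← hψ, hdecd u, TAA_sum ψ hadd]
    refine Finset.sum_eq_zero fun i _ => ?_
    rw [hψ, hTsmulL, hQs, hQT1, mul_zero]
  have hgT : ∀ u w, g.1 *ᵥ T u w = T (a.1 *ᵥ u) (b.1 *ᵥ w) := by
    intro u w
    rw [hT, hT, hab]
    exact Cfsg.Agent.Lib.Helper65.SP4C.TEN1 e P a.1 b.1 u w
  obtain ⟨φ, hφ⟩ : ∃ φ : (Fin n → F) → F, ∀ v, φ v = Q (g.1 *ᵥ v) - Q v := ⟨_, fun _ => rfl⟩
  have hφadd : ∀ x z, φ (x + z) = φ x + φ z := by
    intro x z
    rw [hφ, hφ, hφ, Matrix.mulVec_add, hQa, hQa, hfix g.1 ⟨g, hg, rfl⟩ x z]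
    ring
  have hφsmul : ∀ (t : F) x, φ (t • x) = t ^ 2 * φ x := by
    intro t x
    rw [hφ, hφ, Matrix.mulVec_smul, hQs, hQs]
    ring
  have hφT : ∀ u w, φ (T u w) = 0 := by
    intro u w
    rw [hφ, hgT, hQT, hQT, sub_zero]
  have hφ0 : φ v = 0 := by
    have hv := Cfsg.Agent.Lib.Helper65.SP4C.TEN2 e P v
    rw [hv, TAA_sum φ hφadd]
    refine Finset.sum_eq_zero fun i _ => ?_
    rw [TAA_sum φ hφadd]
    refine Finset.sum_eq_zero fun j _ => ?_
    rw [hφsmul, ← hT, hφT, mul_zero]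
  rw [hφ] at hφ0
  exact sub_eq_zero.mp hφ0

end Cfsg.Agent.Lib.Helper65.SP12
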