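import Mathlib
import Cfsg.Prelude.Def_GeometricClasses
import Cfsg.Prelude.Def_LieClassical
import Cfsg.Agent.Lib.Helper71.Asch0
import Cfsg.Agent.Lib.Helper57.ASCOREA
import Cfsg.Agent.Lib.Helper82.ASCOREB
import Cfsg.Agent.Lib.Helper46.ASB3s

/-! Project SP4C (helper65; S5790): piece `COMP`: a central product of at least two non-scalar
subgroups acting absolutely irreducibly on `F^4` has a tensor factor of degree 2. -/

set_option autoImplicit false

namespace Cfsg.Agent.Lib.Helper65.SP4C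

open Matrix Cfsg.Geo Cfsg.Agent.Lib.Helper71.Asch

variable {n : ℕ} {F : Type*} [Field F] [Fintype F]

/-- induction over a supremum of subgroups -/
theorem COMP_ind {G : Type*} [Group G] {k : ℕ} (Ps : Fin k → Subgroup G) (p : G → Prop)
    (hgen : ∀ i, ∀ x ∈ Ps i, p x) (h1 : p 1) (hmul : ∀ x y, p x → p y → p (x * y)) :
    ∀ x ∈ ⨆ i, Ps i, p x := by
  intro x hx
  exact Subgroup.iSup_induction Ps (C := p) hx hgen h1 hmul

/-- COMP -/
theorem COMP (L : Subgroup (GL (Fin 4) F)) (hLa : ActsAbsolutelyIrreducibly (matrixSet L))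
    (k : ℕ) (Ps : Fin k → Subgroup (GL (Fin 4) F)) (hk : 2 ≤ k)
    (hns : ∀ i, ¬ Ps i ≤ scalars (Fin 4) F)
    (hcomm : ∀ i j, i ≠ j → ∀ x ∈ Ps i, ∀ y ∈ Ps j, x * y = y * x)
    (hsup : L = ⨆ i, Ps i) :
    ∃ (N : Subgroup (GL (Fin 4) F)) (e : Fin 4 ≃ Fin 2 × Fin 2) (P : GL (Fin 4) F)
      (R : Subgroup (GL (Fin 2) F)), N ≤ L ∧ Nrm L N ∧
      ActsAbsolutelyIrreducibly (matrixSet R) ∧
      (∀ x ∈ N, ∃ y ∈ R, x.1 = tmat e P y.1 1) ∧
      (∀ y ∈ R, ∃ x ∈ N, x.1 = tmat e P y.1 1) := by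
  classical
  subst hsup
  obtain ⟨i0, hi0⟩ : ∃ i0 : Fin k, i0 = ⟨0, by omega⟩ := ⟨_, rfl⟩
  obtain ⟨i1, hi1⟩ : ∃ i1 : Fin k, i1 = ⟨1, by omega⟩ := ⟨_, rfl⟩
  have hi01 : i1 ≠ i0 := by
    intro h
    have := congrArg Fin.val h
    rw [hi0, hi1] at this
    simp at this
  obtain ⟨N, hNdef⟩ : ∃ N : Subgroup (GL (Fin 4) F), N = Ps i0 := ⟨_, rfl⟩
  have hNL : N ≤ ⨆ i, Ps i := hNdef ▸ le_iSup Ps i0
  have hNrm : Nrm (⨆ i, Ps i) N := by
    intro h hh
    refine COMP_ind Ps (fun h => ∀ x ∈ N, h * x * h⁻¹ ∈ N) ?_ ?_ ?_ h hh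
    · intro j y hy x hx
      by_cases hj : j = i0
      · subst hj
        rw [hNdef] at hx ⊢
        exact (Ps j).mul_mem ((Ps j).mul_mem hy hx) ((Ps j).inv_mem hy)
      · have hc := hcomm j i0 hj y hy x (hNdef ▸ hx)
        rw [hc, mul_assoc, mul_inv_cancel, mul_one]
        exact hx
    · intro x hx
      simpa using hx
    · intro a b ha hb x hx
      have h1 := ha _ (hb x hx)
      have h2 : a * b * x * (a * b)⁻¹ = a * (b * x * b⁻¹) * a⁻¹ := by group
      rw [h2]
      exact h1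
  -- a matrix commuting with all components commutes with `L`
  have hcommL : ∀ z : Matrix (Fin 4) (Fin 4) F, (∀ j, ∀ y ∈ Ps j, z * y.1 = y.1 * z) →
      ∀ s ∈ matrixSet (⨆ i, Ps i), z * s = s * z := by
    intro z hz s hs
    obtain ⟨g, hg, rfl⟩ := hs
    refine COMP_ind Ps (fun g => z * g.1 = g.1 * z) hz ?_ ?_ g hg
    · simp
    · intro a b ha hb
      rw [Units.val_mul, ← mul_assoc, ha, mul_assoc, hb, mul_assoc]
  -- elements of the other components commute with `N`
  have hother : ∀ j, j ≠ i0 → ∀ y ∈ Ps j, ∀ x ∈ N, y.1 * x.1 = x.1 * y.1 := by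
    intro j hj y hy x hx
    have hc := hcomm j i0 hj y hy x (hNdef ▸ hx)
    have h3 := congrArg Units.val hc
    rwa [Units.val_mul, Units.val_mul] at h3
  rcases Cfsg.Agent.Lib.Helper57.ASCOREA.coreA (by norm_num) (⨆ i, Ps i) N hLa.1 hNL hNrm with
    ⟨t, m, D, hD, -, hX, hNst⟩ | ⟨d, k', e, P, R, hR, hR1, hR2⟩
  · exfalso
    have hinv : ∀ i, ∀ s ∈ matrixSet (⨆ i, Ps i), (D i).map (Matrix.toLin' s) ≤ D i := by
      intro i s hs
      obtain ⟨g, hg, rfl⟩ := hs
      refine COMP_ind Ps (fun g => (D i).map (Matrix.toLin' g.1) ≤ D i) ?_ ?_ ?_ g hg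
      · intro j y hy
        by_cases hj : j = i0
        · subst hj
          exact hNst i y (hNdef ▸ hy)
        · exact hX i y.1 (fun x hx => hother j hj y hy x hx)
      · simp
      · intro a b ha hb
        rw [Units.val_mul, Matrix.toLin'_mul, Submodule.map_comp]
        exact le_trans (Submodule.map_mono hb) ha
    have ht := hD.two_le
    obtain ⟨j0, hj0⟩ : ∃ j0 : Fin t, j0 = ⟨0, by omega⟩ := ⟨_, rfl⟩
    obtain ⟨j1, hj1⟩ : ∃ j1 : Fin t, j1 = ⟨1, by omega⟩ := ⟨_, rfl⟩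
    have hj01 : j0 ≠ j1 := by
      intro h
      have := congrArg Fin.val h
      rw [hj0, hj1] at this
      simp at this
    have hne : ∀ i, D i ≠ ⊥ := by
      intro i hbot
      have h3 := hD.finrank_eq i
      rw [hbot, finrank_bot] at h3
      have := hD.pos
      omega
    rcases hLa.1 (D j0) (hinv j0) with hb | htop
    · exact hne j0 hb
    · have hdis := hD.indep j1
      have hle : D j0 ≤ ⨆ l, ⨆ (_ : l ≠ j1), D l := le_iSup₂_of_le j0 hj01 le_rfl
      have h5 : D j1 ≤ ⨆ l, ⨆ (_ : l ≠ j1), D l := by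
        rw [htop] at hle
        exact le_trans le_top hle
      exact hne j1 (hdis.eq_bot_of_le h5)
  · have hcard : 4 = d * k' := by
      have := Fintype.card_congr e
      simpa using this
    by_cases hRa : ActsAbsolutelyIrreducibly (matrixSet R)
    · have hcases : (d = 1 ∧ k' = 4) ∨ (d = 2 ∧ k' = 2) ∨ (d = 4 ∧ k' = 1) := by
        have h1 : d ∣ 4 := Dvd.intro k' hcard.symm
        have h3 : d ≤ 4 := Nat.le_of_dvd (by norm_num) h1
        clear hR hR1 hR2 hRa R e
        interval_cases d <;> omega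
      rcases hcases with ⟨rfl, rfl⟩ | ⟨rfl, rfl⟩ | ⟨rfl, rfl⟩
      · exact absurd (Cfsg.Agent.Lib.Helper46.ASB3s.B3s e P R N hR1) (hNdef ▸ hns i0)
      · exact ⟨N, e, P, R, hNL, hNrm, hRa, hR1, hR2⟩
      · exfalso
        have hNa := Cfsg.Agent.Lib.Helper46.ASB3s.B3a e P R N hRa hR2
        apply hns i1
        intro y hy
        have hyc : ∀ s ∈ matrixSet N, y.1 * s = s * y.1 := by
          rintro s ⟨x, hx, rfl⟩
          exact hother i1 hi01 y hy x hx
        obtain ⟨c, hc⟩ := hNa.2 y.1 hyc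
        rw [mem_scalars_iff]
        have hc0 : c ≠ 0 := by
          rintro rfl
          have h3 := y.mul_inv
          rw [hc, zero_smul, zero_mul] at h3
          exact zero_ne_one h3
        exact ⟨Units.mk0 c hc0, hc⟩
    · exfalso
      obtain ⟨r, K, hr, hK, -, hz⟩ := Cfsg.Agent.Lib.Helper82.ASCOREB.coreB (by norm_num)
        (⨆ i, Ps i) N hNL hNrm e P R hR hR1 hR2 hRa
      have hsc : ∀ z ∈ K, ∃ c : F, z = c • (1 : Matrix (Fin 4) (Fin 4) F) := by
        intro z hzK
        obtain ⟨hz1, hz2⟩ := hz z hzK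
        apply hLa.2 z
        apply hcommL z
        intro j y hy
        by_cases hj : j = i0
        · subst hj
          exact hz1 y (hNdef ▸ hy)
        · exact hz2 y.1 (fun x hx => hother j hj y hy x hx)
      have hle : Subalgebra.toSubmodule K ≤
          Submodule.span F {(1 : Matrix (Fin 4) (Fin 4) F)} := by
        intro z hzK
        obtain ⟨c, hc⟩ := hsc z hzK
        rw [hc]
        exact Submodule.smul_mem _ c (Submodule.subset_span rfl)
      have h6 := Submodule.finrank_mono hle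
      rw [finrank_span_singleton (one_ne_zero), Subalgebra.finrank_toSubmodule,
        hK.finrank_eq] at h6
      have := hr.two_le
      omega

end Cfsg.Agent.Lib.Helper65.SP4C
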