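import Mathlib
import Cfsg.Prelude.Def_GeometricClasses
import Cfsg.Prelude.Def_LieClassical
import Cfsg.Agent.Lib.Helper71.Asch0
import Cfsg.Agent.Lib.Helper75.SPPEVEN

/-! Project SP4C (helper65; S5790): piece `PLANE` (filled by helper31). -/

set_option autoImplicit false

namespace Cfsg.Agent.Lib.Helper65.SP4C

open Matrix Cfsg.Geo Cfsg.Agent.Lib.Helper71.Asch

variable {n : ℕ} {F : Type*} [Field F] [Fintype F]

omit [Fintype F] in
/-- the orthogonal complement of a non-degenerate subspace is a complement -/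
theorem PLANE_compl (f : (Fin n → F) → (Fin n → F) → F) (hf : IsSymplecticForm f)
    (W : Submodule F (Fin n → F)) (hnd : IsNondegenerateOn f W) :
    ∃ W' : Submodule F (Fin n → F), (∀ v, v ∈ W' ↔ ∀ w ∈ W, f w v = 0) ∧ IsCompl W W' := by
  let B : LinearMap.BilinForm F (Fin n → F) :=
    LinearMap.mk₂ F f hf.bilinear.add_left
      (fun c x v => by rw [smul_eq_mul]; exact hf.bilinear.smul_left c x v)
      hf.bilinear.add_right
      (fun c v x => by rw [smul_eq_mul]; exact hf.bilinear.smul_right c v x)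
  have hB : ∀ x y, B x y = f x y := fun x y => rfl
  have hrefl : B.IsRefl := by
    intro x y h
    rw [hB] at h ⊢
    rw [hf.skew, h, neg_zero]
  have hndB : (B.restrict W).Nondegenerate := by
    constructor
    · intro x hx
      by_contra hx0
      have hx0' : (x : Fin n → F) ≠ 0 := fun h => hx0 (Subtype.ext h)
      obtain ⟨_, ⟨y, hyW, hy⟩⟩ := hnd x x.2 hx0'
      exact hy (hx ⟨y, hyW⟩)
    · intro y hy
      by_contra hy0
      have hy0' : (y : Fin n → F) ≠ 0 := fun h => hy0 (Subtype.ext h)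
      obtain ⟨⟨x, hxW, hx⟩, _⟩ := hnd y y.2 hy0'
      exact hx (hy ⟨x, hxW⟩)
  exact ⟨B.orthogonal W, fun v => Iff.rfl,
    LinearMap.BilinForm.isCompl_orthogonal_of_restrict_nondegenerate hrefl hndB⟩

omit [Fintype F] in
/-- a subspace mapped into itself by a subgroup is mapped onto itself by each of its elements -/
theorem PLANE_map_eq (H : Subgroup (GL (Fin n) F)) (U : Submodule F (Fin n → F))
    (hU : ∀ g ∈ H, ∀ v ∈ U, (g : Matrix (Fin n) (Fin n) F) *ᵥ v ∈ U) (g : GL (Fin n) F)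
    (hg : g ∈ H) : U.map (Matrix.toLin' (g : Matrix (Fin n) (Fin n) F)) = U := by
  ext v
  rw [Submodule.mem_map]
  constructor
  · rintro ⟨y, hy, rfl⟩
    rw [Matrix.toLin'_apply]
    exact hU g hg y hy
  · intro hv
    refine ⟨((g⁻¹ : GL (Fin n) F) : Matrix (Fin n) (Fin n) F) *ᵥ v,
      hU g⁻¹ (H.inv_mem hg) v hv, ?_⟩
    rw [Matrix.toLin'_apply, Matrix.mulVec_mulVec, ← Units.val_mul, mul_inv_cancel,
      Units.val_one, Matrix.one_mulVec]

/-- PLANE -/
theorem PLANE (f : (Fin 4 → F) → (Fin 4 → F) → F) (hf : IsSymplecticForm f)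
    (H : Subgroup (GL (Fin 4) F)) (hfix : FixesForm (matrixSet H) f)
    (W : Submodule F (Fin 4 → F)) (h0 : W ≠ ⊥) (hnd : IsNondegenerateOn f W)
    (hdim : 2 * Module.finrank F W ≤ 4) (hle : H ≤ subspaceStabilizer W) :
    ∃ D : Fin 2 → Submodule F (Fin 4 → F), IsNondegenerateMDecomposition f 2 D ∧
      H ≤ decompositionStabilizer D := by
  classical
  obtain ⟨W', hW', hcompl⟩ := PLANE_compl f hf W hnd
  have hW2 : Module.finrank F W = 2 := by
    have hev := Cfsg.Agent.Lib.Helper75.SPPEVEN.EVEN f hf.bilinear hf.alternating W hnd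
    have hne : Module.finrank F W ≠ 0 := by
      intro h
      exact h0 (Submodule.finrank_eq_zero.1 h)
    obtain ⟨k, hk⟩ := hev
    omega
  have hsum : Module.finrank F W + Module.finrank F W' = 4 := by
    have h := Submodule.finrank_add_eq_of_isCompl hcompl
    rw [Module.finrank_fin_fun] at h
    exact h
  have hW'2 : Module.finrank F W' = 2 := by omega
  have hnd' : IsNondegenerateOn f W' := by
    intro v hv hv0
    obtain ⟨⟨x, hx⟩, _⟩ := hf.nondegenerate v hv0
    have hxtop : x ∈ W ⊔ W' := by rw [hcompl.sup_eq_top]; exact Submodule.mem_top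
    obtain ⟨w, hw, w', hw', rfl⟩ := Submodule.mem_sup.1 hxtop
    have h1 : f w v = 0 := (hW' v).1 hv w hw
    have h2 : f w' v ≠ 0 := by
      intro h
      apply hx
      rw [hf.bilinear.add_left, h1, h, add_zero]
    refine ⟨⟨w', hw', h2⟩, ⟨w', hw', ?_⟩⟩
    rw [hf.skew]
    exact neg_ne_zero.2 h2
  -- stability
  have hgW : ∀ g ∈ H, ∀ v ∈ W, (g : Matrix (Fin 4) (Fin 4) F) *ᵥ v ∈ W := by
    intro g hg v hv
    have h : ∀ v, v ∈ W ↔ (g : Matrix (Fin 4) (Fin 4) F) *ᵥ v ∈ W := hle hg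
    exact (h v).1 hv
  have hgW' : ∀ g ∈ H, ∀ v ∈ W', (g : Matrix (Fin 4) (Fin 4) F) *ᵥ v ∈ W' := by
    intro g hg v hv
    rw [hW']
    intro w hw
    have h1 : ((g⁻¹ : GL (Fin 4) F) : Matrix (Fin 4) (Fin 4) F) *ᵥ w ∈ W :=
      hgW g⁻¹ (H.inv_mem hg) w hw
    have h2 : (g : Matrix (Fin 4) (Fin 4) F) *ᵥ
        (((g⁻¹ : GL (Fin 4) F) : Matrix (Fin 4) (Fin 4) F) *ᵥ w) = w := by
      rw [Matrix.mulVec_mulVec, ← Units.val_mul, mul_inv_cancel, Units.val_one,
        Matrix.one_mulVec]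
    have h3 := hfix (g : Matrix (Fin 4) (Fin 4) F) ⟨g, hg, rfl⟩
      (((g⁻¹ : GL (Fin 4) F) : Matrix (Fin 4) (Fin 4) F) *ᵥ w) v
    rw [h2] at h3
    rw [h3]
    exact (hW' v).1 hv _ h1
  refine ⟨![W, W'], ⟨⟨le_refl 2, by norm_num, ?_, ?_, ?_⟩, ?_, ?_⟩, ?_⟩
  · intro i
    fin_cases i
    · exact hW2
    · exact hW'2
  · rw [iSupIndep_pair (i := (0 : Fin 2)) (j := (1 : Fin 2)) (by decide)
      (by intro k; fin_cases k <;> simp)]
    exact hcompl.disjoint
  · apply le_antisymm le_top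
    rw [← hcompl.sup_eq_top]
    exact sup_le (le_iSup ![W, W'] 0) (le_iSup ![W, W'] 1)
  · intro i
    fin_cases i
    · exact hnd
    · exact hnd'
  · intro i j hij
    fin_cases i <;> fin_cases j
    · exact absurd rfl hij
    · intro u hu v hv
      exact (hW' v).1 hv u hu
    · intro u hu v hv
      rw [hf.skew]
      rw [(hW' u).1 hu v hv, neg_zero]
    · exact absurd rfl hij
  · intro g hg
    refine ⟨1, fun i => ?_⟩
    fin_cases i
    · exact PLANE_map_eq H W hgW g hg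
    · exact PLANE_map_eq H W' hgW' g hg

end Cfsg.Agent.Lib.Helper65.SP4C
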