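import Mathlib
import Cfsg.Prelude.Def_GeometricClasses
import Cfsg.Prelude.Def_LieClassical
import Cfsg.Agent.Lib.Helper71.Asch0

/-! Project SP4C (helper65; S5790): piece `QTa` (filled by helper2). -/

set_option autoImplicit false

namespace Cfsg.Agent.Lib.Helper65.SP4C

open Matrix Cfsg.Geo Cfsg.Agent.Lib.Helper71.Asch

variable {n : ℕ} {F : Type*} [Field F] [Fintype F]

theorem QTa_ext (M N : Matrix (Fin 2) (Fin 2) F)
    (h : ∀ u u' : Fin 2 → F, u ⬝ᵥ (M *ᵥ u') = u ⬝ᵥ (N *ᵥ u')) : M = N := by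
  ext i j
  have := h (Pi.single i 1) (Pi.single j 1)
  simpa using this

theorem QTa_gram (β : (Fin 2 → F) → (Fin 2 → F) → F) (hβ : IsBilinearForm β) :
    ∃ B : Matrix (Fin 2) (Fin 2) F, ∀ u u' : Fin 2 → F, β u u' = u ⬝ᵥ (B *ᵥ u') := by
  refine ⟨Matrix.of fun i j => β (Pi.single i 1) (Pi.single j 1), ?_⟩
  intro u u'
  have hdec : ∀ u : Fin 2 → F,
      u = u 0 • (Pi.single 0 1 : Fin 2 → F) + u 1 • (Pi.single 1 1 : Fin 2 → F) := by
    intro u; funext i; fin_cases i <;> simp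
  conv_lhs => rw [hdec u, hdec u']
  rw [hβ.add_left, hβ.smul_left, hβ.smul_left, hβ.add_right, hβ.add_right, hβ.smul_right,
    hβ.smul_right, hβ.smul_right, hβ.smul_right]
  simp [Matrix.mulVec, dotProduct, Fin.sum_univ_two]
  ring

theorem QTa_K1 (g : GL (Fin 2) F) (B : Matrix (Fin 2) (Fin 2) F)
    (h : (g.1)ᵀ * B * g.1 = B) :
    B * g.1 = ((g⁻¹ : GL (Fin 2) F).1)ᵀ * B := by
  have h1 : ((g⁻¹ : GL (Fin 2) F).1)ᵀ * (g.1)ᵀ = 1 := by
    rw [← Matrix.transpose_mul, ← Units.val_mul, mul_inv_cancel, Units.val_one,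
      Matrix.transpose_one]
  calc B * g.1 = (((g⁻¹ : GL (Fin 2) F).1)ᵀ * (g.1)ᵀ) * (B * g.1) := by rw [h1, Matrix.one_mul]
    _ = ((g⁻¹ : GL (Fin 2) F).1)ᵀ * ((g.1)ᵀ * B * g.1) := by simp only [Matrix.mul_assoc]
    _ = ((g⁻¹ : GL (Fin 2) F).1)ᵀ * B := by rw [h]

/-- QTa -/
theorem QTa (h2 : (2 : F) = 0) (R : Subgroup (GL (Fin 2) F))
    (hRa : ActsAbsolutelyIrreducibly (matrixSet R)) (β : (Fin 2 → F) → (Fin 2 → F) → F)
    (hβ : IsBilinearForm β) (hfix : FixesForm (matrixSet R) β) :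
    ∃ c : F, ∀ u u' : Fin 2 → F, β u u' = c * (u 0 * u' 1 - u 1 * u' 0) := by
  obtain ⟨B, hB⟩ := QTa_gram β hβ
  have hBx : ∀ u u' : Fin 2 → F, β u u' =
      u 0 * (B 0 0 * u' 0 + B 0 1 * u' 1) + u 1 * (B 1 0 * u' 0 + B 1 1 * u' 1) := by
    intro u u'
    rw [hB]
    simp [Matrix.mulVec, dotProduct, Fin.sum_univ_two]
  have hinv : ∀ g ∈ R, (g.1)ᵀ * B * g.1 = B := by
    intro g hg
    apply QTa_ext
    intro u u'
    have h := hfix g.1 ⟨g, hg, rfl⟩ u u'
    rw [hB, hB] at h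
    rw [← h, ← Matrix.mulVec_mulVec, ← Matrix.mulVec_mulVec, Matrix.dotProduct_mulVec,
      Matrix.vecMul_transpose]
  have hinvT : ∀ g ∈ R, (g.1)ᵀ * Bᵀ * g.1 = Bᵀ := by
    intro g hg
    have h := congrArg Matrix.transpose (hinv g hg)
    rw [Matrix.transpose_mul, Matrix.transpose_mul, Matrix.transpose_transpose] at h
    rw [Matrix.mul_assoc]
    exact h
  refine ⟨B 0 1, ?_⟩
  by_cases hB0 : B = 0
  · intro u u'
    rw [hBx, hB0]
    simp
  have hdet : B.det ≠ 0 := by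
    intro hd
    obtain ⟨v, hv, hBv⟩ := (Matrix.exists_mulVec_eq_zero_iff).mpr hd
    have hW := hRa.1 (LinearMap.ker (Matrix.mulVecLin B)) (by
      rintro s ⟨g, hg, rfl⟩ _ ⟨w, hw, rfl⟩
      rw [SetLike.mem_coe, LinearMap.mem_ker, Matrix.mulVecLin_apply] at hw
      rw [LinearMap.mem_ker, Matrix.mulVecLin_apply, Matrix.toLin'_apply]
      show B *ᵥ (g.1 *ᵥ w) = 0
      rw [Matrix.mulVec_mulVec, QTa_K1 g B (hinv g hg), ← Matrix.mulVec_mulVec, hw,
        Matrix.mulVec_zero])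
    rcases hW with hW | hW
    · have hvW : v ∈ LinearMap.ker (Matrix.mulVecLin B) := by
        rw [LinearMap.mem_ker, Matrix.mulVecLin_apply]; exact hBv
      rw [hW] at hvW
      exact hv ((Submodule.mem_bot F).mp hvW)
    · apply hB0
      apply QTa_ext
      intro u u'
      have hu' : u' ∈ LinearMap.ker (Matrix.mulVecLin B) := by rw [hW]; trivial
      rw [LinearMap.mem_ker, Matrix.mulVecLin_apply] at hu'
      rw [hu']
      simp
  have hu : IsUnit B.det := isUnit_iff_ne_zero.mpr hdet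
  obtain ⟨l, hl⟩ := hRa.2 (B⁻¹ * Bᵀ) (by
    rintro s ⟨g, hg, rfl⟩
    have e1 := QTa_K1 g B (hinv g hg)
    have e2 := QTa_K1 g Bᵀ (hinvT g hg)
    have e3 : g.1 * B⁻¹ = B⁻¹ * ((g⁻¹ : GL (Fin 2) F).1)ᵀ := by
      calc g.1 * B⁻¹ = B⁻¹ * (B * g.1) * B⁻¹ := by
            rw [← Matrix.mul_assoc, Matrix.nonsing_inv_mul B hu, Matrix.one_mul]
        _ = B⁻¹ * ((g⁻¹ : GL (Fin 2) F).1)ᵀ * (B * B⁻¹) := by
            rw [e1]; simp only [Matrix.mul_assoc]
        _ = B⁻¹ * ((g⁻¹ : GL (Fin 2) F).1)ᵀ := by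
            rw [Matrix.mul_nonsing_inv B hu, Matrix.mul_one]
    show B⁻¹ * Bᵀ * g.1 = g.1 * (B⁻¹ * Bᵀ)
    calc B⁻¹ * Bᵀ * g.1 = B⁻¹ * (Bᵀ * g.1) := Matrix.mul_assoc _ _ _
      _ = B⁻¹ * ((g⁻¹ : GL (Fin 2) F).1)ᵀ * Bᵀ := by rw [e2, Matrix.mul_assoc]
      _ = g.1 * (B⁻¹ * Bᵀ) := by rw [← e3, Matrix.mul_assoc])
  have hBT : Bᵀ = l • B := by
    calc Bᵀ = B * (B⁻¹ * Bᵀ) := by
          rw [← Matrix.mul_assoc, Matrix.mul_nonsing_inv B hu, Matrix.one_mul]
      _ = l • B := by rw [hl]; simp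
  have hentry : ∀ i j, B j i = l * B i j := by
    intro i j
    have h := congrFun (congrFun hBT i) j
    simpa using h
  have hl1 : l = 1 := by
    obtain ⟨i, j, hij⟩ : ∃ i j, B i j ≠ 0 := by
      by_contra hcon
      push Not at hcon
      exact hB0 (by ext i j; simpa using hcon i j)
    have h1 : B i j = l * (l * B i j) := by rw [← hentry i j, ← hentry j i]
    have h3 : (l - 1) * (l - 1) * B i j = 0 := by
      linear_combination (-1 : F) * h1 + (B i j - l * B i j) * h2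
    rcases mul_eq_zero.mp h3 with h4 | h4
    · exact sub_eq_zero.mp (mul_self_eq_zero.mp h4)
    · exact absurd h4 hij
  have hsymm : B 1 0 = B 0 1 := by
    rw [hentry 0 1, hl1, one_mul]
  haveI : CharP F 2 := CharTwo.of_one_ne_zero_of_two_eq_zero one_ne_zero h2
  have hchar : ringChar F = 2 := ringChar.eq F 2
  obtain ⟨al, hal⟩ := FiniteField.isSquare_of_char_two hchar (B 0 0)
  obtain ⟨de, hde⟩ := FiniteField.isSquare_of_char_two hchar (B 1 1)
  have hdiag : ∀ u : Fin 2 → F,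
      β u u = (al * u 0 + de * u 1) * (al * u 0 + de * u 1) := by
    intro u
    rw [hBx, hal, hde, hsymm]
    linear_combination (B 0 1 * u 0 * u 1 - al * de * u 0 * u 1) * h2
  obtain ⟨N0, hN0⟩ : ∃ N0 : Submodule F (Fin 2 → F),
      ∀ u, u ∈ N0 ↔ al * u 0 + de * u 1 = 0 := by
    exact ⟨
      { carrier := {u | al * u 0 + de * u 1 = 0}
        add_mem' := by
          intro x y hx hy
          simp only [Set.mem_setOf_eq, Pi.add_apply] at hx hy ⊢
          linear_combination hx + hy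
        zero_mem' := by simp
        smul_mem' := by
          intro c x hx
          simp only [Set.mem_setOf_eq, Pi.smul_apply, smul_eq_mul] at hx ⊢
          linear_combination c * hx }, fun u => Iff.rfl⟩
  have hN0inv : ∀ s ∈ matrixSet R, N0.map (Matrix.toLin' s) ≤ N0 := by
    rintro s hs _ ⟨w, hw, rfl⟩
    rw [SetLike.mem_coe, hN0] at hw
    rw [hN0, Matrix.toLin'_apply]
    have h := hfix s hs w w
    rw [hdiag, hdiag, hw, mul_zero] at h
    exact mul_self_eq_zero.mp h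
  have hzero : al = 0 ∧ de = 0 := by
    rcases hRa.1 N0 hN0inv with hN | hN
    · have hmem : (![de, al] : Fin 2 → F) ∈ N0 := by
        rw [hN0]
        show al * de + de * al = 0
        linear_combination (al * de) * h2
      rw [hN, Submodule.mem_bot] at hmem
      have h0 := congrFun hmem 0
      have h1 := congrFun hmem 1
      exact ⟨h1, h0⟩
    · have hm0 : (![1, 0] : Fin 2 → F) ∈ N0 := by rw [hN]; trivial
      have hm1 : (![0, 1] : Fin 2 → F) ∈ N0 := by rw [hN]; trivial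
      rw [hN0] at hm0 hm1
      have h0 : al * 1 + de * 0 = 0 := hm0
      have h1 : al * 0 + de * 1 = 0 := hm1
      constructor
      · linear_combination h0
      · linear_combination h1
  obtain ⟨hal0, hde0⟩ := hzero
  intro u u'
  rw [hBx, hal, hde, hsymm, hal0, hde0]
  linear_combination (B 0 1 * u 1 * u' 0) * h2

end Cfsg.Agent.Lib.Helper65.SP4C
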