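import Mathlib
import Cfsg.Prelude.Def_GeometricClasses
import Cfsg.Prelude.Def_LieClassical
import Cfsg.Agent.Lib.Helper71.Asch0
import Cfsg.Agent.Lib.Helper65.SP4CDefs
import Cfsg.Agent.Lib.Helper65.SP4CTEN1
import Cfsg.Agent.Lib.Helper65.SP4CTEN2
import Cfsg.Agent.Lib.Helper65.SP4CQTa
import Cfsg.Agent.Lib.Helper21.ASCOREC

/-! Project SP4C (helper65; S5790): piece `QTf` (filled in place by helper4; statement, theorem
name and namespace as in the placeholder; auxiliary lemmas above it, names prefixed `QTf_`). -/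

set_option autoImplicit false
set_option linter.unusedSectionVars false

namespace Cfsg.Agent.Lib.Helper65.SP4C

open Matrix Cfsg.Geo Cfsg.Agent.Lib.Helper71.Asch

variable {n : ℕ} {F : Type*} [Field F] [Fintype F]

theorem QTf_ten_add_left {d k : ℕ} (e : Fin n ≃ Fin d × Fin k) (P : GL (Fin n) F)
    (u u' : Fin d → F) (w : Fin k → F) :
    ten e P (u + u') w = ten e P u w + ten e P u' w := by
  unfold ten
  rw [← Matrix.mulVec_add]
  congr 1
  funext i
  simp only [Pi.add_apply]
  ring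

theorem QTf_ten_smul_left {d k : ℕ} (e : Fin n ≃ Fin d × Fin k) (P : GL (Fin n) F)
    (c : F) (u : Fin d → F) (w : Fin k → F) :
    ten e P (c • u) w = c • ten e P u w := by
  unfold ten
  rw [← Matrix.mulVec_smul]
  congr 1
  funext i
  simp only [Pi.smul_apply, smul_eq_mul]
  ring

theorem QTf_ten_add_right {d k : ℕ} (e : Fin n ≃ Fin d × Fin k) (P : GL (Fin n) F)
    (u : Fin d → F) (w w' : Fin k → F) :
    ten e P u (w + w') = ten e P u w + ten e P u w' := by
  unfold ten
  rw [← Matrix.mulVec_add]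
  congr 1
  funext i
  simp only [Pi.add_apply]
  ring

theorem QTf_ten_smul_right {d k : ℕ} (e : Fin n ≃ Fin d × Fin k) (P : GL (Fin n) F)
    (c : F) (u : Fin d → F) (w : Fin k → F) :
    ten e P u (c • w) = c • ten e P u w := by
  unfold ten
  rw [← Matrix.mulVec_smul]
  congr 1
  funext i
  simp only [Pi.smul_apply, smul_eq_mul]
  ring

theorem QTf_det_mulVec (a : Matrix (Fin 2) (Fin 2) F) (u u' : Fin 2 → F) :
    (a *ᵥ u) 0 * (a *ᵥ u') 1 - (a *ᵥ u) 1 * (a *ᵥ u') 0 =
      a.det * (u 0 * u' 1 - u 1 * u' 0) := by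
  simp only [Matrix.mulVec, dotProduct, Fin.sum_univ_two, Matrix.det_fin_two]
  ring

theorem QTf_expand (γ : (Fin 2 → F) → (Fin 2 → F) → F) (hγ : IsBilinearForm γ)
    (w w' : Fin 2 → F) :
    γ w w' = w 0 * w' 0 * γ ![1, 0] ![1, 0] + w 0 * w' 1 * γ ![1, 0] ![0, 1]
      + w 1 * w' 0 * γ ![0, 1] ![1, 0] + w 1 * w' 1 * γ ![0, 1] ![0, 1] := by
  have hw : ∀ v : Fin 2 → F, v = v 0 • ![1, 0] + v 1 • ![0, 1] := by
    intro v; funext i; fin_cases i <;> simp
  have key : γ (w 0 • ![1, 0] + w 1 • ![0, 1]) (w' 0 • ![1, 0] + w' 1 • ![0, 1]) =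
      w 0 * w' 0 * γ ![1, 0] ![1, 0] + w 0 * w' 1 * γ ![1, 0] ![0, 1]
      + w 1 * w' 0 * γ ![0, 1] ![1, 0] + w 1 * w' 1 * γ ![0, 1] ![0, 1] := by
    rw [hγ.add_left, hγ.smul_left, hγ.smul_left, hγ.add_right, hγ.add_right, hγ.smul_right,
      hγ.smul_right, hγ.smul_right, hγ.smul_right]
    ring
  rw [← hw w, ← hw w'] at key
  exact key

/-- QTf -/
theorem QTf (h2 : (2 : F) = 0) (f : (Fin 4 → F) → (Fin 4 → F) → F) (hf : IsSymplecticForm f)
    (G N : Subgroup (GL (Fin 4) F)) (hfix : FixesForm (matrixSet G) f)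
    (hirr : ActsIrreducibly (matrixSet G)) (hNG : N ≤ G) (hN : Nrm G N)
    (e : Fin 4 ≃ Fin 2 × Fin 2) (P : GL (Fin 4) F) (R : Subgroup (GL (Fin 2) F))
    (hRa : ActsAbsolutelyIrreducibly (matrixSet R))
    (h1 : ∀ x ∈ N, ∃ y ∈ R, x.1 = tmat e P y.1 1)
    (h2' : ∀ y ∈ R, ∃ x ∈ N, x.1 = tmat e P y.1 1) :
    ∃ μ : F, μ ≠ 0 ∧
      (∀ u w u' w' : Fin 2 → F, f (ten e P u w) (ten e P u' w') =
        μ * (u 0 * u' 1 - u 1 * u' 0) * (w 0 * w' 1 - w 1 * w' 0)) ∧
      (∀ g ∈ G, ∃ a b : GL (Fin 2) F, g.1 = tmat e P a.1 b.1 ∧ a.1.det * b.1.det = 1) := by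
  classical
  have : CharP F 2 := CharTwo.of_one_ne_zero_of_two_eq_zero one_ne_zero h2
  have hb := hf.bilinear
  -- step 1
  have hA : ∀ u w u' w' : Fin 2 → F, f (ten e P u w) (ten e P u' w') =
      f (ten e P ![1, 0] w) (ten e P ![0, 1] w') * (u 0 * u' 1 - u 1 * u' 0) := by
    intro u w u' w'
    obtain ⟨c, hc⟩ := QTa h2 R hRa (fun u u' => f (ten e P u w) (ten e P u' w'))
      ⟨fun x y v => by simp only [QTf_ten_add_left, hb.add_left],
       fun c x v => by simp only [QTf_ten_smul_left, hb.smul_left],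
       fun v x y => by simp only [QTf_ten_add_left, hb.add_right],
       fun c v x => by simp only [QTf_ten_smul_left, hb.smul_right]⟩
      (by
        rintro _ ⟨y, hy, rfl⟩ u u'
        obtain ⟨x, hx, hxe⟩ := h2' y hy
        have := hfix x.1 ⟨x, hNG hx, rfl⟩ (ten e P u w) (ten e P u' w')
        rw [hxe, TEN1, TEN1, Matrix.one_mulVec, Matrix.one_mulVec] at this
        exact this)
    have h01 : f (ten e P ![1, 0] w) (ten e P ![0, 1] w') = c * ((1 : F) * 1 - 0 * 0) :=
      hc ![1, 0] ![0, 1]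
    have h01' : f (ten e P ![1, 0] w) (ten e P ![0, 1] w') = c := by rw [h01]; ring
    rw [h01']
    exact hc u u'
  obtain ⟨γ, hγdef⟩ : ∃ γ : (Fin 2 → F) → (Fin 2 → F) → F,
      ∀ w w', γ w w' = f (ten e P ![1, 0] w) (ten e P ![0, 1] w') := ⟨_, fun _ _ => rfl⟩
  have hA' : ∀ u w u' w' : Fin 2 → F, f (ten e P u w) (ten e P u' w') =
      γ w w' * (u 0 * u' 1 - u 1 * u' 0) := by
    intro u w u' w'; rw [hγdef]; exact hA u w u' w'
  -- step 2
  have hγb : IsBilinearForm γ := by
    refine ⟨?_, ?_, ?_, ?_⟩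
    · intro x y v; simp only [hγdef, QTf_ten_add_right, hb.add_left]
    · intro c x v; simp only [hγdef, QTf_ten_smul_right, hb.smul_left]
    · intro v x y; simp only [hγdef, QTf_ten_add_right, hb.add_right]
    · intro c v x; simp only [hγdef, QTf_ten_smul_right, hb.smul_right]
  have hγs : ∀ w w', γ w w' = γ w' w := by
    intro w w'
    have h1' := hf.skew (ten e P ![1, 0] w) (ten e P ![0, 1] w')
    rw [hA' ![0, 1] w' ![1, 0] w, ← hγdef] at h1'
    have h1'' : γ w w' = -(γ w' w * ((0 : F) * 0 - 1 * 1)) := h1'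
    rw [h1'']; ring
  -- step 3
  have hcore := (Cfsg.Agent.Lib.Helper21.ASCOREC.coreC e P R N hRa h1 h2').2
  have hG : ∀ g ∈ G, ∃ a b : GL (Fin 2) F, g.1 = tmat e P a.1 b.1 := by
    intro g hg
    exact (mem_tensorProductSubgroup_iff e P g).1 (hcore g (fun x hx => hN g hg x hx))
  have hB : ∀ g ∈ G, ∀ a b : GL (Fin 2) F, g.1 = tmat e P a.1 b.1 → ∀ w w' : Fin 2 → F,
      γ (b.1 *ᵥ w) (b.1 *ᵥ w') * a.1.det = γ w w' := by
    intro g hg a b hgab w w'
    have := hfix g.1 ⟨g, hg, rfl⟩ (ten e P ![1, 0] w) (ten e P ![0, 1] w')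
    rw [hgab, TEN1, TEN1, hA', hA', QTf_det_mulVec] at this
    have this' : γ (b.1 *ᵥ w) (b.1 *ᵥ w') * (a.1.det * ((1 : F) * 1 - 0 * 0)) =
        γ w w' * ((1 : F) * 1 - 0 * 0) := this
    linear_combination this'
  -- step 4
  have hexp := QTf_expand γ hγb
  have hq : ∀ w : Fin 2 → F, γ w w =
      w 0 * w 0 * γ ![1, 0] ![1, 0] + w 1 * w 1 * γ ![0, 1] ![0, 1] := by
    intro w
    rw [hexp w w, hγs ![0, 1] ![1, 0]]
    have h := CharTwo.add_self_eq_zero (w 0 * w 1 * γ ![1, 0] ![0, 1])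
    linear_combination h
  obtain ⟨s0, hs0⟩ := FiniteField.isSquare_of_char_two (ringChar.eq F 2) (γ ![1, 0] ![1, 0])
  obtain ⟨s1, hs1⟩ := FiniteField.isSquare_of_char_two (ringChar.eq F 2) (γ ![0, 1] ![0, 1])
  have hq' : ∀ w : Fin 2 → F, γ w w = (s0 * w 0 + s1 * w 1) * (s0 * w 0 + s1 * w 1) := by
    intro w
    rw [hq w, hs0, hs1]
    have h := CharTwo.add_self_eq_zero (s0 * w 0 * (s1 * w 1))
    linear_combination -h
  have hs : s0 = 0 ∧ s1 = 0 := by
    by_contra hne
    have hw1ne : (![s1, s0] : Fin 2 → F) ≠ 0 := by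
      intro h0
      apply hne
      have h00 : s1 = 0 := congrFun h0 0
      have h01 : s0 = 0 := congrFun h0 1
      exact ⟨h01, h00⟩
    have hker : ∀ w : Fin 2 → F, γ w w = 0 → ∃ c : F, w = c • ![s1, s0] := by
      intro w hw
      rw [hq' w] at hw
      have hl : s0 * w 0 + s1 * w 1 = 0 := mul_self_eq_zero.1 hw
      by_cases h0 : s0 = 0
      · have h1 : s1 ≠ 0 := fun h => hne ⟨h0, h⟩
        have hw1 : w 1 = 0 := by
          have : s1 * w 1 = 0 := by rw [h0] at hl; simpa using hl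
          exact (mul_eq_zero.1 this).resolve_left h1
        refine ⟨w 0 / s1, ?_⟩
        funext i; fin_cases i
        · show w 0 = w 0 / s1 * s1
          field_simp
        · show w 1 = w 0 / s1 * s0
          rw [hw1, h0, mul_zero]
      · refine ⟨w 1 / s0, ?_⟩
        funext i; fin_cases i
        · show w 0 = w 1 / s0 * s1
          have h := CharTwo.add_self_eq_zero (s1 * w 1)
          have h' : w 0 * s0 = w 1 * s1 := by linear_combination hl - h
          field_simp
          exact h'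
        · show w 1 = w 1 / s0 * s0
          field_simp
    have hw1q : γ ![s1, s0] ![s1, s0] = 0 := by
      rw [hq']
      have hl1 : s0 * (![s1, s0] : Fin 2 → F) 0 + s1 * (![s1, s0] : Fin 2 → F) 1 = 0 := by
        show s0 * s1 + s1 * s0 = 0
        linear_combination CharTwo.add_self_eq_zero (s0 * s1)
      rw [hl1, mul_zero]
    let L : (Fin 2 → F) →ₗ[F] (Fin 4 → F) :=
      { toFun := fun u => ten e P u ![s1, s0]
        map_add' := fun u u' => QTf_ten_add_left e P u u' _
        map_smul' := fun c u => by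
          simp only [RingHom.id_apply]; exact QTf_ten_smul_left e P c u _ }
    have hinv : ∀ s ∈ matrixSet G,
        (LinearMap.range L).map (Matrix.toLin' s) ≤ LinearMap.range L := by
      rintro _ ⟨g, hg, rfl⟩ _ ⟨_, ⟨u, rfl⟩, rfl⟩
      obtain ⟨a, b, hab⟩ := hG g hg
      have hbq : γ (b.1 *ᵥ ![s1, s0]) (b.1 *ᵥ ![s1, s0]) = 0 := by
        have := hB g hg a b hab ![s1, s0] ![s1, s0]
        rw [hw1q] at this
        have hdet : a.1.det ≠ 0 := ((Matrix.isUnit_iff_isUnit_det a.1).1 a.isUnit).ne_zero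
        exact (mul_eq_zero.1 this).resolve_right hdet
      obtain ⟨c, hc⟩ := hker _ hbq
      refine LinearMap.mem_range.2 ⟨c • (a.1 *ᵥ u), ?_⟩
      show ten e P (c • (a.1 *ᵥ u)) ![s1, s0] =
        Matrix.toLin' (g : Matrix (Fin 4) (Fin 4) F) (ten e P u ![s1, s0])
      rw [Matrix.toLin'_apply, hab, TEN1, hc, QTf_ten_smul_right, QTf_ten_smul_left]
    rcases hirr (LinearMap.range L) hinv with hbot | htop
    · have hmem : L (fun _ => 1) ∈ LinearMap.range L := LinearMap.mem_range_self L _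
      rw [hbot, Submodule.mem_bot] at hmem
      have hP : P.1 *ᵥ (fun i : Fin 4 => (1 : F) * (![s1, s0] : Fin 2 → F) (e i).2) = 0 := hmem
      have hx : (fun i : Fin 4 => (1 : F) * (![s1, s0] : Fin 2 → F) (e i).2) = 0 := by
        have h' : (P⁻¹ : GL (Fin 4) F).1 *ᵥ
            (P.1 *ᵥ (fun i : Fin 4 => (1 : F) * (![s1, s0] : Fin 2 → F) (e i).2)) = 0 := by
          rw [hP, Matrix.mulVec_zero]
        rw [Matrix.mulVec_mulVec, ← Units.val_mul, inv_mul_cancel, Units.val_one,
          Matrix.one_mulVec] at h'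
        exact h'
      apply hw1ne
      funext j
      have := congrFun hx (e.symm (0, j))
      simpa using this
    · have h1'' := LinearMap.finrank_range_le L
      rw [htop, finrank_top, Module.finrank_fin_fun, Module.finrank_fin_fun] at h1''
      omega
  -- step 5
  obtain ⟨hs0', hs1'⟩ := hs
  have h00 : γ ![1, 0] ![1, 0] = 0 := by rw [hs0, hs0', mul_zero]
  have h11 : γ ![0, 1] ![0, 1] = 0 := by rw [hs1, hs1', mul_zero]
  have hform : ∀ w w' : Fin 2 → F,
      γ w w' = γ ![1, 0] ![0, 1] * (w 0 * w' 1 - w 1 * w' 0) := by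
    intro w w'
    rw [hexp w w', h00, h11, hγs ![0, 1] ![1, 0]]
    have h := CharTwo.add_self_eq_zero (w 1 * w' 0 * γ ![1, 0] ![0, 1])
    linear_combination h
  -- step 6
  have hμ : γ ![1, 0] ![0, 1] ≠ 0 := by
    intro hμ0
    have hz : ∀ u w u' w' : Fin 2 → F, f (ten e P u w) (ten e P u' w') = 0 := by
      intro u w u' w'; rw [hA', hform, hμ0]; ring
    have hf0l : ∀ v : Fin 4 → F, f 0 v = 0 := by
      intro v
      have := hb.smul_left 0 0 v
      simpa using this
    have hf0r : ∀ v : Fin 4 → F, f v 0 = 0 := by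
      intro v
      have := hb.smul_right 0 v 0
      simpa using this
    have hz1 : ∀ (x : Fin 4 → F) (u' w' : Fin 2 → F), f x (ten e P u' w') = 0 := by
      intro x u' w'
      let S : Submodule F (Fin 4 → F) :=
        { carrier := {x | f x (ten e P u' w') = 0}
          add_mem' := fun {a b} ha hb' => by
            show f (a + b) _ = 0
            rw [hb.add_left, ha, hb', add_zero]
          zero_mem' := hf0l _
          smul_mem' := fun c a ha => by
            show f (c • a) _ = 0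
            rw [hb.smul_left, ha, mul_zero] }
      have hxS : x ∈ S := by
        rw [TEN2 e P x]
        exact Submodule.sum_mem _ (fun i _ => Submodule.sum_mem _
          (fun j _ => Submodule.smul_mem _ _ (hz _ _ _ _)))
      exact hxS
    have hz2 : ∀ x v : Fin 4 → F, f x v = 0 := by
      intro x v
      let S : Submodule F (Fin 4 → F) :=
        { carrier := {v | f x v = 0}
          add_mem' := fun {a b} ha hb' => by
            show f x (a + b) = 0
            rw [hb.add_right, ha, hb', add_zero]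
          zero_mem' := hf0r _
          smul_mem' := fun c a ha => by
            show f x (c • a) = 0
            rw [hb.smul_right, ha, mul_zero] }
      have hvS : v ∈ S := by
        rw [TEN2 e P v]
        exact Submodule.sum_mem _ (fun i _ => Submodule.sum_mem _
          (fun j _ => Submodule.smul_mem _ _ (hz1 _ _ _)))
      exact hvS
    obtain ⟨⟨x, hx⟩, -⟩ := hf.nondegenerate (Pi.single 0 1) (by
      intro h; have := congrFun h 0; simp at this)
    exact hx (hz2 _ _)
  -- step 7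
  refine ⟨γ ![1, 0] ![0, 1], hμ, ?_, ?_⟩
  · intro u w u' w'
    rw [hA', hform]; ring
  · intro g hg
    obtain ⟨a, b, hab⟩ := hG g hg
    refine ⟨a, b, hab, ?_⟩
    have h := hB g hg a b hab ![1, 0] ![0, 1]
    rw [hform (b.1 *ᵥ ![1, 0]) (b.1 *ᵥ ![0, 1]), QTf_det_mulVec] at h
    have h'' : γ ![1, 0] ![0, 1] * (b.1.det * ((1 : F) * 1 - 0 * 0)) * a.1.det =
        γ ![1, 0] ![0, 1] := h
    have h3 : γ ![1, 0] ![0, 1] * (a.1.det * b.1.det - 1) = 0 := by linear_combination h''
    rcases mul_eq_zero.1 h3 with h0 | h0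
    · exact absurd h0 hμ
    · linear_combination h0

end Cfsg.Agent.Lib.Helper65.SP4C
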