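import Mathlib
import Cfsg.Prelude.Def_GeometricClasses
import Cfsg.Prelude.Def_LieClassical
import Cfsg.Agent.Lib.Helper71.Asch0
import Cfsg.Agent.Lib.Helper29.SPPTens
import Cfsg.Agent.Lib.Helper65.SP4CDefs
import Cfsg.Agent.Lib.Helper65.SP4CTEN2

/-! Project SP4C (helper65; S5790): piece `QTq`: the quadratic form `μ · det` of a tensor
structure `2 ⊗ 2`. -/

set_option autoImplicit false

namespace Cfsg.Agent.Lib.Helper65.SP4C

open Matrix Cfsg.Geo Cfsg.Agent.Lib.Helper71.Asch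
open scoped Kronecker

variable {n : ℕ} {F : Type*} [Field F] [Fintype F]

/-- the coordinates of `v` in the tensor basis -/
def QTq_X (e : Fin 4 ≃ Fin 2 × Fin 2) (P : GL (Fin 4) F) (v : Fin 4 → F) (i j : Fin 2) : F :=
  ((P⁻¹ : GL (Fin 4) F).1 *ᵥ v) (e.symm (i, j))

omit [Fintype F] in
theorem QTq_X_add (e : Fin 4 ≃ Fin 2 × Fin 2) (P : GL (Fin 4) F) (u v : Fin 4 → F) (i j : Fin 2) :
    QTq_X e P (u + v) i j = QTq_X e P u i j + QTq_X e P v i j := by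
  unfold QTq_X
  rw [Matrix.mulVec_add, Pi.add_apply]

omit [Fintype F] in
theorem QTq_X_smul (e : Fin 4 ≃ Fin 2 × Fin 2) (P : GL (Fin 4) F) (c : F) (v : Fin 4 → F)
    (i j : Fin 2) : QTq_X e P (c • v) i j = c * QTq_X e P v i j := by
  unfold QTq_X
  rw [Matrix.mulVec_smul, Pi.smul_apply, smul_eq_mul]

omit [Fintype F] in
/-- the coordinates of `tmat e P a b *ᵥ v` -/
theorem QTq_X_tmat (e : Fin 4 ≃ Fin 2 × Fin 2) (P : GL (Fin 4) F)
    (a b : Matrix (Fin 2) (Fin 2) F) (v : Fin 4 → F) (k l : Fin 2) :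
    QTq_X e P (tmat e P a b *ᵥ v) k l =
      a k 0 * b l 0 * QTq_X e P v 0 0 + a k 0 * b l 1 * QTq_X e P v 0 1 +
      (a k 1 * b l 0 * QTq_X e P v 1 0 + a k 1 * b l 1 * QTq_X e P v 1 1) := by
  obtain ⟨x, hx⟩ : ∃ x : Fin 2 × Fin 2 → F, x = fun p => ((P⁻¹ : GL (Fin 4) F).1 *ᵥ v) (e.symm p) :=
    ⟨_, rfl⟩
  have hxe : x ∘ e = (P⁻¹ : GL (Fin 4) F).1 *ᵥ v := by
    funext i
    rw [hx]
    simp
  have hv : v = P.1 *ᵥ (x ∘ e) := by
    rw [hxe, Matrix.mulVec_mulVec, ← Units.val_mul, mul_inv_cancel, Units.val_one,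
      Matrix.one_mulVec]
  have h1 : (P⁻¹ : GL (Fin 4) F).1 *ᵥ (tmat e P a b *ᵥ v) = ((a ⊗ₖ b) *ᵥ x) ∘ e := by
    conv_lhs => rw [hv]
    rw [Cfsg.Agent.Lib.Helper29.SPPTens.tmat_mulVec, Matrix.mulVec_mulVec, ← Units.val_mul,
      inv_mul_cancel, Units.val_one, Matrix.one_mulVec]
  have hX : ∀ i j, QTq_X e P v i j = x (i, j) := by
    intro i j
    rw [hx]
    rfl
  unfold QTq_X at hX ⊢
  rw [h1, hX, hX, hX, hX]
  simp only [Function.comp_apply, Equiv.apply_symm_apply, Matrix.mulVec, dotProduct,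
    Fintype.sum_prod_type, Fin.sum_univ_two, Matrix.kroneckerMap_apply]

/-- QTq -/
theorem QTq (f : (Fin 4 → F) → (Fin 4 → F) → F) (hf : IsSymplecticForm f)
    (G : Subgroup (GL (Fin 4) F)) (e : Fin 4 ≃ Fin 2 × Fin 2) (P : GL (Fin 4) F) (μ : F)
    (hμ : μ ≠ 0)
    (hform : ∀ u w u' w' : Fin 2 → F, f (ten e P u w) (ten e P u' w') =
      μ * (u 0 * u' 1 - u 1 * u' 0) * (w 0 * w' 1 - w 1 * w' 0))
    (hG : ∀ g ∈ G, ∃ a b : GL (Fin 2) F, g.1 = tmat e P a.1 b.1 ∧ a.1.det * b.1.det = 1) :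
    ∃ Q : (Fin 4 → F) → F, IsNondegenerateQuadraticForm Q ∧
      (∀ u v, QuadraticMap.polar Q u v = f u v) ∧ FixesQuadForm (matrixSet G) Q := by
  classical
  obtain ⟨T, hT⟩ : ∃ T : Fin 2 → Fin 2 → (Fin 4 → F),
      T = fun i j => ten e P (Pi.single i 1) (Pi.single j 1) := ⟨_, rfl⟩
  have hb := hf.bilinear
  -- the form on the tensor basis
  have hTT : ∀ i j k l : Fin 2, f (T i j) (T k l) =
      μ * ((Pi.single i (1 : F) : Fin 2 → F) 0 * (Pi.single k (1 : F) : Fin 2 → F) 1 -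
        (Pi.single i (1 : F) : Fin 2 → F) 1 * (Pi.single k (1 : F) : Fin 2 → F) 0) *
      ((Pi.single j (1 : F) : Fin 2 → F) 0 * (Pi.single l (1 : F) : Fin 2 → F) 1 -
        (Pi.single j (1 : F) : Fin 2 → F) 1 * (Pi.single l (1 : F) : Fin 2 → F) 0) := by
    intro i j k l
    rw [hT]
    exact hform _ _ _ _
  -- the expansion of a vector
  have hexp : ∀ v : Fin 4 → F, v = QTq_X e P v 0 0 • T 0 0 + QTq_X e P v 0 1 • T 0 1 +
      (QTq_X e P v 1 0 • T 1 0 + QTq_X e P v 1 1 • T 1 1) := by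
    intro v
    have h := TEN2 e P v
    rw [Fin.sum_univ_two, Fin.sum_univ_two, Fin.sum_univ_two] at h
    rw [hT]
    exact h
  -- the form in coordinates
  have hfX : ∀ u v : Fin 4 → F, f u v = μ * (QTq_X e P u 0 0 * QTq_X e P v 1 1 +
      QTq_X e P u 1 1 * QTq_X e P v 0 0 - QTq_X e P u 0 1 * QTq_X e P v 1 0 -
      QTq_X e P u 1 0 * QTq_X e P v 0 1) := by
    intro u v
    conv_lhs => rw [hexp u, hexp v]
    simp only [hb.add_left, hb.add_right, hb.smul_left, hb.smul_right, hTT]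
    simp [Pi.single_apply]
    ring
  obtain ⟨Q, hQdef⟩ : ∃ Q : (Fin 4 → F) → F, Q = fun v =>
      μ * (QTq_X e P v 0 0 * QTq_X e P v 1 1 - QTq_X e P v 0 1 * QTq_X e P v 1 0) := ⟨_, rfl⟩
  have hpol : ∀ u v, QuadraticMap.polar Q u v = f u v := by
    intro u v
    rw [hfX u v]
    unfold QuadraticMap.polar
    rw [hQdef]
    simp only [QTq_X_add]
    ring
  have hpol' : QuadraticMap.polar Q = f := by
    funext u v
    exact hpol u v
  refine ⟨Q, ⟨?_, ?_, ?_⟩, hpol, ?_⟩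
  · intro c v
    rw [hQdef]
    simp only [QTq_X_smul]
    ring
  · rw [hpol']
    exact hb
  · rw [hpol']
    exact hf.nondegenerate
  · rintro s ⟨g, hg, rfl⟩ v
    obtain ⟨a, b, hab, hdet⟩ := hG g hg
    rw [Matrix.det_fin_two, Matrix.det_fin_two] at hdet
    rw [hQdef]
    show μ * (QTq_X e P (g.1 *ᵥ v) 0 0 * QTq_X e P (g.1 *ᵥ v) 1 1 -
      QTq_X e P (g.1 *ᵥ v) 0 1 * QTq_X e P (g.1 *ᵥ v) 1 0) =
      μ * (QTq_X e P v 0 0 * QTq_X e P v 1 1 - QTq_X e P v 0 1 * QTq_X e P v 1 0)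
    rw [hab]
    simp only [QTq_X_tmat]
    linear_combination (μ * (QTq_X e P v 0 0 * QTq_X e P v 1 1 -
      QTq_X e P v 0 1 * QTq_X e P v 1 0)) * hdet

end Cfsg.Agent.Lib.Helper65.SP4C
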