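import Mathlib
import Cfsg.Prelude.Def_GeometricClasses
import Cfsg.Prelude.Def_LieClassical
import Cfsg.Agent.Lib.Helper71.Asch0

/-! Project SP4C (helper65; S5790): piece `SAK`: in characteristic 2 a self-adjoint quadratic field
subalgebra normalised by an irreducible group of isometries of the symplectic form `f` satisfies
`f (k v) v = 0`. -/

set_option autoImplicit false

namespace Cfsg.Agent.Lib.Helper65.SP4C

open Matrix Cfsg.Geo Cfsg.Agent.Lib.Helper71.Asch

variable {n : ℕ} {F : Type*} [Field F] [Fintype F]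

/-- An additive map `φ` on `F^n` (`n ≥ 2`, `F` finite of characteristic 2) with
`φ (c • v) = c * c * φ v` vanishes at a non-zero vector. -/
theorem SAK_exists_ne_zero (hn : 2 ≤ n) (h2 : (2 : F) = 0) (φ : (Fin n → F) → F)
    (hadd : ∀ u v, φ (u + v) = φ u + φ v) (hsmul : ∀ (c : F) v, φ (c • v) = c * c * φ v) :
    ∃ v : Fin n → F, v ≠ 0 ∧ φ v = 0 := by
  classical
  haveI : CharP F 2 := CharTwo.of_one_ne_zero_of_two_eq_zero one_ne_zero h2
  set v₁ : Fin n → F := Pi.single ⟨0, by omega⟩ 1 with hv₁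
  set v₂ : Fin n → F := Pi.single ⟨1, by omega⟩ 1 with hv₂
  by_cases h1 : φ v₁ = 0
  · refine ⟨v₁, ?_, h1⟩
    intro h
    have := congrFun h ⟨0, by omega⟩
    simp [hv₁] at this
  · obtain ⟨c, hc⟩ := FiniteField.isSquare_of_char_two (ringChar.eq F 2) (φ v₂ / φ v₁)
    refine ⟨c • v₁ + v₂, ?_, ?_⟩
    · intro h
      have := congrFun h ⟨1, by omega⟩
      have hne : (⟨1, by omega⟩ : Fin n) ≠ ⟨0, by omega⟩ := by
        intro h'
        exact absurd (congrArg Fin.val h') (by simp)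
      simp [hv₁, hv₂, Pi.single_apply, hne] at this
    · rw [hadd, hsmul, ← hc, div_mul_cancel₀ _ h1]
      exact CharTwo.add_self_eq_zero _

/-- SAK -/
theorem SAK (hn : 2 ≤ n) (h2 : (2 : F) = 0) (f : (Fin n → F) → (Fin n → F) → F)
    (hf : IsSymplecticForm f) (H : Subgroup (GL (Fin n) F)) (hfix : FixesForm (matrixSet H) f)
    (hirr : ActsIrreducibly (matrixSet H)) (K : Subalgebra F (Matrix (Fin n) (Fin n) F))
    (hK : IsFieldSubalgebra 2 K) (hsa : IsSelfAdjointFor f K)
    (hHK : H ≤ subalgebraNormalizer K) :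
    ∀ k ∈ K, ∀ v : Fin n → F, f (k *ᵥ v) v = 0 := by
  classical
  haveI : CharP F 2 := CharTwo.of_one_ne_zero_of_two_eq_zero one_ne_zero h2
  have hadd : ∀ k ∈ K, ∀ u v, f (k *ᵥ (u + v)) (u + v) = f (k *ᵥ u) u + f (k *ᵥ v) v := by
    intro k hk u v
    rw [Matrix.mulVec_add, hf.bilinear.add_left, hf.bilinear.add_right, hf.bilinear.add_right]
    have h1 : f (k *ᵥ v) u = f (k *ᵥ u) v := by
      rw [hsa k hk v u, hf.skew, CharTwo.neg_eq]
    rw [h1]
    have := CharTwo.add_self_eq_zero (f (k *ᵥ u) v)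
    linear_combination this
  have hsmul : ∀ (k : Matrix (Fin n) (Fin n) F) (c : F) v,
      f (k *ᵥ (c • v)) (c • v) = c * c * f (k *ᵥ v) v := by
    intro k c v
    rw [Matrix.mulVec_smul, hf.bilinear.smul_left, hf.bilinear.smul_right, mul_assoc]
  let N : Submodule F (Fin n → F) :=
    { carrier := {v | ∀ k ∈ K, f (k *ᵥ v) v = 0}
      add_mem' := by
        intro u v hu hv k hk
        rw [hadd k hk, hu k hk, hv k hk, add_zero]
      zero_mem' := by
        intro k hk
        rw [Matrix.mulVec_zero]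
        exact hf.alternating 0
      smul_mem' := by
        intro c v hv k hk
        rw [hsmul, hv k hk, mul_zero] }
  have hNmem : ∀ v, v ∈ N ↔ ∀ k ∈ K, f (k *ᵥ v) v = 0 := fun v => Iff.rfl
  have hNinv : ∀ s ∈ matrixSet H, N.map (Matrix.toLin' s) ≤ N := by
    rintro s ⟨h, hh, rfl⟩ w hw
    obtain ⟨v, hv, rfl⟩ := hw
    rw [hNmem]
    intro k hk
    rw [Matrix.toLin'_apply]
    have hk' : (h⁻¹ : GL (Fin n) F).1 * k * h.1 ∈ K := by
      have := (hHK (H.inv_mem hh)) k
      rw [inv_inv] at this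
      exact this.1 hk
    have e : k *ᵥ (h.1 *ᵥ v) = h.1 *ᵥ (((h⁻¹ : GL (Fin n) F).1 * k * h.1) *ᵥ v) := by
      rw [Matrix.mulVec_mulVec, Matrix.mulVec_mulVec, ← mul_assoc, ← mul_assoc, ← Units.val_mul,
        mul_inv_cancel, Units.val_one, one_mul]
    rw [e, hfix h.1 ⟨h, hh, rfl⟩]
    exact (hNmem v).1 hv _ hk'
  have hNbot : N ≠ ⊥ := by
    let b := Module.finBasisOfFinrankEq F K hK.finrank_eq
    set k₁ : Matrix (Fin n) (Fin n) F := (b 0).1 with hk₁d
    set k₂ : Matrix (Fin n) (Fin n) F := (b 1).1 with hk₂d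
    have hrep : ∀ k ∈ K, ∃ x y : F, k = x • k₁ + y • k₂ := by
      intro k hk
      refine ⟨b.repr ⟨k, hk⟩ 0, b.repr ⟨k, hk⟩ 1, ?_⟩
      have := congrArg Subtype.val (b.sum_repr ⟨k, hk⟩)
      rw [Fin.sum_univ_two] at this
      simpa using this.symm
    have hlin : ∀ (x y : F) v,
        f ((x • k₁ + y • k₂) *ᵥ v) v = x * f (k₁ *ᵥ v) v + y * f (k₂ *ᵥ v) v := by
      intro x y v
      rw [Matrix.add_mulVec, Matrix.smul_mulVec, Matrix.smul_mulVec, hf.bilinear.add_left,
        hf.bilinear.smul_left, hf.bilinear.smul_left]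
    obtain ⟨a, c, h1⟩ := hrep 1 K.one_mem
    have h1v : ∀ v, a * f (k₁ *ᵥ v) v + c * f (k₂ *ᵥ v) v = 0 := by
      intro v
      rw [← hlin, ← h1, Matrix.one_mulVec]
      exact hf.alternating v
    have hk₁ : k₁ ∈ K := (b 0).2
    have hk₂ : k₂ ∈ K := (b 1).2
    have key : ∃ v : Fin n → F, v ≠ 0 ∧ f (k₁ *ᵥ v) v = 0 ∧ f (k₂ *ᵥ v) v = 0 := by
      by_cases ha : a = 0
      · have hc : c ≠ 0 := by
          rintro rfl
          rw [ha, zero_smul, zero_smul, add_zero] at h1
          have := congrFun (congrFun h1 ⟨0, by omega⟩) ⟨0, by omega⟩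
          simp at this
        have hz : ∀ v, f (k₂ *ᵥ v) v = 0 := by
          intro v
          have := h1v v
          rw [ha, zero_mul, zero_add] at this
          exact (mul_eq_zero.1 this).resolve_left hc
        obtain ⟨v, hv0, hv⟩ := SAK_exists_ne_zero hn h2 (fun v => f (k₁ *ᵥ v) v)
          (hadd k₁ hk₁) (hsmul k₁)
        exact ⟨v, hv0, hv, hz v⟩
      · obtain ⟨v, hv0, hv⟩ := SAK_exists_ne_zero hn h2 (fun v => f (k₂ *ᵥ v) v)
          (hadd k₂ hk₂) (hsmul k₂)
        have hv' : f (k₂ *ᵥ v) v = 0 := hv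
        have hv1 : f (k₁ *ᵥ v) v = 0 := by
          have := h1v v
          rw [hv', mul_zero, add_zero] at this
          exact (mul_eq_zero.1 this).resolve_left ha
        exact ⟨v, hv0, hv1, hv'⟩
    obtain ⟨v, hv0, hv1, hv2⟩ := key
    intro hN
    apply hv0
    have : v ∈ N := by
      rw [hNmem]
      intro k hk
      obtain ⟨x, y, rfl⟩ := hrep k hk
      rw [hlin, hv1, hv2, mul_zero, mul_zero, add_zero]
    rw [hN] at this
    exact (Submodule.mem_bot F).1 this
  have hNtop : N = ⊤ := (hirr N hNinv).resolve_left hNbot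
  intro k hk v
  have : v ∈ N := by rw [hNtop]; exact Submodule.mem_top
  exact (hNmem v).1 this k hk

end Cfsg.Agent.Lib.Helper65.SP4C
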