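import Mathlib
import Cfsg.Prelude.Def_GeometricClasses
import Cfsg.Agent.Lib.Helper97.Transv
import Cfsg.Agent.Lib.Helper97.TransvM
import Cfsg.Agent.Lib.Helper71.TP0
import Cfsg.Agent.Lib.Helper71.TP1

/-!
# S5637 piece PC (helper65): pure tensors are centres
-/

set_option autoImplicit false

namespace Cfsg.Agent.Lib.Helper65.TPPC

open Matrix Cfsg.Agent.Lib.Helper71.TP Cfsg.Agent.Lib.Helper97
open scoped Kronecker

variable {a b : ℕ} {F : Type*} [Field F]

theorem TM_zero_right {ι : Type} [Fintype ι] [DecidableEq ι] (M : Subgroup (GL ι F))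
    (v : ι → F) : TM M v 0 := by
  refine ⟨by simp, fun t ht => ?_⟩
  have h1 : t = 1 := by
    apply Units.ext
    rw [ht, tv_zero_right, Units.val_one]
  rw [h1]
  exact M.one_mem

theorem TM_zero_left {ι : Type} [Fintype ι] [DecidableEq ι] (M : Subgroup (GL ι F))
    (f : ι → F) : TM M 0 f := by
  refine ⟨by simp, fun t ht => ?_⟩
  have h1 : t = 1 := by
    apply Units.ext
    rw [ht, tv, Matrix.zero_vecMulVec, add_zero, Units.val_one]
  rw [h1]
  exact M.one_mem

theorem TM_sum {ι : Type} [Fintype ι] [DecidableEq ι] (M : Subgroup (GL ι F)) (v : ι → F)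
    {κ : Type*} (s : Finset κ) (f : κ → ι → F) (h : ∀ k ∈ s, TM M v (f k)) :
    TM M v (∑ k ∈ s, f k) := by
  classical
  induction s using Finset.induction_on with
  | empty =>
    rw [Finset.sum_empty]
    exact TM_zero_right M v
  | insert k s hk ih =>
    rw [Finset.sum_insert hk]
    exact TM_add (h k (Finset.mem_insert_self k s))
      (ih (fun k' hk' => h k' (Finset.mem_insert_of_mem hk')))

/-- PC -/
theorem pure_centres (M : Subgroup (GL (Fin a × Fin b) F))
    (h1 : ∀ (u φ : Fin a → F) (w ψ : Fin b → F), ψ ⬝ᵥ w = 0 → TM M (pt u w) (pt φ ψ))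
    (h2 : ∀ (u φ : Fin a → F) (w ψ : Fin b → F), φ ⬝ᵥ u = 0 → TM M (pt u w) (pt φ ψ)) :
    ∀ (u : Fin a → F) (w : Fin b → F), pt u w ∈ centres M := by
  intro u w
  apply mem_centres_of_TM
  intro f hf
  by_cases hu : u = 0
  · rw [hu, pt_zero_left]
    exact TM_zero_left M f
  · obtain ⟨i₀, hi₀⟩ : ∃ i₀, u i₀ ≠ 0 := by
      by_contra hcon
      push Not at hcon
      exact hu (funext hcon)
    set φ₁ : Fin a → F := (u i₀)⁻¹ • Pi.single i₀ 1 with hφ₁
    have hφ₁u : φ₁ ⬝ᵥ u = 1 := by
      rw [hφ₁, smul_dotProduct, single_dotProduct, one_mul, smul_eq_mul, inv_mul_cancel₀ hi₀]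
    set ψ' : Fin b → F := fun j => ∑ i, u i * f (i, j) with hψ'
    have hψ'w : ψ' ⬝ᵥ w = 0 := by
      rw [← hf]
      simp only [dotProduct, hψ', pt_apply, Fintype.sum_prod_type, Finset.sum_mul]
      rw [Finset.sum_comm]
      apply Finset.sum_congr rfl
      intro i _
      apply Finset.sum_congr rfl
      intro j _
      ring
    set g : Fin a × Fin b → F := f - pt φ₁ ψ' with hg
    have hg2 : g = ∑ j : Fin b, pt (fun i => g (i, j)) (Pi.single j 1) := by
      funext p
      obtain ⟨i, j'⟩ := p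
      rw [Finset.sum_apply, Finset.sum_eq_single j']
      · simp
      · intro j _ hj
        simp [Ne.symm hj]
      · intro h
        exact absurd (Finset.mem_univ _) h
    have hφj : ∀ j : Fin b, (fun i => g (i, j)) ⬝ᵥ u = 0 := by
      intro j
      have e1 : (fun i => g (i, j)) ⬝ᵥ u = ∑ i, u i * f (i, j) - (φ₁ ⬝ᵥ u) * ψ' j := by
        simp only [dotProduct, hg, Pi.sub_apply, pt_apply, Finset.sum_mul]
        rw [← Finset.sum_sub_distrib]
        apply Finset.sum_congr rfl
        intro i _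
        ring
      rw [e1, hφ₁u, one_mul]
      exact sub_self _
    have hT1 : TM M (pt u w) (pt φ₁ ψ') := h1 u φ₁ w ψ' hψ'w
    have hT2 : TM M (pt u w) g := by
      rw [hg2]
      apply TM_sum
      intro j _
      exact h2 u _ w _ (hφj j)
    have hfe : f = pt φ₁ ψ' + g := by rw [hg]; abel
    rw [hfe]
    exact TM_add hT1 hT2

end Cfsg.Agent.Lib.Helper65.TPPC
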