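import Mathlib
import Cfsg.Agent.Lib.Helper44.UDDefs
import Cfsg.Agent.Lib.Helper44.UDKit
import Cfsg.Agent.Lib.Helper44.UDKit2

/-!
# S5655 (helper44's project), piece K2MIXED (helper65)
-/

set_option autoImplicit false
set_option linter.unusedSectionVars false
set_option linter.unusedVariables false

namespace Cfsg.Agent.Lib.Helper44.UD

open Matrix Cfsg.Agent.Lib.Helper93 Cfsg.Agent.Lib.Helper18 Cfsg.Agent.Lib.Helper7

theorem ud_k2mixed {F : Type*} [Field F] [Fintype F] (q : ℕ) : K2MixedStmt F q := by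
  intro hF n t k e hk X hX hB hex
  classical
  obtain ⟨g, hgX, hgnb⟩ := hex
  by_contra hcon
  push Not at hcon
  have hgpres : suPres q n (g : Matrix (Fin n) (Fin n) F) := (hX hgX).1
  have hq0 := herm_q_ne_zero hF
  -- two distinct scalars of norm -1
  obtain ⟨ε, hε0, hε⟩ := exists_omega hF
  obtain ⟨ζ, hζ⟩ := udk_exists_order hF
  have hζ1 : (ζ : F) ^ (q + 1) = 1 := udk_order_pow ζ hζ
  have hζne : (ζ : F) ≠ 1 := by
    have := udk_order_ne ζ hζ 1 (by norm_num) (by have := herm_two_le hF; omega)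
    simpa using this
  obtain ⟨ε', hε'def⟩ : ∃ ε' : F, ε' = (ζ : F) * ε := ⟨_, rfl⟩
  have hε' : ε' ^ (q + 1) = -1 := by rw [hε'def, mul_pow, hζ1, one_mul, hε]
  have hεne : ε ≠ ε' := by
    intro h
    have h1 : ((ζ : F) - 1) * ε = 0 := by rw [hε'def] at h; linear_combination -h
    rcases mul_eq_zero.1 h1 with h2 | h2
    · exact hζne (sub_eq_zero.1 h2)
    · exact hε0 h2
  -- weight-2 centres inside a block
  have hcen : ∀ i j, i ≠ j → blkOf e i = blkOf e j → ∀ η : F, η ^ (q + 1) = -1 →
      Cen q X (Pi.single i 1 + η • Pi.single j 1) := by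
    intro i j hij hblk η hη
    obtain ⟨u, hu⟩ : ∃ u : Fin n → F, u = Pi.single i 1 + η • Pi.single j 1 := ⟨_, rfl⟩
    rw [← hu]
    have hui : u i = 1 := by rw [hu]; simp [hij]
    have huj : u j = η := by rw [hu]; simp [hij.symm]
    have huk : ∀ k, k ≠ i → k ≠ j → u k = 0 := by
      intro k hki hkj
      rw [hu]
      simp [hki, hkj]
    have hiso : Cfsg.hermForm n F q u u = 0 := by
      have h1 : Cfsg.hermForm n F q u u =
          Cfsg.hermForm n F q (Pi.single i 1 + η • Pi.single j 1) u := by rw [← hu]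
      rw [h1, hf_add_left, hf_smul_left, hf_single_left, hf_single_left, hui, huj, one_pow,
        ← pow_succ', hη]
      ring
    refine ⟨hiso, fun c hc => ?_⟩
    have hpres : suPres q n (Cfsg.unitaryTransvection n q u c) :=
      fun x y => transvection_preserves hF n u c hiso hc x y
    have hdet := transvection_det (q := q) n u c hiso
    obtain ⟨g', hg', hgS⟩ := exists_gl_of_pres hpres hdet
    refine ⟨g', hB g' hgS.1 ((mem_sl_iff g').mp hgS.2) ?_, hg'⟩
    rw [hg']
    refine ⟨1, fun r s hrs => ?_⟩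
    rw [Equiv.Perm.one_apply]
    by_contra hne
    apply hrs
    have hrs' : r ≠ s := fun h => hne (h ▸ rfl)
    rw [← udk_col (Cfsg.unitaryTransvection n q u c) s r, unitaryTransvection_mulVec,
      hf_single_left]
    simp only [Pi.add_apply, Pi.smul_apply, smul_eq_mul, Pi.single_apply, if_neg hrs']
    by_cases hs : u s = 0
    · rw [hs, zero_pow hq0]
      ring
    · by_cases hr : u r = 0
      · rw [hr]
        ring
      · exfalso
        apply hne
        have hs' : s = i ∨ s = j := by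
          by_contra h
          push Not at h
          exact hs (huk s h.1 h.2)
        have hr' : r = i ∨ r = j := by
          by_contra h
          push Not at h
          exact hr (huk r h.1 h.2)
        rcases hr' with h1 | h1 <;> rcases hs' with h2 | h2
        · rw [h1, h2]
        · rw [h1, h2]; exact hblk
        · rw [h1, h2]; exact hblk.symm
        · rw [h1, h2]
  -- the pair claim
  have hpair : ∀ i j, i ≠ j → blkOf e i = blkOf e j → ∃ β, ∀ r, blkOf e r ≠ β →
      (g : Matrix (Fin n) (Fin n) F) r i = 0 ∧ (g : Matrix (Fin n) (Fin n) F) r j = 0 := by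
    intro i j hij hblk
    have hA := Cen.map hX (hcen i j hij hblk ε hε) ⟨g, hgX, rfl⟩
    have hA' := Cen.map hX (hcen i j hij hblk ε' hε') ⟨g, hgX, rfl⟩
    have hAr : ∀ (η : F) (r : Fin n),
        ((g : Matrix (Fin n) (Fin n) F) *ᵥ (Pi.single i 1 + η • Pi.single j 1)) r =
          (g : Matrix (Fin n) (Fin n) F) r i + η * (g : Matrix (Fin n) (Fin n) F) r j := by
      intro η r
      rw [Matrix.mulVec_add, Matrix.mulVec_smul, Pi.add_apply, Pi.smul_apply, udk_col, udk_col,
        smul_eq_mul]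
    have hAA' : Cfsg.hermForm n F q
        ((g : Matrix (Fin n) (Fin n) F) *ᵥ (Pi.single i 1 + ε • Pi.single j 1))
        ((g : Matrix (Fin n) (Fin n) F) *ᵥ (Pi.single i 1 + ε' • Pi.single j 1)) ≠ 0 := by
      rw [hgpres, hf_add_left, hf_smul_left, hf_single_left, hf_single_left]
      have h1 : (Pi.single i 1 + ε' • Pi.single j 1 : Fin n → F) i = 1 := by simp [hij]
      have h2 : (Pi.single i 1 + ε' • Pi.single j 1 : Fin n → F) j = ε' := by simp [hij.symm]
      rw [h1, h2, one_pow]
      intro h3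
      -- 1 + ε ε'^q = 0 and 1 + ε ε^q = 0
      have h4 : ε * ε ^ q = -1 := by rw [← pow_succ']; exact hε
      have h5 : ε * (ε' ^ q - ε ^ q) = 0 := by linear_combination h3 - h4
      rcases mul_eq_zero.1 h5 with h6 | h6
      · exact hε0 h6
      · have h7 : ε' ^ q = ε ^ q := sub_eq_zero.1 h6
        have h8 := congrArg (fun x => x ^ q) h7
        simp only [herm_pow_pow hF] at h8
        exact hεne h8.symm
    unfold Cfsg.hermForm at hAA'
    obtain ⟨r₀, -, hr₀⟩ := Finset.exists_ne_zero_of_sum_ne_zero hAA'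
    have hA0 := left_ne_zero_of_mul hr₀
    have hA'0 : ((g : Matrix (Fin n) (Fin n) F) *ᵥ (Pi.single i 1 + ε' • Pi.single j 1)) r₀ ≠ 0 :=
      fun h => hr₀ (by rw [h, zero_pow hq0, mul_zero])
    refine ⟨blkOf e r₀, fun r hr => ?_⟩
    have h1 : ((g : Matrix (Fin n) (Fin n) F) *ᵥ (Pi.single i 1 + ε • Pi.single j 1)) r = 0 := by
      by_contra h
      exact hr (hcon _ hA r r₀ h hA0)
    have h2 : ((g : Matrix (Fin n) (Fin n) F) *ᵥ (Pi.single i 1 + ε' • Pi.single j 1)) r = 0 := by
      by_contra h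
      exact hr (hcon _ hA' r r₀ h hA'0)
    rw [hAr] at h1 h2
    have h3 : (g : Matrix (Fin n) (Fin n) F) r j = 0 := by
      have h4 : (ε - ε') * (g : Matrix (Fin n) (Fin n) F) r j = 0 := by linear_combination h1 - h2
      rcases mul_eq_zero.1 h4 with h | h
      · exact absurd (sub_eq_zero.1 h) hεne
      · exact h
    refine ⟨?_, h3⟩
    rw [h3, mul_zero, add_zero] at h1
    exact h1
  -- another index in the same block
  have hoth : ∀ i, ∃ j, j ≠ i ∧ blkOf e j = blkOf e i := by
    intro i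
    have : Nontrivial (Fin k) := Fin.nontrivial_iff_two_le.2 hk
    obtain ⟨b, hb⟩ := exists_ne (e i).2
    refine ⟨e.symm ((e i).1, b), ?_, ?_⟩
    · intro h
      apply hb
      have h1 := congrArg (fun x => (e x).2) h
      simpa using h1
    · simp [blkOf]
  have hcolne : ∀ i, ∃ r, (g : Matrix (Fin n) (Fin n) F) r i ≠ 0 := by
    intro i
    by_contra h
    push Not at h
    have h1 : (g : Matrix (Fin n) (Fin n) F) *ᵥ Pi.single i 1 = 0 := by
      funext r
      rw [udk_col]
      exact h r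
    have h2 := udk_inv_mulVec g (Pi.single i 1)
    rw [h1, Matrix.mulVec_zero] at h2
    have h3 := congrFun h2 i
    simp at h3
  have hrowne : ∀ r, ∃ i, (g : Matrix (Fin n) (Fin n) F) r i ≠ 0 := by
    intro r
    by_contra h
    push Not at h
    have h1 : ((g * g⁻¹ : GL (Fin n) F) : Matrix (Fin n) (Fin n) F) r r = 0 := by
      rw [Units.val_mul, Matrix.mul_apply]
      apply Finset.sum_eq_zero
      intro i _
      rw [h i, zero_mul]
    rw [mul_inv_cancel, Units.val_one, Matrix.one_apply_eq] at h1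
    exact one_ne_zero h1
  have hcol : ∀ i, ∃ β, ∀ r, (g : Matrix (Fin n) (Fin n) F) r i ≠ 0 → blkOf e r = β := by
    intro i
    obtain ⟨j, hji, hblk⟩ := hoth i
    obtain ⟨β, hβ⟩ := hpair i j hji.symm hblk.symm
    exact ⟨β, fun r hr => by by_contra h; exact hr (hβ r h).1⟩
  choose σ₁ hσ₁ using hcol
  have hσ₁eq : ∀ i j, blkOf e i = blkOf e j → σ₁ i = σ₁ j := by
    intro i j hblk
    by_cases hij : i = j
    · rw [hij]
    · obtain ⟨β, hβ⟩ := hpair i j hij hblk
      obtain ⟨r, hr⟩ := hcolne i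
      obtain ⟨r', hr'⟩ := hcolne j
      have h1 : blkOf e r = β := by by_contra h; exact hr (hβ r h).1
      have h2 : blkOf e r' = β := by by_contra h; exact hr' (hβ r' h).2
      rw [← hσ₁ i r hr, ← hσ₁ j r' hr', h1, h2]
  have hk0 : 0 < k := by omega
  obtain ⟨rep, hrep⟩ : ∃ rep : Fin t → Fin n, ∀ c, blkOf e (rep c) = c :=
    ⟨fun c => e.symm (c, ⟨0, hk0⟩), fun c => by simp [blkOf]⟩
  have hσ₀eq : ∀ i, σ₁ i = σ₁ (rep (blkOf e i)) := fun i => hσ₁eq i _ (hrep _).symm
  have hsurj : Function.Surjective (fun c => σ₁ (rep c)) := by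
    intro c'
    obtain ⟨i, hi⟩ := hrowne (rep c')
    refine ⟨blkOf e i, ?_⟩
    show σ₁ (rep (blkOf e i)) = c'
    rw [← hσ₀eq, ← hσ₁ i (rep c') hi, hrep]
  have hbij : Function.Bijective (fun c => σ₁ (rep c)) :=
    ⟨Finite.injective_iff_surjective.2 hsurj, hsurj⟩
  apply hgnb
  refine ⟨Equiv.ofBijective _ hbij, fun i j hij => ?_⟩
  rw [Equiv.ofBijective_apply]
  show blkOf e i = σ₁ (rep (blkOf e j))
  rw [← hσ₀eq]
  exact hσ₁ j i hij

end Cfsg.Agent.Lib.Helper44.UD
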