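import Mathlib
import Cfsg.Agent.Lib.Helper44.UDDefs
import Cfsg.Agent.Lib.Helper44.UDKit
import Cfsg.Agent.Lib.Helper44.UDKit2

/-!
# S5655 (helper44's project), `q = 2` kit (helper65): `udq2k_*`.
-/

set_option autoImplicit false
set_option linter.unusedSectionVars false
set_option linter.unusedVariables false

namespace Cfsg.Agent.Lib.Helper44.UD

open Matrix Cfsg.Agent.Lib.Helper93 Cfsg.Agent.Lib.Helper18 Cfsg.Agent.Lib.Helper7

section
variable {F : Type*} [Field F] [Fintype F] {n : ℕ}

theorem udq2k_add_self (hF : Fintype.card F = 2 ^ 2) (x : F) : x + x = 0 := by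
  have := two_eq_zero_of_card hF
  linear_combination x * this

theorem udq2k_exists_omega (hF : Fintype.card F = 2 ^ 2) :
    ∃ ω : F, ω ≠ 0 ∧ ω ≠ 1 ∧ ω ^ 2 + ω + 1 = 0 ∧ ω ^ 3 = 1 := by
  classical
  obtain ⟨ω, h0, h1⟩ : ∃ ω : F, ω ≠ 0 ∧ ω ≠ 1 := by
    by_contra hcon
    push Not at hcon
    have hsub : (Finset.univ : Finset F) ⊆ {0, 1} := by
      intro x _
      by_cases hx : x = 0
      · simp [hx]
      · simp [hcon x hx]
    have := Finset.card_le_card hsub
    rw [Finset.card_univ, hF] at this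
    have h2 : ({0, 1} : Finset F).card ≤ 2 := Finset.card_le_two
    omega
  have h3 := cube_eq_one_of_card hF ω h0
  refine ⟨ω, h0, h1, ?_, h3⟩
  have h4 : (ω - 1) * (ω ^ 2 + ω + 1) = 0 := by linear_combination h3
  rcases mul_eq_zero.1 h4 with h5 | h5
  · exact absurd (sub_eq_zero.1 h5) h1
  · exact h5

theorem udq2k_herm_self (u : Fin n → F) : Cfsg.hermForm n F 2 u u = ∑ i, u i ^ 3 := by
  unfold Cfsg.hermForm
  refine Finset.sum_congr rfl fun i _ => ?_
  ring

/-- diagonal matrices with nonzero entries and product one lie in `X` -/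
theorem udq2k_diag_mem (hF : Fintype.card F = 2 ^ 2) {X : Subgroup (GL (Fin n) F)}
    (hM : MonSU 2 X) (δ : Fin n → F) (hδ : ∀ i, δ i ≠ 0) (hprod : ∏ i, δ i = 1) :
    MIn X (Matrix.diagonal δ) := by
  have hpres : suPres 2 n (Matrix.diagonal δ) :=
    udk_diag_pres δ (fun i => cube_eq_one_of_card hF _ (hδ i))
  have hdet : (Matrix.diagonal δ).det = 1 := by rw [Matrix.det_diagonal, hprod]
  obtain ⟨g, hg, hgS⟩ := exists_gl_of_pres hpres hdet
  refine ⟨g, hM g hgS.1 ((mem_sl_iff g).mp hgS.2) ?_, hg⟩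
  rw [hg]
  exact Cfsg.Agent.Lib.Helper65.Mono.isMono_diagonal δ

/-- permutation matrices lie in `X` -/
theorem udq2k_perm_mem (hF : Fintype.card F = 2 ^ 2) {X : Subgroup (GL (Fin n) F)}
    (hM : MonSU 2 X) (π : Equiv.Perm (Fin n)) : MIn X (π.permMatrix F) := by
  have h2 := two_eq_zero_of_card hF
  have hpres : suPres 2 n (π.permMatrix F) := by
    intro x y
    rw [Matrix.permMatrix_mulVec, Matrix.permMatrix_mulVec]
    unfold Cfsg.hermForm
    exact Equiv.sum_comp π (fun i => x i * y i ^ 2)
  have hdet : (π.permMatrix F).det = 1 := by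
    rw [Matrix.det_permutation]
    rcases Int.units_eq_one_or (Equiv.Perm.sign π) with h | h
    · rw [h]; simp
    · rw [h]
      simp only [Units.val_neg, Units.val_one, Int.cast_neg, Int.cast_one]
      linear_combination -h2
  obtain ⟨g, hg, hgS⟩ := exists_gl_of_pres hpres hdet
  refine ⟨g, hM g hgS.1 ((mem_sl_iff g).mp hgS.2) ?_, hg⟩
  rw [hg]
  intro j
  refine ⟨π.symm j, fun i' hi' => ?_⟩
  rw [← udk_col (π.permMatrix F) j i', Matrix.permMatrix_mulVec] at hi'
  by_contra hne
  apply hi'
  have h3 : π i' ≠ j := by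
    intro h4
    apply hne
    rw [← h4, Equiv.symm_apply_apply]
  simp [Function.comp_apply, h3]

/-- the basic step: a diagonal element and the third-point rule -/
theorem udq2k_diag_step (hF : Fintype.card F = 2 ^ 2) {X : Subgroup (GL (Fin n) F)}
    (hX : X ≤ Cfsg.GU n F 2) (hM : MonSU 2 X) (w : Fin n → F) (hw : Cen 2 X w)
    (δ : Fin n → F) (hδ : ∀ i, δ i ≠ 0) (hprod : ∏ i, δ i = 1)
    (hsum : ∑ i, (δ i + 1) * w i ^ 3 = 1) : Cen 2 X (fun i => (δ i + 1) * w i) := by
  have h2 := two_eq_zero_of_card hF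
  have hd := udq2k_diag_mem hF hM δ hδ hprod
  have h1 := udk_cen_map hX hw hd
  have hdw : Matrix.diagonal δ *ᵥ w = fun i => δ i * w i := by
    funext i
    rw [Matrix.mulVec_diagonal]
  rw [hdw] at h1
  have hh : Cfsg.hermForm n F 2 (fun i => δ i * w i) w = 1 := by
    have h0 := hw.1
    rw [udq2k_herm_self] at h0
    unfold Cfsg.hermForm
    calc ∑ i, δ i * w i * w i ^ 2 = ∑ i, ((δ i + 1) * w i ^ 3 - w i ^ 3) := by
          refine Finset.sum_congr rfl fun i _ => ?_
          ring
      _ = 1 := by rw [Finset.sum_sub_distrib, hsum, h0, sub_zero]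
  have h3 := udk_cen_hyp hX hw h1 1 (by linear_combination h2)
  rw [hh, mul_one] at h3
  have h4 : (fun i => δ i * w i) + (1 : F) • w = fun i => (δ i + 1) * w i := by
    funext i
    simp only [Pi.add_apply, Pi.smul_apply, smul_eq_mul]
    ring
  rw [h4] at h3
  exact h3

/-- rescaling the coordinates of a centre with a zero coordinate -/
theorem udq2k_scale (hF : Fintype.card F = 2 ^ 2) {X : Subgroup (GL (Fin n) F)}
    (hX : X ≤ Cfsg.GU n F 2) (hM : MonSU 2 X) (u : Fin n → F) (hu : Cen 2 X u)
    (z : Fin n) (hz : u z = 0) (c : Fin n → F) (hc : ∀ i, c i ≠ 0) :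
    Cen 2 X (fun i => c i * u i) := by
  classical
  set δ : Fin n → F := fun i => if i = z then (∏ i ∈ Finset.univ.erase z, c i)⁻¹ else c i
    with hδdef
  have hP : ∏ i ∈ Finset.univ.erase z, c i ≠ 0 :=
    Finset.prod_ne_zero_iff.2 (fun i _ => hc i)
  have hδ : ∀ i, δ i ≠ 0 := by
    intro i
    simp only [hδdef]
    split_ifs
    · exact inv_ne_zero hP
    · exact hc i
  have hprod : ∏ i, δ i = 1 := by
    rw [← Finset.mul_prod_erase Finset.univ δ (Finset.mem_univ z)]
    have h1 : ∏ i ∈ Finset.univ.erase z, δ i = ∏ i ∈ Finset.univ.erase z, c i := by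
      refine Finset.prod_congr rfl fun i hi => ?_
      simp only [hδdef]
      rw [if_neg (Finset.ne_of_mem_erase hi)]
    have hδz : δ z = (∏ i ∈ Finset.univ.erase z, c i)⁻¹ := by
      rw [hδdef]
      exact if_pos rfl
    rw [h1, hδz, inv_mul_cancel₀ hP]
  have hd := udq2k_diag_mem hF hM δ hδ hprod
  have h1 := udk_cen_map hX hu hd
  have hdw : Matrix.diagonal δ *ᵥ u = fun i => c i * u i := by
    funext i
    rw [Matrix.mulVec_diagonal]
    by_cases hi : i = z
    · rw [hi, hz, mul_zero, mul_zero]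
    · simp only [hδdef]
      rw [if_neg hi]
  rw [hdw] at h1
  exact h1

/-- two vectors with the same support (and a zero coordinate): one is a centre iff the other is -/
theorem udq2k_same_supp (hF : Fintype.card F = 2 ^ 2) {X : Subgroup (GL (Fin n) F)}
    (hX : X ≤ Cfsg.GU n F 2) (hM : MonSU 2 X) (u v : Fin n → F) (hu : Cen 2 X u)
    (z : Fin n) (hz : u z = 0) (hsupp : ∀ i, u i = 0 ↔ v i = 0) : Cen 2 X v := by
  classical
  have h1 := udq2k_scale hF hX hM u hu z hz (fun i => if u i = 0 then 1 else v i / u i) (by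
    intro i
    split_ifs with h
    · exact one_ne_zero
    · exact div_ne_zero (fun h0 => h ((hsupp i).2 h0)) h)
  have h2 : (fun i => (if u i = 0 then 1 else v i / u i) * u i) = v := by
    funext i
    by_cases h : u i = 0
    · rw [if_pos h, h, mul_zero, (hsupp i).1 h]
    · rw [if_neg h, div_mul_cancel₀ _ h]
  rw [h2] at h1
  exact h1

/-- the weight-2 vectors are centres -/
theorem udq2k_cen_w2 (hF : Fintype.card F = 2 ^ 2) {X : Subgroup (GL (Fin n) F)}
    (hM : MonSU 2 X) (i j : Fin n) (hij : i ≠ j) (ε : F) (hε : ε ≠ 0) :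
    Cen 2 X (Pi.single i 1 + ε • Pi.single j 1) := by
  classical
  have h2 := two_eq_zero_of_card hF
  have hε3 := cube_eq_one_of_card hF ε hε
  obtain ⟨w, hw⟩ : ∃ w : Fin n → F, w = Pi.single i 1 + ε • Pi.single j 1 := ⟨_, rfl⟩
  rw [← hw]
  have hwi : w i = 1 := by
    rw [hw]
    simp [hij]
  have hwj : w j = ε := by
    rw [hw]
    simp [hij.symm]
  have hwk : ∀ k, k ≠ i → k ≠ j → w k = 0 := by
    intro k hki hkj
    rw [hw]
    simp [hki, hkj]
  have hiso : Cfsg.hermForm n F 2 w w = 0 := by
    have h1 : Cfsg.hermForm n F 2 w w =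
        Cfsg.hermForm n F 2 (Pi.single i 1 + ε • Pi.single j 1) w := by rw [← hw]
    rw [h1, hf_add_left, hf_smul_left, hf_single_left, hf_single_left, hwi, hwj]
    linear_combination hε3 + h2
  refine ⟨hiso, fun c hc => ?_⟩
  have hc01 : c = 0 ∨ c = 1 := by
    have h3 : c * (c + 1) = 0 := by linear_combination hc
    rcases mul_eq_zero.1 h3 with h | h
    · left; exact h
    · right; linear_combination h - h2
  rcases hc01 with rfl | rfl
  · have h3 : Cfsg.unitaryTransvection n 2 w 0 = 1 := by
      apply Matrix.mulVec_injective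
      funext x
      rw [unitaryTransvection_mulVec, zero_mul, zero_smul, add_zero, Matrix.one_mulVec]
    rw [h3]
    exact MIn.one X
  · have hpres : suPres 2 n (Cfsg.unitaryTransvection n 2 w 1) :=
      fun x y => transvection_preserves hF n w 1 hiso hc x y
    have hdet := transvection_det (q := 2) n w 1 hiso
    obtain ⟨g, hg, hgS⟩ := exists_gl_of_pres hpres hdet
    refine ⟨g, hM g hgS.1 ((mem_sl_iff g).mp hgS.2) ?_, hg⟩
    rw [hg]
    have hcol : ∀ k i', Cfsg.unitaryTransvection n 2 w 1 i' k =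
        (if i' = k then 1 else 0) + w k ^ 2 * w i' := by
      intro k i'
      rw [← udk_col (Cfsg.unitaryTransvection n 2 w 1) k i', unitaryTransvection_mulVec, one_mul,
        hf_single_left]
      simp [Pi.single_apply]
    intro k
    by_cases hki : k = i
    · refine ⟨j, fun i' hi' => ?_⟩
      by_contra hne
      apply hi'
      rw [hcol, hki, hwi]
      by_cases h' : i' = i
      · rw [if_pos h', h', hwi]
        linear_combination h2
      · rw [if_neg h', hwk i' h' hne]
        ring
    · by_cases hkj : k = j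
      · refine ⟨i, fun i' hi' => ?_⟩
        by_contra hne
        apply hi'
        rw [hcol, hkj, hwj]
        by_cases h' : i' = j
        · rw [if_pos h', h', hwj]
          linear_combination hε3 + h2
        · rw [if_neg h', hwk i' hne h']
          ring
      · refine ⟨k, fun i' hi' => ?_⟩
        by_contra hne
        apply hi'
        rw [hcol, hwk k hki hkj, if_neg hne]
        ring

end

end Cfsg.Agent.Lib.Helper44.UD
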