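import Mathlib
import Cfsg.Agent.Lib.Helper44.UDDefs
import Cfsg.Agent.Lib.Helper44.UDKit
import Cfsg.Agent.Lib.Helper44.UDKit2
import Cfsg.Agent.Lib.Helper65.UDQ2KIT

/-!
# S5655 (helper44's project), piece Q2B (helper65)
-/

set_option autoImplicit false
set_option linter.unusedSectionVars false
set_option linter.unusedVariables false

namespace Cfsg.Agent.Lib.Helper44.UD

open Matrix Cfsg.Agent.Lib.Helper93 Cfsg.Agent.Lib.Helper18 Cfsg.Agent.Lib.Helper7

theorem ud_q2b {F : Type*} [Field F] [Fintype F] (q : ℕ) : Q2BStmt F := by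
  intro hF n hn X hX hM w hw hW
  classical
  obtain ⟨a, b, c, d, hab, hac, had, hbc, hbd, hcd, ha, hb, hc, hd⟩ := hW
  have h2 := two_eq_zero_of_card hF
  obtain ⟨ω, hω0, hω1, hω2, hω3⟩ := udq2k_exists_omega hF
  have hω1' : ω + 1 ≠ 0 := by
    intro h
    apply hω1
    linear_combination h - h2
  have hω2' : ω ^ 2 + 1 ≠ 0 := by
    intro h
    apply hω0
    linear_combination hω2 - h
  by_cases hex : ∀ r, r ≠ a → r ≠ b → r ≠ c → r ≠ d → w r = 0
  · exact ⟨w, hw, a, b, c, d, hab, hac, had, hbc, hbd, hcd, ha, hb, hc, hd, hex⟩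
  push Not at hex
  obtain ⟨e, hea, heb, hec, hed, he⟩ := hex
  have ca := cube_eq_one_of_card hF _ ha
  have cb := cube_eq_one_of_card hF _ hb
  have cc := cube_eq_one_of_card hF _ hc
  have cd := cube_eq_one_of_card hF _ hd
  have ce := cube_eq_one_of_card hF _ he
  -- a sixth nonzero coordinate
  have hex2 : ∃ f, f ≠ a ∧ f ≠ b ∧ f ≠ c ∧ f ≠ d ∧ f ≠ e ∧ w f ≠ 0 := by
    by_contra hcon
    push Not at hcon
    have h0 := hw.1
    rw [udq2k_herm_self, ← Finset.sum_subset (Finset.subset_univ {a, b, c, d, e})] at h0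
    · rw [Finset.sum_insert (by simp [hab, hac, had, hea.symm]),
        Finset.sum_insert (by simp [hbc, hbd, heb.symm]),
        Finset.sum_insert (by simp [hcd, hec.symm]),
        Finset.sum_insert (by simp [hed.symm]), Finset.sum_singleton, ca, cb, cc, cd, ce] at h0
      apply one_ne_zero (α := F)
      linear_combination h0 - 2 * h2
    · intro r _ hr
      simp only [Finset.mem_insert, Finset.mem_singleton, not_or] at hr
      rw [hcon r hr.1 hr.2.1 hr.2.2.1 hr.2.2.2.1 hr.2.2.2.2]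
      ring
  obtain ⟨f, hfa, hfb, hfc, hfd, hfe, hf⟩ := hex2
  have cf := cube_eq_one_of_card hF _ hf
  -- step 1: a centre with exactly six nonzero coordinates
  obtain ⟨δ₁, hδ₁def⟩ : ∃ δ₁ : Fin n → F, δ₁ = fun i => if i = a ∨ i = b ∨ i = c then ω
      else if i = d ∨ i = e ∨ i = f then ω ^ 2 else 1 := ⟨_, rfl⟩
  have d1a : δ₁ a = ω := by simp [hδ₁def]
  have d1b : δ₁ b = ω := by simp [hδ₁def]
  have d1c : δ₁ c = ω := by simp [hδ₁def]
  have d1d : δ₁ d = ω ^ 2 := by simp [hδ₁def, had.symm, hbd.symm, hcd.symm]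
  have d1e : δ₁ e = ω ^ 2 := by simp [hδ₁def, hea, heb, hec]
  have d1f : δ₁ f = ω ^ 2 := by simp [hδ₁def, hfa, hfb, hfc]
  have d1r : ∀ r, r ∉ ({a, b, c, d, e, f} : Finset (Fin n)) → δ₁ r = 1 := by
    intro r hr
    simp only [Finset.mem_insert, Finset.mem_singleton, not_or] at hr
    simp [hδ₁def, hr.1, hr.2.1, hr.2.2.1, hr.2.2.2.1, hr.2.2.2.2.1, hr.2.2.2.2.2]
  have hδ₁ne : ∀ i, δ₁ i ≠ 0 := by
    intro i
    rw [hδ₁def]
    simp only
    split_ifs
    · exact hω0
    · exact pow_ne_zero 2 hω0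
    · exact one_ne_zero
  have hS6 : ∀ (g : Fin n → F), ∑ i ∈ ({a, b, c, d, e, f} : Finset (Fin n)), g i =
      g a + (g b + (g c + (g d + (g e + g f)))) := by
    intro g
    rw [Finset.sum_insert (by simp [hab, hac, had, hea.symm, hfa.symm]),
      Finset.sum_insert (by simp [hbc, hbd, heb.symm, hfb.symm]),
      Finset.sum_insert (by simp [hcd, hec.symm, hfc.symm]),
      Finset.sum_insert (by simp [hed.symm, hfd.symm]),
      Finset.sum_insert (by simp [hfe.symm]), Finset.sum_singleton]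
  have hP6 : ∀ (g : Fin n → F), ∏ i ∈ ({a, b, c, d, e, f} : Finset (Fin n)), g i =
      g a * (g b * (g c * (g d * (g e * g f)))) := by
    intro g
    rw [Finset.prod_insert (by simp [hab, hac, had, hea.symm, hfa.symm]),
      Finset.prod_insert (by simp [hbc, hbd, heb.symm, hfb.symm]),
      Finset.prod_insert (by simp [hcd, hec.symm, hfc.symm]),
      Finset.prod_insert (by simp [hed.symm, hfd.symm]),
      Finset.prod_insert (by simp [hfe.symm]), Finset.prod_singleton]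
  have hprod₁ : ∏ i, δ₁ i = 1 := by
    rw [← Finset.prod_subset (Finset.subset_univ {a, b, c, d, e, f}) (fun r _ hr => d1r r hr),
      hP6, d1a, d1b, d1c, d1d, d1e, d1f]
    linear_combination (ω ^ 6 + ω ^ 3 + 1) * hω3
  have hsum₁ : ∑ i, (δ₁ i + 1) * w i ^ 3 = 1 := by
    rw [← Finset.sum_subset (Finset.subset_univ {a, b, c, d, e, f})]
    · rw [hS6, d1a, d1b, d1c, d1d, d1e, d1f, ca, cb, cc, cd, ce, cf]
      linear_combination 3 * hω2 + h2
    · intro r _ hr
      rw [d1r r hr]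
      linear_combination (w r ^ 3) * h2
  have hw6 := udq2k_diag_step hF hX hM w hw δ₁ hδ₁ne hprod₁ hsum₁
  obtain ⟨w₆, hw₆def⟩ : ∃ w₆ : Fin n → F, w₆ = fun i => (δ₁ i + 1) * w i := ⟨_, rfl⟩
  rw [← hw₆def] at hw6
  have w6a : w₆ a ≠ 0 := by rw [hw₆def]; simp only; rw [d1a]; exact mul_ne_zero hω1' ha
  have w6b : w₆ b ≠ 0 := by rw [hw₆def]; simp only; rw [d1b]; exact mul_ne_zero hω1' hb
  have w6c : w₆ c ≠ 0 := by rw [hw₆def]; simp only; rw [d1c]; exact mul_ne_zero hω1' hc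
  have w6d : w₆ d ≠ 0 := by rw [hw₆def]; simp only; rw [d1d]; exact mul_ne_zero hω2' hd
  have w6r : ∀ r, r ∉ ({a, b, c, d, e, f} : Finset (Fin n)) → w₆ r = 0 := by
    intro r hr
    rw [hw₆def]
    simp only
    rw [d1r r hr]
    linear_combination (w r) * h2
  have c6a := cube_eq_one_of_card hF _ w6a
  have c6b := cube_eq_one_of_card hF _ w6b
  have c6c := cube_eq_one_of_card hF _ w6c
  have c6d := cube_eq_one_of_card hF _ w6d
  -- step 2
  obtain ⟨z, hz⟩ : ∃ z, z ∉ ({a, b, c, d, e, f} : Finset (Fin n)) := by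
    by_contra hcon
    push Not at hcon
    have h1 : (Finset.univ : Finset (Fin n)) ⊆ {a, b, c, d, e, f} := fun x _ => hcon x
    have h3 := Finset.card_le_card h1
    rw [Finset.card_univ, Fintype.card_fin] at h3
    have h4 : ({a, b, c, d, e, f} : Finset (Fin n)).card ≤ 6 := Finset.card_le_six
    omega
  have w6z : w₆ z = 0 := w6r z hz
  simp only [Finset.mem_insert, Finset.mem_singleton, not_or] at hz
  obtain ⟨hza, hzb, hzc, hzd, hze, hzf⟩ := hz
  obtain ⟨δ₂, hδ₂def⟩ : ∃ δ₂ : Fin n → F, δ₂ = fun i => if i = a then ω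
      else if i = b ∨ i = c ∨ i = d ∨ i = z then ω ^ 2 else 1 := ⟨_, rfl⟩
  have d2a : δ₂ a = ω := by simp [hδ₂def]
  have d2b : δ₂ b = ω ^ 2 := by simp [hδ₂def, hab.symm]
  have d2c : δ₂ c = ω ^ 2 := by simp [hδ₂def, hac.symm]
  have d2d : δ₂ d = ω ^ 2 := by simp [hδ₂def, had.symm]
  have d2z : δ₂ z = ω ^ 2 := by simp [hδ₂def, hza]
  have d2r : ∀ r, r ∉ ({a, b, c, d, z} : Finset (Fin n)) → δ₂ r = 1 := by
    intro r hr
    simp only [Finset.mem_insert, Finset.mem_singleton, not_or] at hr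
    simp [hδ₂def, hr.1, hr.2.1, hr.2.2.1, hr.2.2.2.1, hr.2.2.2.2]
  have hδ₂ne : ∀ i, δ₂ i ≠ 0 := by
    intro i
    rw [hδ₂def]
    simp only
    split_ifs
    · exact hω0
    · exact pow_ne_zero 2 hω0
    · exact one_ne_zero
  have hS5 : ∀ (g : Fin n → F), ∑ i ∈ ({a, b, c, d, z} : Finset (Fin n)), g i =
      g a + (g b + (g c + (g d + g z))) := by
    intro g
    rw [Finset.sum_insert (by simp [hab, hac, had, (Ne.symm hza)]),
      Finset.sum_insert (by simp [hbc, hbd, (Ne.symm hzb)]),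
      Finset.sum_insert (by simp [hcd, (Ne.symm hzc)]),
      Finset.sum_insert (by simp [(Ne.symm hzd)]), Finset.sum_singleton]
  have hP5 : ∀ (g : Fin n → F), ∏ i ∈ ({a, b, c, d, z} : Finset (Fin n)), g i =
      g a * (g b * (g c * (g d * g z))) := by
    intro g
    rw [Finset.prod_insert (by simp [hab, hac, had, (Ne.symm hza)]),
      Finset.prod_insert (by simp [hbc, hbd, (Ne.symm hzb)]),
      Finset.prod_insert (by simp [hcd, (Ne.symm hzc)]),
      Finset.prod_insert (by simp [(Ne.symm hzd)]), Finset.prod_singleton]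
  have hprod₂ : ∏ i, δ₂ i = 1 := by
    rw [← Finset.prod_subset (Finset.subset_univ {a, b, c, d, z}) (fun r _ hr => d2r r hr),
      hP5, d2a, d2b, d2c, d2d, d2z]
    linear_combination (ω ^ 6 + ω ^ 3 + 1) * hω3
  have hsum₂ : ∑ i, (δ₂ i + 1) * w₆ i ^ 3 = 1 := by
    rw [← Finset.sum_subset (Finset.subset_univ {a, b, c, d, z})]
    · rw [hS5, d2a, d2b, d2c, d2d, d2z, c6a, c6b, c6c, c6d, w6z]
      linear_combination hω2 + (ω ^ 2 + 1) * h2
    · intro r _ hr
      rw [d2r r hr]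
      linear_combination (w₆ r ^ 3) * h2
  have hw4 := udq2k_diag_step hF hX hM w₆ hw6 δ₂ hδ₂ne hprod₂ hsum₂
  refine ⟨_, hw4, a, b, c, d, hab, hac, had, hbc, hbd, hcd, ?_, ?_, ?_, ?_, ?_⟩
  · simp only; rw [d2a]; exact mul_ne_zero hω1' w6a
  · simp only; rw [d2b]; exact mul_ne_zero hω2' w6b
  · simp only; rw [d2c]; exact mul_ne_zero hω2' w6c
  · simp only; rw [d2d]; exact mul_ne_zero hω2' w6d
  · intro r hra hrb hrc hrd
    simp only
    by_cases hrz : r = z
    · rw [hrz, w6z, mul_zero]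
    · rw [d2r r (by simp [hra, hrb, hrc, hrd, hrz])]
      linear_combination (w₆ r) * h2

end Cfsg.Agent.Lib.Helper44.UD
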