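import Mathlib
import Cfsg.Agent.Lib.Helper44.UDDefs
import Cfsg.Agent.Lib.Helper44.UDKit
import Cfsg.Agent.Lib.Helper44.UDKit2
import Cfsg.Agent.Lib.Helper65.UDQ2KIT

/-!
# S5655 (helper44's project), piece Q2C (helper65)
-/

set_option autoImplicit false
set_option linter.unusedSectionVars false
set_option linter.unusedVariables false

namespace Cfsg.Agent.Lib.Helper44.UD

open Matrix Cfsg.Agent.Lib.Helper93 Cfsg.Agent.Lib.Helper18 Cfsg.Agent.Lib.Helper7

private theorem udq2c_four {α : Type*} [DecidableEq α] (s : Finset α) (hs : 4 ≤ s.card) :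
    ∃ a b c d, a ∈ s ∧ b ∈ s ∧ c ∈ s ∧ d ∈ s ∧ a ≠ b ∧ a ≠ c ∧ a ≠ d ∧ b ≠ c ∧ b ≠ d ∧ c ≠ d := by
  have hne : s.Nonempty := Finset.card_pos.1 (by omega)
  obtain ⟨a, ha⟩ := hne
  have h3 : 2 < (s.erase a).card := by rw [Finset.card_erase_of_mem ha]; omega
  obtain ⟨b, c, d, hb, hc, hd, hbc, hbd, hcd⟩ := Finset.two_lt_card_iff.1 h3
  exact ⟨a, b, c, d, ha, Finset.mem_of_mem_erase hb, Finset.mem_of_mem_erase hc,
    Finset.mem_of_mem_erase hd, (Finset.ne_of_mem_erase hb).symm,
    (Finset.ne_of_mem_erase hc).symm, (Finset.ne_of_mem_erase hd).symm, hbc, hbd, hcd⟩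

theorem ud_q2c {F : Type*} [Field F] [Fintype F] (q : ℕ) : Q2CStmt F := by
  intro hF n hn X hX hM hex
  classical
  obtain ⟨w', hw', a, b, c, d, hab, hac, had, hbc, hbd, hcd, ha, hb, hc, hd, hrest⟩ := hex
  have h2 := two_eq_zero_of_card hF
  obtain ⟨ω, hω0, hω1, hω2, hω3⟩ := udq2k_exists_omega hF
  have hout : ∀ s : Finset (Fin n), s.card ≤ 4 → ∃ z, z ∉ s := by
    intro s hs
    by_contra hcon
    push Not at hcon
    have h1 : (Finset.univ : Finset (Fin n)) ⊆ s := fun x _ => hcon x
    have h3 := Finset.card_le_card h1
    rw [Finset.card_univ, Fintype.card_fin] at h3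
    omega
  -- (1) all vectors with exactly four nonzero coordinates
  have hW4 : ∀ v : Fin n → F, Supp4 v → Cen 2 X v := by
    rintro v ⟨a', b', c', d', hab', hac', had', hbc', hbd', hcd', ha', hb', hc', hd', hrest'⟩
    have hinj1 : Function.Injective ![a', b', c', d'] := by
      intro i j hij
      fin_cases i <;> fin_cases j <;> simp_all
    have hinj2 : Function.Injective ![a, b, c, d] := by
      intro i j hij
      fin_cases i <;> fin_cases j <;> simp_all
    obtain ⟨π, hπ⟩ :=
      Equiv.Perm.exists_extending_pair ![a', b', c', d'] ![a, b, c, d] hinj1 hinj2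
    have hπa : π a' = a := hπ 0
    have hπb : π b' = b := hπ 1
    have hπc : π c' = c := hπ 2
    have hπd : π d' = d := hπ 3
    have hu := udk_cen_map hX hw' (udq2k_perm_mem hF hM π)
    rw [Matrix.permMatrix_mulVec] at hu
    obtain ⟨z, hz⟩ := hout {a', b', c', d'} Finset.card_le_four
    simp only [Finset.mem_insert, Finset.mem_singleton, not_or] at hz
    have hother : ∀ r, r ≠ a' → r ≠ b' → r ≠ c' → r ≠ d' → w' (π r) = 0 := by
      intro r h1 h2' h3 h4
      apply hrest
      · rw [← hπa]; exact fun h => h1 (π.injective h)
      · rw [← hπb]; exact fun h => h2' (π.injective h)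
      · rw [← hπc]; exact fun h => h3 (π.injective h)
      · rw [← hπd]; exact fun h => h4 (π.injective h)
    refine udq2k_same_supp hF hX hM (w' ∘ π) v hu z ?_ ?_
    · exact hother z hz.1 hz.2.1 hz.2.2.1 hz.2.2.2
    · intro i
      simp only [Function.comp_apply]
      by_cases h1 : i = a'
      · rw [h1, hπa]; exact ⟨fun h => absurd h ha, fun h => absurd h ha'⟩
      by_cases h2' : i = b'
      · rw [h2', hπb]; exact ⟨fun h => absurd h hb, fun h => absurd h hb'⟩
      by_cases h3 : i = c'
      · rw [h3, hπc]; exact ⟨fun h => absurd h hc, fun h => absurd h hc'⟩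
      by_cases h4 : i = d'
      · rw [h4, hπd]; exact ⟨fun h => absurd h hd, fun h => absurd h hd'⟩
      exact ⟨fun _ => hrest' i h1 h2' h3 h4, fun _ => hother i h1 h2' h3 h4⟩
  -- (2) induction on the weight
  have hall : ∀ m : ℕ, ∀ u : Fin n → F, (Finset.univ.filter (fun i => u i ≠ 0)).card = m →
      Cfsg.hermForm n F 2 u u = 0 → Cen 2 X u := by
    intro m
    induction m using Nat.strong_induction_on with
    | _ m ih =>
    intro u hm hiso
    by_cases h4 : 4 ≤ m
    · obtain ⟨i1, i2, i3, i4, h1, h2', h3, h4', h12, h13, h14, h23, h24, h34⟩ :=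
        udq2c_four _ (hm ▸ h4)
      simp only [Finset.mem_filter, Finset.mem_univ, true_and] at h1 h2' h3 h4'
      obtain ⟨v, hvdef⟩ : ∃ v : Fin n → F, v = fun i => if i = i1 then ω * u i1
        else if i = i2 then ω * u i2 else if i = i3 then u i3
        else if i = i4 then ω ^ 2 * u i4 else 0 := ⟨_, rfl⟩
      have hv1 : v i1 = ω * u i1 := by simp [hvdef]
      have hv2 : v i2 = ω * u i2 := by simp [hvdef, h12.symm]
      have hv3 : v i3 = u i3 := by simp [hvdef, h13.symm, h23.symm]
      have hv4 : v i4 = ω ^ 2 * u i4 := by simp [hvdef, h14.symm, h24.symm, h34.symm]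
      have hv0 : ∀ r, r ≠ i1 → r ≠ i2 → r ≠ i3 → r ≠ i4 → v r = 0 := by
        intro r a1 a2 a3 a4
        simp [hvdef, a1, a2, a3, a4]
      have hvS : Supp4 v := ⟨i1, i2, i3, i4, h12, h13, h14, h23, h24, h34,
        by rw [hv1]; exact mul_ne_zero hω0 h1, by rw [hv2]; exact mul_ne_zero hω0 h2',
        by rw [hv3]; exact h3, by rw [hv4]; exact mul_ne_zero (pow_ne_zero 2 hω0) h4', hv0⟩
      have hvC := hW4 v hvS
      have hc1 := cube_eq_one_of_card hF _ h1
      have hc2 := cube_eq_one_of_card hF _ h2'
      have hc3 := cube_eq_one_of_card hF _ h3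
      have hc4 := cube_eq_one_of_card hF _ h4'
      have huv : Cfsg.hermForm n F 2 u v = ω ^ 2 := by
        unfold Cfsg.hermForm
        rw [← Finset.sum_subset (Finset.subset_univ {i1, i2, i3, i4})]
        · rw [Finset.sum_insert (by simp [h12, h13, h14]),
            Finset.sum_insert (by simp [h23, h24]),
            Finset.sum_insert (by simp [h34]), Finset.sum_singleton, hv1, hv2, hv3, hv4]
          linear_combination ω ^ 2 * hc1 + ω ^ 2 * hc2 + hc3 + ω ^ 4 * hc4 + ω * hω3 + hω2
        · intro r _ hr
          simp only [Finset.mem_insert, Finset.mem_singleton, not_or] at hr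
          rw [hv0 r hr.1 hr.2.1 hr.2.2.1 hr.2.2.2]
          ring
      have hone : (1 : F) + 1 ^ 2 = 0 := by linear_combination h2
      obtain ⟨u', hu'def⟩ : ∃ u' : Fin n → F,
          u' = Cfsg.unitaryTransvection n 2 v 1 *ᵥ u := ⟨_, rfl⟩
      have hu'iso : Cfsg.hermForm n F 2 u' u' = 0 := by
        rw [hu'def, transvection_preserves hF n v 1 hvC.1 hone]
        exact hiso
      have hu'eq : u' = u + ω ^ 2 • v := by
        rw [hu'def, unitaryTransvection_mulVec, huv, one_mul]
      have hu'1 : u' i1 = 0 := by
        rw [hu'eq]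
        simp only [Pi.add_apply, Pi.smul_apply, smul_eq_mul, hv1]
        linear_combination (u i1) * hω3 + (u i1) * h2
      have hsub : Finset.univ.filter (fun i => u' i ≠ 0) ⊆
          (Finset.univ.filter (fun i => u i ≠ 0)).erase i1 := by
        intro i hi
        simp only [Finset.mem_filter, Finset.mem_univ, true_and] at hi
        rw [Finset.mem_erase]
        refine ⟨fun h => hi (h ▸ hu'1), ?_⟩
        simp only [Finset.mem_filter, Finset.mem_univ, true_and]
        intro hui
        apply hi
        rw [hu'eq]
        simp only [Pi.add_apply, Pi.smul_apply, smul_eq_mul]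
        rw [hui, hv0 i (fun h => h1 (h ▸ hui)) (fun h => h2' (h ▸ hui)) (fun h => h3 (h ▸ hui))
          (fun h => h4' (h ▸ hui))]
        ring
      have hlt : (Finset.univ.filter (fun i => u' i ≠ 0)).card < m := by
        have h5 := Finset.card_le_card hsub
        rw [Finset.card_erase_of_mem (by simp [h1]), hm] at h5
        omega
      have hu'C := ih _ hlt u' rfl hu'iso
      have h6 := udk_cen_hyp hX hvC hu'C 1 hone
      have h7 : Cfsg.hermForm n F 2 u' v = ω ^ 2 := by
        rw [hu'eq, hf_add_left, hf_smul_left, huv, hvC.1]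
        ring
      rw [h7, one_mul, hu'eq] at h6
      have h8 : u + ω ^ 2 • v + ω ^ 2 • v = u := by
        funext i
        simp only [Pi.add_apply, Pi.smul_apply, smul_eq_mul]
        linear_combination (ω ^ 2 * v i) * h2
      rw [h8] at h6
      exact h6
    · have hmF : ((m : ℕ) : F) = 0 := by
        have h5 : ∑ i, u i ^ 3 = ((Finset.univ.filter (fun i => u i ≠ 0)).card : F) := by
          rw [← Finset.sum_boole]
          refine Finset.sum_congr rfl fun i _ => ?_
          by_cases hi : u i = 0
          · rw [if_neg (not_not.2 hi), hi]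
            ring
          · rw [if_pos hi, cube_eq_one_of_card hF _ hi]
        rw [← hm, ← h5, ← udq2k_herm_self]
        exact hiso
      have hm02 : m = 0 ∨ m = 2 := by
        have hm4 : m < 4 := by omega
        interval_cases m
        · left; rfl
        · exfalso
          simp at hmF
        · right; rfl
        · exfalso
          have h3 : ((3 : ℕ) : F) = 1 := by
            push_cast
            linear_combination h2
          rw [h3] at hmF
          exact one_ne_zero hmF
      rcases hm02 with rfl | rfl
      · have hu0 : u = 0 := by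
          funext i
          show u i = 0
          by_contra hi
          have : i ∈ Finset.univ.filter (fun i => u i ≠ 0) := by simp [hi]
          rw [Finset.card_eq_zero.1 hm] at this
          simp at this
        rw [hu0]
        exact udk_cen_zero X
      · obtain ⟨x, y, hxy, hs⟩ := Finset.card_eq_two.1 hm
        have hmem : ∀ i, u i ≠ 0 ↔ (i = x ∨ i = y) := by
          intro i
          have := Finset.ext_iff.1 hs i
          simpa using this
        obtain ⟨z, hz⟩ := hout {x, y} (le_trans Finset.card_le_two (by norm_num))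
        simp only [Finset.mem_insert, Finset.mem_singleton, not_or] at hz
        have hcen := udq2k_cen_w2 hF hM x y hxy 1 one_ne_zero
        refine udq2k_same_supp hF hX hM _ u hcen z ?_ ?_
        · simp [hz.1, hz.2]
        · intro i
          by_cases hix : i = x
          · rw [hix]
            constructor
            · intro h
              exfalso
              simp [hxy] at h
            · intro h
              exact absurd h ((hmem x).2 (Or.inl rfl))
          · by_cases hiy : i = y
            · rw [hiy]
              constructor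
              · intro h
                exfalso
                simp [hxy.symm] at h
              · intro h
                exact absurd h ((hmem y).2 (Or.inr rfl))
            · constructor
              · intro _
                by_contra h
                rcases (hmem i).1 h with h' | h'
                · exact hix h'
                · exact hiy h'
              · intro _
                simp [hix, hiy]
  -- (3)
  show Cfsg.GU n F 2 ⊓ Cfsg.Geo.specialLinear (Fin n) F ≤ X
  exact su_le_of_cen hF (by omega) (fun v hv => hall _ v rfl hv)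

end Cfsg.Agent.Lib.Helper44.UD
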